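import Cfsg.Agent.H63.AltSec.Setup

/-!
# Reconstructing the natural module from a system of lines indexed by pairs
-/

set_option linter.unusedSectionVars false

namespace Cfsg.Agent.H63.AltSec

open Module Equiv

variable {k : Type*} [Field k] {V : Type*} [AddCommGroup V] [Module k V] {r : ℕ}

/-- An equivariant system of lines indexed by pairs, in triangle configuration. -/
structure EdgeLines (P : AltProj k V r) where
  /-- The line of a pair. -/
  line : Fin r → Fin r → Submodule k V
  symm : ∀ a b, line a b = line b a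
  finrank_line : ∀ a b, a ≠ b → finrank k ↥(line a b) = 1
  map_le : ∀ (g : ↥P.G) a b, a ≠ b → ∀ v ∈ line a b, P.op g v ∈ line (P.πP g a) (P.πP g b)
  tri : ∀ a b c, a ≠ b → a ≠ c → b ≠ c → line b c ≤ line a b ⊔ line a c
  adj : ∀ a b c, a ≠ b → a ≠ c → b ≠ c → line a b ≠ line a c
  indep : ∀ a b c d, a ≠ b → a ≠ c → a ≠ d → b ≠ c → b ≠ d → c ≠ d →
    ¬ line a d ≤ line a b ⊔ line a c

namespace EdgeLines

variable {P : AltProj k V r} (E : EdgeLines P)

theorem exists_ne_zero {a b : Fin r} (h : a ≠ b) : ∃ v ∈ E.line a b, v ≠ 0 := by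
  obtain ⟨v, hv, -⟩ := finrank_eq_one_iff'.1 (E.finrank_line a b h)
  exact ⟨v, v.2, fun e => hv (Subtype.ext e)⟩

theorem exists_smul_eq {a b : Fin r} (h : a ≠ b) {v u : V} (hv : v ∈ E.line a b) (hv0 : v ≠ 0)
    (hu : u ∈ E.line a b) : ∃ c : k, c • v = u := by
  obtain ⟨c, hc⟩ := exists_smul_eq_of_finrank_eq_one (E.finrank_line a b h)
    (x := (⟨v, hv⟩ : E.line a b)) (fun e => hv0 (congrArg Subtype.val e)) ⟨u, hu⟩
  exact ⟨c, congrArg Subtype.val hc⟩

theorem eq_of_common {a b c d : Fin r} (h : a ≠ b) (h' : c ≠ d) {v : V} (hv : v ∈ E.line a b)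
    (hv' : v ∈ E.line c d) (hv0 : v ≠ 0) : E.line a b = E.line c d := by
  refine le_antisymm (fun u hu => ?_) (fun u hu => ?_)
  · obtain ⟨e, rfl⟩ := E.exists_smul_eq h hv hv0 hu; exact Submodule.smul_mem _ e hv'
  · obtain ⟨e, rfl⟩ := E.exists_smul_eq h' hv' hv0 hu; exact Submodule.smul_mem _ e hv

include E in
/-- A system of edge lines forces the natural bound on the degree. -/
theorem bound [FiniteDimensional k V] (p : ℕ) [CharP k p] :
    r - 1 - (if p ∣ r then 1 else 0) ≤ finrank k V := by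
  classical
  have hr := P.nine_le
  let o : Fin r := ⟨0, by omega⟩
  let e₁ : Fin r := ⟨1, by omega⟩
  have hoe : o ≠ e₁ := by simp [o, e₁]
  obtain ⟨w₁, hw₁, hw₁0⟩ := E.exists_ne_zero hoe
  have hsel : ∀ x, x ≠ o → x ≠ e₁ → ∃ u ∈ E.line o x, u ≠ 0 ∧ u - w₁ ∈ E.line e₁ x := by
    intro x hxo hxe
    obtain ⟨v, hv, hv0⟩ := E.exists_ne_zero (a := e₁) (b := x) hxe.symm
    obtain ⟨a, ha, u, hu, e⟩ := Submodule.mem_sup.1 (E.tri o e₁ x hoe hxo.symm hxe.symm hv)
    obtain ⟨α, rfl⟩ := E.exists_smul_eq hoe hw₁ hw₁0 ha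
    have hu0 : u ≠ 0 := by
      rintro rfl
      rw [add_zero] at e
      have := E.eq_of_common hxe.symm hoe hv (e ▸ ha) hv0
      rw [E.symm o e₁] at this
      exact E.adj e₁ o x hoe.symm hxe.symm hxo.symm this.symm
    have hα : α ≠ 0 := by
      rintro rfl
      rw [zero_smul, zero_add] at e
      have := E.eq_of_common hxe.symm hxo.symm hv (e ▸ hu) hv0
      rw [E.symm e₁ x, E.symm o x] at this
      exact E.adj x e₁ o hxe hxo hoe.symm this
    refine ⟨(-α⁻¹) • u, Submodule.smul_mem _ _ hu, smul_ne_zero (by simp [hα]) hu0, ?_⟩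
    have : (-α⁻¹) • u - w₁ = (-α⁻¹) • v := by
      rw [← e, smul_add, smul_smul, neg_mul, inv_mul_cancel₀ hα]; module
    rw [this]
    exact Submodule.smul_mem _ _ hv
  choose sel hsel1 hsel2 hsel3 using hsel
  let w : Fin r → V := fun x => if h : x = o then 0 else if h' : x = e₁ then w₁ else sel x h h'
  have hwo : w o = 0 := dif_pos rfl
  have hwe : w e₁ = w₁ := by simp [w, hoe.symm]
  have hwx : ∀ x (h : x ≠ o) (h' : x ≠ e₁), w x = sel x h h' := fun x h h' => by simp [w, h, h']
  have hwmem : ∀ x, x ≠ o → w x ∈ E.line o x ∧ w x ≠ 0 := by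
    intro x hx
    by_cases hxe : x = e₁
    · subst hxe; rw [hwe]; exact ⟨hw₁, hw₁0⟩
    · rw [hwx x hx hxe]; exact ⟨hsel1 x hx hxe, hsel2 x hx hxe⟩
  have hindep : ∀ x y, x ≠ o → x ≠ e₁ → y ≠ o → y ≠ e₁ → x ≠ y → ∀ a b c : k,
      a • w₁ + b • w x + c • w y = 0 → a = 0 ∧ b = 0 ∧ c = 0 := by
    intro x y hxo hxe hyo hye hxy a b c h
    have hc : c = 0 := by
      by_contra hc
      refine E.indep o e₁ x y hoe hxo.symm hyo.symm hxe.symm hye.symm hxy fun u hu => ?_
      obtain ⟨d, rfl⟩ := E.exists_smul_eq hyo.symm (hwmem y hyo).1 (hwmem y hyo).2 hu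
      have : w y = (-c⁻¹ * a) • w₁ + (-c⁻¹ * b) • w x := by
        have h' := eq_neg_of_add_eq_zero_right h
        calc w y = c⁻¹ • (c • w y) := by rw [smul_smul, inv_mul_cancel₀ hc, one_smul]
          _ = _ := by rw [h']; module
      rw [this]
      exact Submodule.smul_mem _ _ (Submodule.add_mem_sup (Submodule.smul_mem _ _ hw₁)
        (Submodule.smul_mem _ _ (hwmem x hxo).1))
    rw [hc, zero_smul, add_zero] at h
    have hb : b = 0 := by
      by_contra hb
      have hmem : b • w x ∈ E.line o e₁ := by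
        rw [eq_neg_of_add_eq_zero_right h]
        exact Submodule.neg_mem _ (Submodule.smul_mem _ _ hw₁)
      exact E.adj o e₁ x hoe hxo.symm hxe.symm (E.eq_of_common hoe hxo.symm hmem
        (Submodule.smul_mem _ _ (hwmem x hxo).1) (smul_ne_zero hb (hwmem x hxo).2))
    rw [hb, zero_smul, add_zero] at h
    exact ⟨(smul_eq_zero.1 h).resolve_right hw₁0, hb, hc⟩
  have hdiff : ∀ x y, x ≠ y → w x - w y ∈ E.line x y := by
    intro x y hxy
    by_cases hxo : x = o
    · subst hxo; rw [hwo, zero_sub]; exact Submodule.neg_mem _ (hwmem y hxy.symm).1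
    by_cases hyo : y = o
    · subst hyo; rw [hwo, sub_zero, E.symm]; exact (hwmem x hxy).1
    by_cases hxe : x = e₁
    · subst hxe
      rw [hwe, hwx y hyo hxy.symm, ← neg_sub]
      exact Submodule.neg_mem _ (hsel3 y hyo hxy.symm)
    by_cases hye : y = e₁
    · subst hye
      rw [hwe, hwx x hxo hxe, E.symm]
      exact hsel3 x hxo hxe
    have hxm := hsel3 x hxo hxe
    have hym := hsel3 y hyo hye
    rw [← hwx x hxo hxe] at hxm
    rw [← hwx y hyo hye] at hym
    have hx0 : w x - w₁ ≠ 0 := fun h0 => by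
      have := (hindep x y hxo hxe hyo hye hxy (-1) 1 0 (by rw [← h0]; module)).2.1
      exact one_ne_zero this
    have hy0 : w y - w₁ ≠ 0 := fun h0 => by
      have := (hindep x y hxo hxe hyo hye hxy (-1) 0 1 (by rw [← h0]; module)).2.2
      exact one_ne_zero this
    obtain ⟨v, hv, hv0⟩ := E.exists_ne_zero hxy
    obtain ⟨p1, hp1, q1, hq1, e1⟩ := Submodule.mem_sup.1 (E.tri o x y (Ne.symm hxo) (Ne.symm hyo) hxy hv)
    obtain ⟨p2, hp2, q2, hq2, e2⟩ := Submodule.mem_sup.1 (E.tri e₁ x y (Ne.symm hxe) (Ne.symm hye) hxy hv)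
    obtain ⟨α, rfl⟩ := E.exists_smul_eq (Ne.symm hxo) (hwmem x hxo).1 (hwmem x hxo).2 hp1
    obtain ⟨β, rfl⟩ := E.exists_smul_eq (Ne.symm hyo) (hwmem y hyo).1 (hwmem y hyo).2 hq1
    obtain ⟨γ, rfl⟩ := E.exists_smul_eq (Ne.symm hxe) hxm hx0 hp2
    obtain ⟨δ, rfl⟩ := E.exists_smul_eq (Ne.symm hye) hym hy0 hq2
    obtain ⟨h1, h2, h3⟩ := hindep x y hxo hxe hyo hye hxy (γ + δ) (α - γ) (β - δ) (by
      rw [← e2] at e1
      rw [← sub_self (α • w x + β • w y)]
      nth_rewrite 2 [e1]
      module)
    rw [sub_eq_zero] at h2 h3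
    have hβ : β = -α := by linear_combination h3 + h1 + h2
    subst hβ
    have hα : α ≠ 0 := fun h0 => hv0 (by rw [← e1, h0]; simp)
    have : w x - w y = α⁻¹ • v := by
      rw [← e1, smul_add, smul_smul, smul_smul, mul_neg, inv_mul_cancel₀ hα]; module
    rw [this]
    exact Submodule.smul_mem _ _ hv
  have hdiff0 : ∀ x y, x ≠ y → w x - w y ≠ 0 := by
    intro x y hxy h
    rw [sub_eq_zero] at h
    by_cases hxo : x = o
    · subst hxo; exact (hwmem y hxy.symm).2 (h ▸ hwo)
    by_cases hyo : y = o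
    · subst hyo; exact (hwmem x hxy).2 (h.trans hwo)
    exact E.adj o x y (Ne.symm hxo) (Ne.symm hyo) hxy (E.eq_of_common (Ne.symm hxo) (Ne.symm hyo)
      (hwmem x hxo).1 (h ▸ (hwmem y hyo).1) (hwmem x hxo).2)
  -- every operator permutes the vectors up to a common scalar
  have hscal : ∀ g : ↥P.G, ∃ l : k, l ≠ 0 ∧ ∀ x y,
      P.op g (w x - w y) = l • (w (P.πP g x) - w (P.πP g y)) := by
    intro g
    have hex : ∀ x y, x ≠ y → ∃ l : k, l • (w (P.πP g x) - w (P.πP g y)) = P.op g (w x - w y) := by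
      intro x y hxy
      have hne : P.πP g x ≠ P.πP g y := fun e => hxy ((P.πP g).injective e)
      exact E.exists_smul_eq hne (hdiff _ _ hne) (hdiff0 _ _ hne) (E.map_le g x y hxy _ (hdiff x y hxy))
    choose l hl using hex
    have key : ∀ x y z (hxy : x ≠ y) (hxz : x ≠ z) (hyz : y ≠ z),
        l x y hxy = l x z hxz ∧ l y z hyz = l x z hxz := by
      intro x y z hxy hxz hyz
      have hne : P.πP g x ≠ P.πP g y := fun e => hxy ((P.πP g).injective e)
      have hne' : P.πP g x ≠ P.πP g z := fun e => hxz ((P.πP g).injective e)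
      have hne'' : P.πP g y ≠ P.πP g z := fun e => hyz ((P.πP g).injective e)
      have e : (l x y hxy - l x z hxz) • (w (P.πP g x) - w (P.πP g y)) =
          (l x z hxz - l y z hyz) • (w (P.πP g y) - w (P.πP g z)) := by
        have : P.op g (w x - w z) = P.op g (w x - w y) + P.op g (w y - w z) := by
          rw [← map_add, sub_add_sub_cancel]
        rw [← hl x y hxy, ← hl x z hxz, ← hl y z hyz] at this
        rw [← sub_eq_zero]
        rw [← sub_eq_zero] at this
        rw [← neg_eq_zero, ← this]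
        module
      by_cases h0 : l x y hxy - l x z hxz = 0
      · rw [h0, zero_smul] at e
        have := (smul_eq_zero.1 e.symm).resolve_right (hdiff0 _ _ hne'')
        exact ⟨sub_eq_zero.1 h0, (sub_eq_zero.1 this).symm⟩
      · exfalso
        have hm := Submodule.smul_mem _ (l x y hxy - l x z hxz) (hdiff _ _ hne)
        have hm' : (l x y hxy - l x z hxz) • (w (P.πP g x) - w (P.πP g y)) ∈
            E.line (P.πP g y) (P.πP g z) := by
          rw [e]; exact Submodule.smul_mem _ _ (hdiff _ _ hne'')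
        have := E.eq_of_common hne hne'' hm hm' (smul_ne_zero h0 (hdiff0 _ _ hne))
        rw [E.symm (P.πP g x) (P.πP g y)] at this
        exact E.adj _ _ _ hne.symm hne'' hne' this
    have hsymm : ∀ x y (h : x ≠ y), l x y h = l y x h.symm := by
      intro x y h
      have hne : P.πP g x ≠ P.πP g y := fun e => h ((P.πP g).injective e)
      have h1 := hl y x h.symm
      rw [← neg_sub, smul_neg, ← neg_sub (w x) (w y), map_neg, neg_inj] at h1
      exact smul_left_injective k (hdiff0 _ _ hne) ((hl x y h).trans h1.symm)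
    have hconst : ∀ x y (h : x ≠ y), l x y h = l o e₁ hoe := by
      intro x y h
      have fix1 : ∀ y (h : o ≠ y), l o y h = l o e₁ hoe := by
        intro y h
        by_cases hy : y = e₁
        · subst hy; rfl
        · exact (key o y e₁ h hoe hy).1
      by_cases hx : x = o
      · subst hx; exact fix1 y h
      by_cases hy : y = o
      · subst hy; rw [hsymm]; exact fix1 x h.symm
      · rw [(key o x y (Ne.symm hx) (Ne.symm hy) h).2]; exact fix1 y (Ne.symm hy)
    refine ⟨l o e₁ hoe, fun h0 => ?_, fun x y => ?_⟩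
    · have := hl o e₁ hoe
      rw [h0, zero_smul] at this
      exact hdiff0 o e₁ hoe (P.op_apply_injective g (by rw [← this, map_zero]))
    · by_cases h : x = y
      · subst h; simp
      · rw [← hl x y h, hconst x y h]
  -- the map from the sum-zero module
  let sumMap : (Fin r → k) →ₗ[k] k := ∑ i, LinearMap.proj i
  have hsum : ∀ c, sumMap c = ∑ i, c i := fun c => by simp [sumMap]
  let Φ : (Fin r → k) →ₗ[k] V := Fintype.linearCombination k w
  have hΦ : ∀ c, Φ c = ∑ i, c i • w i := fun c => Fintype.linearCombination_apply k w c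
  have hinv : ∀ σ : Perm (Fin r), Perm.sign σ = 1 → ∀ c, sumMap c = 0 → Φ c = 0 →
      Φ (fun i => c (σ.symm i)) = 0 := by
    intro σ hσ c hc hc0
    obtain ⟨g, hg⟩ := P.exists_lift hσ
    obtain ⟨l, hl0, hl⟩ := hscal g
    have h1 : P.op g (Φ c) = l • Φ (fun i => c (σ.symm i)) := by
      have hsub : Φ c = ∑ i, c i • (w i - w o) := by
        simp only [hwo, sub_zero, hΦ]
      calc P.op g (Φ c) = ∑ i, l • (c i • (w (σ i) - w (σ o))) := by
            rw [hsub, map_sum]
            exact Finset.sum_congr rfl fun i _ => by rw [map_smul, hl, hg, smul_comm]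
        _ = l • (∑ i, c i • w (σ i) - (∑ i, c i) • w (σ o)) := by
            rw [← Finset.smul_sum, Finset.sum_smul, ← Finset.sum_sub_distrib]
            simp only [smul_sub]
        _ = l • Φ (fun i => c (σ.symm i)) := by
            rw [← hsum, hc, zero_smul, sub_zero, hΦ, ← Equiv.sum_comp σ (fun i => c (σ.symm i) • w i)]
            simp
    rw [hc0, map_zero] at h1
    exact (smul_eq_zero.1 h1.symm).resolve_left hl0
  have hker : ∀ c, sumMap c = 0 → Φ c = 0 → ∀ a b, c a = c b := by
    intro c hc hc0 a b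
    by_contra hab'
    have hab : a ≠ b := fun e => hab' (e ▸ rfl)
    obtain ⟨z, hz⟩ : ∃ z, z ∉ ({a, b} : Finset (Fin r)) := by
      by_contra hcon
      push Not at hcon
      have h' := (Finset.card_le_card (fun p (_ : p ∈ Finset.univ) => hcon p)).trans Finset.card_le_two
      rw [Finset.card_univ, Fintype.card_fin] at h'
      omega
    simp only [Finset.mem_insert, Finset.mem_singleton, not_or] at hz
    let d : Fin r → k := c - fun i => c ((cyc b a z).symm i)
    have hsb : Perm.sign (cyc b a z) = 1 := sign_cyc hab.symm (Ne.symm hz.2) (Ne.symm hz.1)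
    have hd0 : sumMap d = 0 := by
      rw [map_sub, hc, hsum, Equiv.sum_comp (cyc b a z).symm c, ← hsum, hc, sub_zero]
    have hdΦ : Φ d = 0 := by rw [map_sub, hc0, hinv _ hsb c hc hc0, sub_zero]
    have hda : d a ≠ 0 := by
      have : (cyc b a z).symm a = b := by
        rw [Equiv.symm_apply_eq, cyc_apply_fst hab.symm (Ne.symm hz.2)]
      simp only [d, Pi.sub_apply, this]
      exact sub_ne_zero.2 hab'
    have hdsupp : ∀ i, i ≠ a → i ≠ b → i ≠ z → d i = 0 := by
      intro i h1 h2 h3
      have : (cyc b a z).symm i = i := by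
        rw [Equiv.symm_apply_eq, cyc_apply_of_ne h2 h1 h3]
      simp [d, this]
    obtain ⟨u, hu, v, hv, huv⟩ : ∃ u ∈ ({a, b, z} : Finset (Fin r))ᶜ, ∃ v ∈ ({a, b, z} : Finset (Fin r))ᶜ, u ≠ v := by
      refine Finset.one_lt_card.1 ?_
      rw [Finset.card_compl, Fintype.card_fin]
      have : ({a, b, z} : Finset (Fin r)).card ≤ 3 := Finset.card_le_three
      omega
    simp only [Finset.mem_compl, Finset.mem_insert, Finset.mem_singleton, not_or] at hu hv
    have hsu : Perm.sign (cyc a u v) = 1 := sign_cyc (Ne.symm hu.1) (Ne.symm hv.1) huv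
    let e : Fin r → k := d - fun i => d ((cyc a u v).symm i)
    have heΦ : Φ e = 0 := by rw [map_sub, hdΦ, hinv _ hsu d hd0 hdΦ, sub_zero]
    have he : e = fun i => if i = a then d a else if i = u then -d a else 0 := by
      funext i
      by_cases h1 : i = a
      · subst h1
        have : (cyc i u v).symm i = v := by rw [Equiv.symm_apply_eq, cyc_apply_thd]
        simp [e, this, hdsupp v hv.1 hv.2.1 hv.2.2]
      by_cases h2 : i = u
      · subst h2
        have : (cyc a i v).symm i = a := by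
          rw [Equiv.symm_apply_eq, cyc_apply_fst (Ne.symm h1) (Ne.symm hv.1)]
        simp [e, this, h1, hdsupp i hu.1 hu.2.1 hu.2.2]
      by_cases h3 : i = v
      · subst h3
        have : (cyc a u i).symm i = u := by
          rw [Equiv.symm_apply_eq, cyc_apply_snd (Ne.symm h1) (Ne.symm h2)]
        simp [e, this, h1, h2, hdsupp i hv.1 hv.2.1 hv.2.2, hdsupp u hu.1 hu.2.1 hu.2.2]
      have : (cyc a u v).symm i = i := by
        rw [Equiv.symm_apply_eq, cyc_apply_of_ne h1 h2 h3]
      simp [e, this, h1, h2]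
    have h2 : Φ e = d a • (w a - w u) := by
      rw [hΦ, he, Fintype.sum_eq_add a u (Ne.symm hu.1)]
      · simp [hu.1, smul_sub, sub_eq_add_neg]
      · intro i hi; simp [hi.1, hi.2]
    rw [heΦ] at h2
    exact hdiff0 a u (Ne.symm hu.1) ((smul_eq_zero.1 h2.symm).resolve_left hda)
  let Ψ : LinearMap.ker sumMap →ₗ[k] V := Φ.comp (LinearMap.ker sumMap).subtype
  have hkdim : r ≤ finrank k ↥(LinearMap.ker sumMap) + 1 := by
    have := LinearMap.finrank_range_add_finrank_ker sumMap
    rw [Module.finrank_fintype_fun_eq_card, Fintype.card_fin] at this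
    have h1 := Submodule.finrank_le (LinearMap.range sumMap)
    rw [Module.finrank_self] at h1
    omega
  have hrn := LinearMap.finrank_range_add_finrank_ker Ψ
  have hle := Submodule.finrank_le (LinearMap.range Ψ)
  have hkle : finrank k ↥(LinearMap.ker Ψ) ≤ if p ∣ r then 1 else 0 := by
    by_cases hpr : p ∣ r
    · rw [if_pos hpr]
      let one' : ↥(LinearMap.ker sumMap) := ⟨fun _ => 1, by
        rw [LinearMap.mem_ker, hsum]
        simp [(CharP.cast_eq_zero_iff k p r).2 hpr]⟩
      refine (Submodule.finrank_mono (t := Submodule.span k {one'}) ?_).trans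
        ((finrank_span_le_card _).trans (by simp))
      intro c hc
      refine Submodule.mem_span_singleton.2 ⟨c.1 o, Subtype.ext (funext fun i => ?_)⟩
      simp [one', hker c.1 c.2 hc i o]
    · rw [if_neg hpr]
      refine le_of_eq ?_
      rw [Submodule.finrank_eq_zero, eq_bot_iff]
      intro c hc
      rw [Submodule.mem_bot]
      have hconst := hker c.1 c.2 hc
      have h0 : (r : k) * c.1 o = 0 := by
        have := c.2
        rw [LinearMap.mem_ker, hsum, Finset.sum_congr rfl fun i _ => hconst i o] at this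
        simpa using this
      have hr0 : (r : k) ≠ 0 := fun h => hpr ((CharP.cast_eq_zero_iff k p r).1 h)
      exact Subtype.ext (funext fun i => (hconst i o).trans ((mul_eq_zero.1 h0).resolve_left hr0))
  split_ifs at hkle ⊢ <;> omega

end EdgeLines

end Cfsg.Agent.H63.AltSec
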