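import Cfsg.Agent.H63.AltSec.CharTwoWeights
import Cfsg.Agent.H63.AltSec.Natural

/-!
# Characteristic two: the lines of pairs

Three-cycles move planes.  The planes of two three-cycles through a common pair meet in a line, and these
lines form a system of edge lines.
-/

set_option linter.unusedSectionVars false
set_option maxHeartbeats 1000000

namespace Cfsg.Agent.H63.AltSec

open Module Equiv

theorem cyc_mul_cyc_sq {α : Type*} [DecidableEq α] {a b c d : α} (hab : a ≠ b) (hac : a ≠ c) (had : a ≠ d)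
    (hbc : b ≠ c) (hbd : b ≠ d) (hcd : c ≠ d) :
    (cyc a b c * cyc a b d) ^ 2 = (1 : Perm α) := by
  ext w
  simp only [pow_two, Perm.mul_apply, Perm.one_apply]
  by_cases h1 : w = a
  · subst h1
    simp [cyc_apply_fst hab had, cyc_apply_snd hac hbc, cyc_apply_thd, cyc_apply_of_ne, hac.symm, hbc.symm, hcd]
  by_cases h2 : w = b
  · subst h2
    simp [cyc_apply_fst hab hac, cyc_apply_snd had hbd, cyc_apply_thd, cyc_apply_of_ne, had.symm, hbd.symm,
      hcd.symm]
  by_cases h3 : w = c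
  · subst h3
    simp [cyc_apply_fst hab had, cyc_apply_snd hac hbc, cyc_apply_thd, cyc_apply_of_ne, hac.symm, hbc.symm, hcd]
  by_cases h4 : w = d
  · subst h4
    simp [cyc_apply_fst hab hac, cyc_apply_snd had hbd, cyc_apply_thd, cyc_apply_of_ne, had.symm, hbd.symm,
      hcd.symm]
  simp [cyc_apply_of_ne, h1, h2, h3, h4]

/-- A map with three eigenvectors in general position in a plane is scalar on it. -/
theorem scalar_of_three_lines {k V : Type*} [Field k] [AddCommGroup V] [Module k V] [FiniteDimensional k V]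
    {f : Module.End k V} {K : Submodule k V} (hK : finrank k ↥K = 2) {l1 l2 l3 : Submodule k V}
    (h1 : finrank k ↥l1 = 1) (h2 : finrank k ↥l2 = 1) (h3 : finrank k ↥l3 = 1)
    (k1 : l1 ≤ K) (k2 : l2 ≤ K) (k3 : l3 ≤ K) (d12 : l1 ⊓ l2 = ⊥) (d13 : l1 ⊓ l3 = ⊥) (d23 : l2 ⊓ l3 = ⊥)
    (f1 : ∀ v ∈ l1, f v ∈ l1) (f2 : ∀ v ∈ l2, f v ∈ l2) (f3 : ∀ v ∈ l3, f v ∈ l3) :
    ∃ c : k, ∀ v ∈ K, f v = c • v := by
  have hspan : l1 ⊔ l2 = K := by
    refine Submodule.eq_of_le_of_finrank_le (sup_le k1 k2) ?_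
    have := Submodule.finrank_sup_add_finrank_inf_eq l1 l2
    rw [d12, finrank_bot] at this
    omega
  have eig : ∀ (l : Submodule k V), finrank k ↥l = 1 → (∀ v ∈ l, f v ∈ l) → ∃ c : k, ∀ v ∈ l, f v = c • v := by
    intro l hl hf
    obtain ⟨⟨x, hx⟩, hx0, hgen⟩ := finrank_eq_one_iff'.1 hl
    obtain ⟨c, hc⟩ := hgen ⟨f x, hf x hx⟩
    refine ⟨c, fun v hv => ?_⟩
    obtain ⟨e, he⟩ := hgen ⟨v, hv⟩
    have he' : e • x = v := congrArg Subtype.val he
    have hc' : c • x = f x := congrArg Subtype.val hc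
    rw [← he', map_smul, ← hc', smul_comm]
  obtain ⟨c1, hc1⟩ := eig l1 h1 f1
  obtain ⟨c2, hc2⟩ := eig l2 h2 f2
  obtain ⟨c3, hc3⟩ := eig l3 h3 f3
  obtain ⟨⟨x, hx⟩, hx0, -⟩ := finrank_eq_one_iff'.1 h3
  have hx0' : x ≠ 0 := fun e => hx0 (Subtype.ext e)
  obtain ⟨u, hu, v, hv, e⟩ := Submodule.mem_sup.1 (hspan.symm ▸ k3 hx : x ∈ l1 ⊔ l2)
  have hu0 : u ≠ 0 := by
    rintro rfl
    rw [zero_add] at e
    exact hx0' ((Submodule.eq_bot_iff _).1 d23 x ⟨e ▸ hv, hx⟩)
  have hv0 : v ≠ 0 := by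
    rintro rfl
    rw [add_zero] at e
    exact hx0' ((Submodule.eq_bot_iff _).1 d13 x ⟨e ▸ hu, hx⟩)
  have h := hc3 x hx
  rw [← e, map_add, hc1 u hu, hc2 v hv, smul_add] at h
  have h' : (c1 - c3) • u = (c3 - c2) • v := by
    rw [sub_smul, sub_smul]
    linear_combination (norm := module) h
  have h0 : (c1 - c3) • u = 0 :=
    (Submodule.eq_bot_iff _).1 d12 _ ⟨l1.smul_mem _ hu, h' ▸ l2.smul_mem _ hv⟩
  have e13 : c1 = c3 := sub_eq_zero.1 ((smul_eq_zero.1 h0).resolve_right hu0)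
  have e23 : c3 = c2 := sub_eq_zero.1 ((smul_eq_zero.1 (h' ▸ h0)).resolve_right hv0)
  refine ⟨c1, fun y hy => ?_⟩
  obtain ⟨p, hp, q, hq, rfl⟩ := Submodule.mem_sup.1 (hspan.symm ▸ hy : y ∈ l1 ⊔ l2)
  rw [map_add, hc1 p hp, hc2 q hq, ← e23, ← e13, smul_add]

namespace AltProj

variable {k : Type*} [Field k] [IsAlgClosed k] [CharP k 2] {V : Type*} [AddCommGroup V] [Module k V]
  [FiniteDimensional k V] {r : ℕ} (P : AltProj k V r)

theorem U_rotate {a b c : Fin r} (hab : a ≠ b) (hac : a ≠ c) (hbc : b ≠ c) : P.U b c a = P.U a b c := by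
  rw [U, U, P.tri_rotate hab hac hbc]

theorem U_inv_le (g : ↥P.G) : LinearMap.range (P.op g⁻¹ - 1) ≤ LinearMap.range (P.op g - 1) := by
  rintro _ ⟨x, rfl⟩
  refine ⟨-(P.op g⁻¹ x), ?_⟩
  simp [P.op_apply_inv]
  abel

theorem U_reverse {a b c : Fin r} (hab : a ≠ b) (hac : a ≠ c) (hbc : b ≠ c) : P.U c b a = P.U a b c := by
  rw [U, U, P.tri_reverse hab hac hbc]
  refine le_antisymm (P.U_inv_le _) ?_
  have h := P.U_inv_le (P.tri a b c)⁻¹
  rwa [inv_inv] at h

theorem U_swap {a b c : Fin r} (hab : a ≠ b) (hac : a ≠ c) (hbc : b ≠ c) : P.U b a c = P.U a b c := by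
  rw [← P.U_reverse hab hac hbc, P.U_rotate hbc.symm hac.symm hab.symm]

theorem U_swap_right {a b c : Fin r} (hab : a ≠ b) (hac : a ≠ c) (hbc : b ≠ c) : P.U a c b = P.U a b c :=
  (P.U_rotate hab.symm hbc hac).trans (P.U_swap hab hac hbc)

theorem eq_zero_of_mem_U_of_fixed {a b c : Fin r} (hab : a ≠ b) (hac : a ≠ c) (hbc : b ≠ c) {v : V}
    (hv : v ∈ P.U a b c) (hf : P.op (P.tri a b c) v = v) : v = 0 := by
  obtain ⟨x, rfl⟩ := hv
  have h3 : P.op (P.tri a b c) (P.op (P.tri a b c) (P.op (P.tri a b c) x)) = x := by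
    rw [← Module.End.mul_apply, ← Module.End.mul_apply, ← map_mul, ← map_mul, mul_assoc, ← pow_two,
      ← pow_succ', P.tri_pow_three hab hac hbc, map_one, Module.End.one_apply]
  simp only [LinearMap.sub_apply, Module.End.one_apply, map_sub] at hf ⊢
  have hadd : ∀ y : V, y + y = 0 := fun y => by
    rw [← two_smul k y, show (2 : k) = 0 from CharTwo.two_eq_zero, zero_smul]
  generalize hw : P.op (P.tri a b c) x = w at hf h3 ⊢
  have h' : P.op (P.tri a b c) w = x := by
    have e := congrArg (· + w) hf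
    simp only [sub_add_cancel] at e
    rw [e, sub_add_eq_add_sub, hadd, zero_sub]
    exact neg_eq_of_add_eq_zero_left (hadd x)
  rw [h'] at h3
  rw [← hw, h3, sub_self]

/-- A subspace containing the moved space of a three-cycle is preserved by it. -/
theorem op_tri_mem {a b c : Fin r} {Z : Submodule k V} (h : P.U a b c ≤ Z) {v : V} (hv : v ∈ Z) :
    P.op (P.tri a b c) v ∈ Z := by
  have h1 : (P.op (P.tri a b c) - 1) v ∈ Z := h (LinearMap.mem_range_self _ v)
  simpa using Z.add_mem h1 hv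

section Planes

variable (hU : ∀ a b c : Fin r, a ≠ b → a ≠ c → b ≠ c → finrank k ↥(P.U a b c) = 2)
  (hfix : ∀ a b c d e f : Fin r, a ≠ b → a ≠ c → b ≠ c → d ≠ e → d ≠ f → e ≠ f →
    _root_.Disjoint ({a, b, c} : Finset (Fin r)) {d, e, f} →
    ∀ v ∈ P.U a b c, P.op (P.tri d e f) v = v)
  (hn6 : 6 ≤ finrank k V)

include hU in
theorem map_U {a b c : Fin r} (hab : a ≠ b) (hac : a ≠ c) (hbc : b ≠ c) (u : ↥P.G) :
    (P.U a b c).map (P.op u) = P.U (P.πP u a) (P.πP u b) (P.πP u c) := by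
  refine Submodule.eq_of_le_of_finrank_le ?_ ?_
  · rintro _ ⟨v, hv, rfl⟩; exact P.mem_U_image hab hac hbc u v hv
  · rw [hU _ _ _ (fun e => hab ((P.πP u).injective e)) (fun e => hac ((P.πP u).injective e))
      (fun e => hbc ((P.πP u).injective e)),
      ← LinearEquiv.finrank_eq (Submodule.equivMapOfInjective _ (P.op_apply_injective u) (P.U a b c)),
      hU a b c hab hac hbc]

include hU in
theorem finrank_inf_conj {a b c d a' b' c' d' : Fin r} (hab : a ≠ b) (hac : a ≠ c) (had : a ≠ d)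
    (hbc : b ≠ c) (hbd : b ≠ d) (hcd : c ≠ d) (hab' : a' ≠ b') (hac' : a' ≠ c') (had' : a' ≠ d')
    (hbc' : b' ≠ c') (hbd' : b' ≠ d') (hcd' : c' ≠ d') :
    finrank k ↥(P.U a b c ⊓ P.U a b d) = finrank k ↥(P.U a' b' c' ⊓ P.U a' b' d') := by
  have hr := P.nine_le
  obtain ⟨γ, hγ⟩ := exists_even_map (α := Fin r) (m := 4) (by simp; omega) ![a, b, c, d] ![a', b', c', d']
    (by intro i j; fin_cases i <;> fin_cases j <;> simp <;> grind)
    (by intro i j; fin_cases i <;> fin_cases j <;> simp <;> grind)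
  obtain ⟨u, hu⟩ := P.exists_lift (Perm.mem_alternatingGroup.1 γ.2)
  have e1 := P.map_U hU hab hac hbc u
  have e2 := P.map_U hU hab had hbd u
  rw [hu, show γ.1 a = a' from hγ 0, show γ.1 b = b' from hγ 1, show γ.1 c = c' from hγ 2] at e1
  rw [hu, show γ.1 a = a' from hγ 0, show γ.1 b = b' from hγ 1, show γ.1 d = d' from hγ 3] at e2
  rw [LinearEquiv.finrank_eq (Submodule.equivMapOfInjective _ (P.op_apply_injective u)
    (P.U a b c ⊓ P.U a b d)), Submodule.map_inf _ (P.op_apply_injective u), e1, e2]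

include hfix in
/-- A plane in a sum of planes fixed by `tri y y' z` is fixed by it. -/
theorem U_le_of_fixed {a b y y' z : Fin r} (hab : a ≠ b) (hay : a ≠ y) (hby : b ≠ y) (hay' : a ≠ y')
    (haz : a ≠ z) (hby' : b ≠ y') (hbz : b ≠ z) (hyy' : y ≠ y') (hyz : y ≠ z) (hy'z : y' ≠ z)
    (J : Finset (Fin r)) (hJ : ∀ x ∈ J, x ≠ a ∧ x ≠ b ∧ x ≠ y ∧ x ≠ y' ∧ x ≠ z)
    (hle : P.U a b y ≤ J.sup fun x => P.U a b x) : P.U a b y ≤ P.U a b y' := by
  intro v hv
  have hfixed : ∀ w ∈ J.sup (fun x => P.U a b x), P.op (P.tri y y' z) w = w := by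
    intro w hw
    have : J.sup (fun x => P.U a b x) ≤ LinearMap.ker (P.op (P.tri y y' z) - 1) := by
      refine Finset.sup_le fun x hx => ?_
      obtain ⟨h1, h2, h3, h4, h5⟩ := hJ x hx
      intro u hu
      rw [LinearMap.mem_ker, LinearMap.sub_apply, Module.End.one_apply, sub_eq_zero]
      refine hfix a b x y y' z hab h1.symm h2.symm hyy' hyz hy'z ?_ u hu
      simp only [Finset.disjoint_left, Finset.mem_insert, Finset.mem_singleton, not_or]
      rintro w (rfl | rfl | rfl) <;> grind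
    have := this hw
    rwa [LinearMap.mem_ker, LinearMap.sub_apply, Module.End.one_apply, sub_eq_zero] at this
  have h := P.mem_U_image hab hay hby (P.tri y y' z) v hv
  rwa [P.πP_tri hyy' hyz hy'z, cyc_apply_of_ne hay hay' haz, cyc_apply_of_ne hby hby' hbz,
    cyc_apply_fst hyy' hyz, hfixed v (hle hv)] at h

include hU hn6 in
/-- Two planes through a common pair are different. -/
theorem finrank_inf_le_one {a b c d : Fin r} (hab : a ≠ b) (hac : a ≠ c) (had : a ≠ d)
    (hbc : b ≠ c) (hbd : b ≠ d) (hcd : c ≠ d) : finrank k ↥(P.U a b c ⊓ P.U a b d) ≤ 1 := by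
  by_contra hgt
  have hall : ∀ x, x ≠ a → x ≠ b → P.U a b x = P.U a b c := by
    intro x hxa hxb
    by_cases hxc : x = c
    · rw [hxc]
    have h2 := P.finrank_inf_conj hU hab hac had hbc hbd hcd hab hxa.symm hac hxb.symm hbc hxc
    have hle := Submodule.finrank_mono (inf_le_left : P.U a b x ⊓ P.U a b c ≤ _)
    have e1 : P.U a b x ⊓ P.U a b c = P.U a b x :=
      Submodule.eq_of_le_of_finrank_le inf_le_left (by rw [hU a b x hab hxa.symm hxb.symm]; omega)
    refine Submodule.eq_of_le_of_finrank_le (e1 ▸ inf_le_right) ?_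
    rw [hU a b c hab hac hbc, hU a b x hab hxa.symm hxb.symm]
  rcases P.invariant_star (P.U a b c) hab (fun x hxa hxb => ⟨P.tri a b x,
      P.πP_tri hab hxa.symm hxb.symm, fun v hv => P.op_tri_mem (hall x hxa hxb).le hv⟩) with h | h
  · have := hU a b c hab hac hbc
    rw [h, finrank_bot] at this
    omega
  · have := hU a b c hab hac hbc
    rw [h, finrank_top] at this
    omega

include hU hfix in
/-- If two planes through a common pair meet trivially, so do the plane and the fixed space. -/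
theorem eq_zero_of_adjacent_fixed (hn6 : 6 ≤ finrank k V)
    (htriv : ∀ a b c d : Fin r, a ≠ b → a ≠ c → a ≠ d → b ≠ c → b ≠ d → c ≠ d →
      P.U a b c ⊓ P.U a b d = ⊥)
    {a b c d : Fin r} (hab : a ≠ b) (hac : a ≠ c) (had : a ≠ d) (hbc : b ≠ c) (hbd : b ≠ d) (hcd : c ≠ d)
    {v : V} (hv : v ∈ P.U a b c) (hf : P.op (P.tri a b d) v = v) : v = 0 := by
  obtain ⟨z, hz⟩ := (P.πP_eq_one_iff ((P.tri a b c * P.tri a b d) ^ 2)).1 (by
    rw [map_pow, map_mul, P.πP_tri hab hac hbc, P.πP_tri hab had hbd,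
      cyc_mul_cyc_sq hab hac had hbc hbd hcd])
  obtain ⟨x, hx, hx0⟩ : ∃ x ∈ LinearMap.ker (P.op (P.tri a b c) - 1) ⊓
      LinearMap.ker (P.op (P.tri a b d) - 1), x ≠ 0 := by
    refine Submodule.exists_mem_ne_zero_of_ne_bot fun h => ?_
    have h1 := Submodule.finrank_sup_add_finrank_inf_eq (LinearMap.ker (P.op (P.tri a b c) - 1))
      (LinearMap.ker (P.op (P.tri a b d) - 1))
    rw [h, finrank_bot] at h1
    have h2 := Submodule.finrank_le (LinearMap.ker (P.op (P.tri a b c) - 1) ⊔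
      LinearMap.ker (P.op (P.tri a b d) - 1))
    have r1 := LinearMap.finrank_range_add_finrank_ker (P.op (P.tri a b c) - 1)
    have r2 := LinearMap.finrank_range_add_finrank_ker (P.op (P.tri a b d) - 1)
    have key : ∀ {s i x y p q m : ℕ}, s + i = x + y → i = 0 → s ≤ m → p + x = m → q + y = m → p = 2 → q = 2 →
        6 ≤ m → False := by intros; omega
    exact key h1 rfl h2 r1 r2 (hU a b c hab hac hbc) (hU a b d hab had hbd) hn6
  simp only [Submodule.mem_inf, LinearMap.mem_ker, LinearMap.sub_apply, Module.End.one_apply, sub_eq_zero] at hx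
  have hz1 : (z : k) = 1 := by
    have h := congrArg (fun g => P.op g x) hz
    simp only [pow_two, map_mul, Module.End.mul_apply, hx.1, hx.2, op_sc, LinearMap.smul_apply,
      Module.End.one_apply] at h
    exact smul_left_injective k hx0 (h.symm.trans (one_smul k x).symm)
  have h := congrArg (fun g => P.op g v) hz
  simp only [pow_two, map_mul, Module.End.mul_apply, hf, op_sc, LinearMap.smul_apply,
    Module.End.one_apply, hz1, one_smul] at h
  have hm1 : P.op (P.tri a b c) v ∈ P.U a b c := P.op_tri_mem le_rfl hv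
  have hm2 : P.op (P.tri a b d) (P.op (P.tri a b c) v) ∈ P.U a b c := by
    have h3 : P.op (P.tri a b c) (P.op (P.tri a b c) (P.op (P.tri a b d) (P.op (P.tri a b c) v))) ∈
        P.U a b c := by
      rw [h]; exact hm1
    have h4 := P.op_tri_mem le_rfl h3
    rwa [← Module.End.mul_apply, ← Module.End.mul_apply, ← map_mul, ← map_mul, mul_assoc, ← pow_two,
      ← pow_succ', P.tri_pow_three hab hac hbc, map_one, Module.End.one_apply] at h4
  have h5 : P.op (P.tri a b d) (P.op (P.tri a b c) v) - P.op (P.tri a b c) v = 0 :=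
    (Submodule.eq_bot_iff _).1 (htriv a b c d hab hac had hbc hbd hcd) _
      ⟨sub_mem hm2 hm1, P.op (P.tri a b c) v, rfl⟩
  rw [sub_eq_zero] at h5
  rw [h5] at h
  have e := congrArg (P.op (P.tri a b c)) h
  rw [← Module.End.mul_apply, ← Module.End.mul_apply, ← map_mul, ← map_mul, mul_assoc, ← pow_two,
    ← pow_succ', P.tri_pow_three hab hac hbc, map_one, Module.End.one_apply] at e
  exact P.eq_zero_of_mem_U_of_fixed hab hac hbc hv e.symm

include hU hfix hn6 in
/-- Planes through a common pair meet. -/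
theorem finrank_inf_eq_one (hsmall : finrank k V < r - 1)
    {a b c d : Fin r} (hab : a ≠ b) (hac : a ≠ c) (had : a ≠ d)
    (hbc : b ≠ c) (hbd : b ≠ d) (hcd : c ≠ d) : finrank k ↥(P.U a b c ⊓ P.U a b d) = 1 := by
  classical
  have hr := P.nine_le
  refine le_antisymm (P.finrank_inf_le_one hU hn6 hab hac had hbc hbd hcd) ?_
  by_contra hlt
  have htriv : ∀ a b c d : Fin r, a ≠ b → a ≠ c → a ≠ d → b ≠ c → b ≠ d → c ≠ d →
      P.U a b c ⊓ P.U a b d = ⊥ := by
    intro a' b' c' d' h1 h2 h3 h4 h5 h6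
    apply Submodule.finrank_eq_zero.1
    have := P.finrank_inf_conj hU hab hac had hbc hbd hcd h1 h2 h3 h4 h5 h6
    omega
  let Z : Fin r → Fin r → Finset (Fin r) → Submodule k V := fun a b J => J.sup fun x => P.U a b x
  have hZ2 : ∀ a b c d : Fin r, a ≠ b → a ≠ c → a ≠ d → b ≠ c → b ≠ d → c ≠ d →
      finrank k ↥(P.U a b c ⊔ P.U a b d) = 4 := by
    intro a b c d h1 h2 h3 h4 h5 h6
    have h := Submodule.finrank_sup_add_finrank_inf_eq (P.U a b c) (P.U a b d)
    rw [htriv a b c d h1 h2 h3 h4 h5 h6, finrank_bot, hU a b c h1 h2 h4, hU a b d h1 h3 h5] at h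
    omega
  have grow : ∀ (J : Finset (Fin r)) (a b y : Fin r), a ≠ b → a ∉ J → b ∉ J → y ∉ J → a ≠ y → b ≠ y →
      J.card + 5 ≤ r → ¬ P.U a b y ≤ Z a b J := by
    intro J a b y h1 haJ hbJ hyJ hay hby hJ hle
    obtain ⟨y', hy', z, hz, hy'z⟩ : ∃ p ∈ (insert a (insert b (insert y J)))ᶜ,
        ∃ q ∈ (insert a (insert b (insert y J)))ᶜ, p ≠ q := by
      refine Finset.one_lt_card.1 ?_
      have hc1 := Finset.card_insert_le a (insert b (insert y J))
      have hc2 := Finset.card_insert_le b (insert y J)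
      have hc3 := Finset.card_insert_le y J
      rw [Finset.card_compl, Fintype.card_fin]
      omega
    simp only [Finset.mem_compl, Finset.mem_insert, not_or] at hy' hz
    have hle' := P.U_le_of_fixed hfix h1 hay hby (Ne.symm hy'.1) (Ne.symm hz.1) (Ne.symm hy'.2.1)
      (Ne.symm hz.2.1) (Ne.symm hy'.2.2.1) (Ne.symm hz.2.2.1) hy'z J
      (fun x hx => ⟨fun e => haJ (e ▸ hx), fun e => hbJ (e ▸ hx), fun e => hyJ (e ▸ hx),
        fun e => hy'.2.2.2 (e ▸ hx), fun e => hz.2.2.2 (e ▸ hx)⟩) hle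
    have h0 := htriv a b y y' h1 hay (Ne.symm hy'.1) hby (Ne.symm hy'.2.1) (Ne.symm hy'.2.2.1)
    rw [inf_eq_left.2 hle'] at h0
    have := hU a b y h1 hay hby
    rw [h0, finrank_bot] at this
    omega
  -- the plane of a fifth point meets the span of two planes
  have meet : ∀ a b c d x : Fin r, a ≠ b → a ≠ c → a ≠ d → b ≠ c → b ≠ d → c ≠ d →
      x ≠ a → x ≠ b → x ≠ c → x ≠ d →
      finrank k ↥((P.U a b c ⊔ P.U a b d) ⊓ P.U a b x) = 1 := by
    intro a b c d x h1 h2 h3 h4 h5 h6 hxa hxb hxc hxd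
    have hle : finrank k ↥((P.U a b c ⊔ P.U a b d) ⊓ P.U a b x) ≤ 1 := by
      by_contra hgt
      have heq : (P.U a b c ⊔ P.U a b d) ⊓ P.U a b x = P.U a b x :=
        Submodule.eq_of_le_of_finrank_le inf_le_right (by rw [hU a b x h1 hxa.symm hxb.symm]; omega)
      refine grow {c, d} a b x h1 (by simp [h2, h3]) (by simp [h4, h5]) (by simp [hxc, hxd]) hxa.symm hxb.symm
        (by have : ({c, d} : Finset (Fin r)).card ≤ 2 := Finset.card_le_two; omega) ?_
      show P.U a b x ≤ ({c, d} : Finset (Fin r)).sup fun x => P.U a b x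
      simp only [Finset.sup_insert, Finset.sup_singleton]
      exact inf_eq_right.1 heq
    refine le_antisymm hle ?_
    by_contra h0
    -- growth of the span
    have step : ∀ i, i + 7 ≤ r → ∃ J : Finset (Fin r), J.card = 3 + i ∧ a ∉ J ∧ b ∉ J ∧
        6 + i ≤ finrank k ↥(Z a b J) := by
      intro i
      induction i with
      | zero =>
        intro _
        refine ⟨{c, d, x}, ?_, by simp [h2, h3, hxa.symm], by simp [h4, h5, hxb.symm], ?_⟩
        · rw [Finset.card_insert_of_notMem (by simp [h6, hxc.symm]), Finset.card_pair hxd.symm]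
        · have e : Z a b {c, d, x} = (P.U a b c ⊔ P.U a b d) ⊔ P.U a b x := by
            simp only [Z, Finset.sup_insert, Finset.sup_singleton, sup_assoc]
          rw [e]
          have h := Submodule.finrank_sup_add_finrank_inf_eq (P.U a b c ⊔ P.U a b d) (P.U a b x)
          rw [hZ2 a b c d h1 h2 h3 h4 h5 h6, hU a b x h1 hxa.symm hxb.symm] at h
          omega
      | succ i ih =>
        intro hi
        obtain ⟨J, hJc, haJ, hbJ, hJ⟩ := ih (by omega)
        obtain ⟨y, hy⟩ : ((insert a (insert b J))ᶜ : Finset (Fin r)).Nonempty := by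
          rw [← Finset.card_pos, Finset.card_compl, Fintype.card_fin]
          have hc1 := Finset.card_insert_le a (insert b J)
          have hc2 := Finset.card_insert_le b J
          omega
        simp only [Finset.mem_compl, Finset.mem_insert, not_or] at hy
        refine ⟨insert y J, by rw [Finset.card_insert_of_notMem hy.2.2, hJc]; omega,
          by simp [haJ, Ne.symm hy.1], by simp [hbJ, Ne.symm hy.2.1], ?_⟩
        have hlt' : Z a b J < Z a b (insert y J) := by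
          refine lt_of_le_of_ne (Finset.sup_mono (Finset.subset_insert y J)) fun e => ?_
          refine grow J a b y h1 haJ hbJ hy.2.2 (Ne.symm hy.1) (Ne.symm hy.2.1) (by omega) ?_
          rw [e]
          exact Finset.le_sup (f := fun x => P.U a b x) (Finset.mem_insert_self y J)
        have := Submodule.finrank_lt_finrank_of_lt hlt'
        omega
    obtain ⟨J, -, -, -, hJ⟩ := step (r - 7) (by omega)
    have := Submodule.finrank_le (Z a b J)
    omega
  -- the scalar action of an involution on two planes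
  have span_eq : P.U c d a ⊔ P.U c d b = P.U a b c ⊔ P.U a b d := by
    refine Submodule.eq_of_le_of_finrank_le ?_ ?_
    · have hT : P.U a b c ≤ P.U a b c ⊔ P.U a b d := le_sup_left
      have hbcd : P.U b c d ≤ P.U a b c ⊔ P.U a b d := by
        have e := P.map_U hU hab had hbd (P.tri a b c)
        rw [P.πP_tri hab hac hbc, cyc_apply_fst hab hac, cyc_apply_snd hac hbc,
          cyc_apply_of_ne had.symm hbd.symm hcd.symm] at e
        rw [← e]
        rintro _ ⟨v, hv, rfl⟩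
        exact P.op_tri_mem hT (Submodule.mem_sup_right hv)
      have hcad : P.U c a d ≤ P.U a b c ⊔ P.U a b d := by
        have e := P.map_U hU hbc hbd hcd (P.tri a b c)
        rw [P.πP_tri hab hac hbc, cyc_apply_snd hac hbc, cyc_apply_thd,
          cyc_apply_of_ne had.symm hbd.symm hcd.symm] at e
        rw [← e]
        rintro _ ⟨v, hv, rfl⟩
        exact P.op_tri_mem hT (hbcd hv)
      refine sup_le ?_ ?_
      · rwa [P.U_rotate hac had hcd, ← P.U_swap hac had hcd]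
      · rwa [P.U_rotate hbc hbd hcd]
    · rw [hZ2 a b c d hab hac had hbc hbd hcd, hZ2 c d a b hcd hac.symm hbc.symm had.symm hbd.symm hab]
  -- planes of fixed vectors
  have plane : ∀ a b c d : Fin r, a ≠ b → a ≠ c → a ≠ d → b ≠ c → b ≠ d → c ≠ d →
      P.U c d a ≤ P.U a b c ⊔ P.U a b d →
      ∃ K : Submodule k V, finrank k ↥K = 2 ∧ K ≤ P.U a b c ⊔ P.U a b d ∧
        (∀ x, x ≠ a → x ≠ b → x ≠ c → x ≠ d → (P.U a b c ⊔ P.U a b d) ⊓ P.U a b x ≤ K) ∧
        (∀ y, y ≠ a → y ≠ b → y ≠ c → y ≠ d → ∀ v ∈ K, P.op (P.tri c d y) v = v) := by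
    intro a b c d h1 h2 h3 h4 h5 h6 hcda
    let K : Fin r → Submodule k V := fun y =>
      (P.U a b c ⊔ P.U a b d) ⊓ LinearMap.ker (P.op (P.tri c d y) - 1)
    have hK : ∀ y, y ≠ a → y ≠ b → y ≠ c → y ≠ d → finrank k ↥(K y) ≤ 2 := by
      intro y hya hyb hyc hyd
      have hd0 : K y ⊓ P.U c d a = ⊥ := by
        rw [Submodule.eq_bot_iff]
        intro v hv
        obtain ⟨⟨-, hv1⟩, hv2⟩ := hv
        rw [SetLike.mem_coe, LinearMap.mem_ker, LinearMap.sub_apply, Module.End.one_apply, sub_eq_zero] at hv1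
        exact P.eq_zero_of_adjacent_fixed hU hfix hn6 htriv h6 h2.symm hyc.symm h3.symm hyd.symm hya.symm hv2 hv1
      have h := Submodule.finrank_sup_add_finrank_inf_eq (K y) (P.U c d a)
      have h' := Submodule.finrank_mono (sup_le inf_le_left hcda : K y ⊔ P.U c d a ≤ P.U a b c ⊔ P.U a b d)
      rw [hd0, finrank_bot, hU c d a h6 h2.symm h3.symm] at h
      rw [hZ2 a b c d h1 h2 h3 h4 h5 h6] at h'
      omega
    have hline : ∀ x y, x ≠ a → x ≠ b → x ≠ c → x ≠ d → y ≠ a → y ≠ b → y ≠ c → y ≠ d → x ≠ y →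
        (P.U a b c ⊔ P.U a b d) ⊓ P.U a b x ≤ K y := by
      intro x y hxa hxb hxc hxd hya hyb hyc hyd hxy v hv
      refine ⟨hv.1, ?_⟩
      rw [SetLike.mem_coe, LinearMap.mem_ker, LinearMap.sub_apply, Module.End.one_apply, sub_eq_zero]
      refine hfix a b x c d y h1 hxa.symm hxb.symm h6 hyc.symm hyd.symm ?_ v hv.2
      simp only [Finset.disjoint_left, Finset.mem_insert, Finset.mem_singleton, not_or]
      rintro w (rfl | rfl | rfl) <;> grind
    have hpair : ∀ x x' y, x ≠ a → x ≠ b → x ≠ c → x ≠ d → x' ≠ a → x' ≠ b → x' ≠ c → x' ≠ d →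
        y ≠ a → y ≠ b → y ≠ c → y ≠ d → x ≠ y → x' ≠ y → x ≠ x' →
        K y = (P.U a b c ⊔ P.U a b d) ⊓ P.U a b x ⊔ (P.U a b c ⊔ P.U a b d) ⊓ P.U a b x' := by
      intro x x' y hxa hxb hxc hxd hxa' hxb' hxc' hxd' hya hyb hyc hyd hxy hxy' hxx
      refine (Submodule.eq_of_le_of_finrank_le (sup_le (hline x y hxa hxb hxc hxd hya hyb hyc hyd hxy)
        (hline x' y hxa' hxb' hxc' hxd' hya hyb hyc hyd hxy')) ?_).symm
      refine (hK y hya hyb hyc hyd).trans ?_
      have h := Submodule.finrank_sup_add_finrank_inf_eq ((P.U a b c ⊔ P.U a b d) ⊓ P.U a b x)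
        ((P.U a b c ⊔ P.U a b d) ⊓ P.U a b x')
      rw [meet a b c d x h1 h2 h3 h4 h5 h6 hxa hxb hxc hxd,
        meet a b c d x' h1 h2 h3 h4 h5 h6 hxa' hxb' hxc' hxd',
        eq_bot_iff.2 ((inf_le_inf inf_le_right inf_le_right).trans
          (htriv a b x x' h1 hxa.symm hxa'.symm hxb.symm hxb'.symm hxx).le), finrank_bot] at h
      omega
    obtain ⟨x1, hx1, x2, hx2, x3, hx3, h12, h13, h23⟩ : ∃ x1 ∈ ({a, b, c, d} : Finset (Fin r))ᶜ,
        ∃ x2 ∈ ({a, b, c, d} : Finset (Fin r))ᶜ, ∃ x3 ∈ ({a, b, c, d} : Finset (Fin r))ᶜ,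
        x1 ≠ x2 ∧ x1 ≠ x3 ∧ x2 ≠ x3 := by
      refine Finset.two_lt_card.1 ?_
      rw [Finset.card_compl, Fintype.card_fin]
      have : ({a, b, c, d} : Finset (Fin r)).card ≤ 4 := Finset.card_le_four
      omega
    simp only [Finset.mem_compl, Finset.mem_insert, Finset.mem_singleton, not_or] at hx1 hx2 hx3
    obtain ⟨a1, b1, c1, d1⟩ := hx1
    obtain ⟨a2, b2, c2, d2⟩ := hx2
    obtain ⟨a3, b3, c3, d3⟩ := hx3
    have hconst : ∀ y, y ≠ a → y ≠ b → y ≠ c → y ≠ d → K y = K x1 := by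
      intro y hya hyb hyc hyd
      obtain ⟨p, hp, q, hq, hpq⟩ : ∃ p ∈ ({a, b, c, d, y, x1} : Finset (Fin r))ᶜ,
          ∃ q ∈ ({a, b, c, d, y, x1} : Finset (Fin r))ᶜ, p ≠ q := by
        refine Finset.one_lt_card.1 ?_
        rw [Finset.card_compl, Fintype.card_fin]
        have : ({a, b, c, d, y, x1} : Finset (Fin r)).card ≤ 6 := Finset.card_le_six
        omega
      simp only [Finset.mem_compl, Finset.mem_insert, Finset.mem_singleton, not_or] at hp hq
      obtain ⟨pa, pb, pc, pd, py, p1⟩ := hp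
      obtain ⟨qa, qb, qc, qd, qy, q1⟩ := hq
      rw [hpair p q y pa pb pc pd qa qb qc qd hya hyb hyc hyd py qy hpq,
        hpair p q x1 pa pb pc pd qa qb qc qd a1 b1 c1 d1 p1 q1 hpq]
    refine ⟨K x1, ?_, inf_le_left, fun x hxa hxb hxc hxd => ?_, fun y hya hyb hyc hyd v hv => ?_⟩
    · refine le_antisymm (hK x1 a1 b1 c1 d1) ?_
      rw [hpair x2 x3 x1 a2 b2 c2 d2 a3 b3 c3 d3 a1 b1 c1 d1 h12.symm h13.symm h23]
      have h := Submodule.finrank_sup_add_finrank_inf_eq ((P.U a b c ⊔ P.U a b d) ⊓ P.U a b x2)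
        ((P.U a b c ⊔ P.U a b d) ⊓ P.U a b x3)
      rw [meet a b c d x2 h1 h2 h3 h4 h5 h6 a2 b2 c2 d2, meet a b c d x3 h1 h2 h3 h4 h5 h6 a3 b3 c3 d3,
        eq_bot_iff.2 ((inf_le_inf inf_le_right inf_le_right).trans
          (htriv a b x2 x3 h1 (Ne.symm a2) (Ne.symm a3) (Ne.symm b2) (Ne.symm b3) h23).le), finrank_bot] at h
      omega
    · by_cases hx : x = x1
      · subst hx
        rw [← hconst x2 a2 b2 c2 d2]
        exact hline x x2 hxa hxb hxc hxd a2 b2 c2 d2 h12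
      · exact hline x x1 hxa hxb hxc hxd a1 b1 c1 d1 hx
    · have hv' := hv
      rw [← hconst y hya hyb hyc hyd] at hv'
      have h := hv'.2
      rwa [SetLike.mem_coe, LinearMap.mem_ker, LinearMap.sub_apply, Module.End.one_apply, sub_eq_zero] at h
  have hswap : P.U c d a ≤ P.U a b c ⊔ P.U a b d := le_sup_left.trans span_eq.le
  have hswap' : P.U a b c ≤ P.U c d a ⊔ P.U c d b := le_sup_left.trans span_eq.symm.le
  obtain ⟨K, hK2, hKW, hKl, hKf⟩ := plane a b c d hab hac had hbc hbd hcd hswap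
  obtain ⟨K', hK2', hKW', hKl', hKf'⟩ := plane c d a b hcd hac.symm hbc.symm had.symm hbd.symm hab hswap'
  rw [span_eq] at hKW'
  obtain ⟨x1, hx1, x2, hx2, x3, hx3, h12, h13, h23⟩ : ∃ x1 ∈ ({a, b, c, d} : Finset (Fin r))ᶜ,
      ∃ x2 ∈ ({a, b, c, d} : Finset (Fin r))ᶜ, ∃ x3 ∈ ({a, b, c, d} : Finset (Fin r))ᶜ,
      x1 ≠ x2 ∧ x1 ≠ x3 ∧ x2 ≠ x3 := by
    refine Finset.two_lt_card.1 ?_
    rw [Finset.card_compl, Fintype.card_fin]
    have : ({a, b, c, d} : Finset (Fin r)).card ≤ 4 := Finset.card_le_four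
    omega
  simp only [Finset.mem_compl, Finset.mem_insert, Finset.mem_singleton, not_or] at hx1 hx2 hx3
  obtain ⟨g, hg⟩ := P.exists_lift (σ := Equiv.swap a b * Equiv.swap c d) (by
    rw [map_mul, Perm.sign_swap hab, Perm.sign_swap hcd]; rfl)
  have ga : P.πP g a = b := by simp [hg, Equiv.swap_apply_of_ne_of_ne hac had]
  have gb : P.πP g b = a := by simp [hg, Equiv.swap_apply_of_ne_of_ne hbc hbd]
  have gc : P.πP g c = d := by simp [hg, Equiv.swap_apply_of_ne_of_ne had.symm hbd.symm]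
  have gd : P.πP g d = c := by simp [hg, Equiv.swap_apply_of_ne_of_ne hac.symm hbc.symm]
  have gx : ∀ x, x ≠ a → x ≠ b → x ≠ c → x ≠ d → P.πP g x = x := fun x h1 h2 h3 h4 => by
    simp [hg, Equiv.swap_apply_of_ne_of_ne h1 h2, Equiv.swap_apply_of_ne_of_ne h3 h4]
  have gW : ∀ v ∈ P.U a b c ⊔ P.U a b d, P.op g v ∈ P.U a b c ⊔ P.U a b d := by
    intro v hv
    obtain ⟨p, hp, q, hq, rfl⟩ := Submodule.mem_sup.1 hv
    have e1 := P.mem_U_image hab hac hbc g p hp
    have e2 := P.mem_U_image hab had hbd g q hq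
    rw [ga, gb, gc, P.U_swap hab had hbd] at e1
    rw [ga, gb, gd, P.U_swap hab hac hbc] at e2
    rw [map_add]
    exact Submodule.add_mem _ (Submodule.mem_sup_right e1) (Submodule.mem_sup_left e2)
  have lineStable : ∀ x, x ≠ a → x ≠ b → x ≠ c → x ≠ d →
      ∀ v ∈ (P.U a b c ⊔ P.U a b d) ⊓ P.U a b x, P.op g v ∈ (P.U a b c ⊔ P.U a b d) ⊓ P.U a b x := by
    intro x hxa hxb hxc hxd v hv
    have e := P.mem_U_image hab hxa.symm hxb.symm g v hv.2
    rw [ga, gb, gx x hxa hxb hxc hxd, P.U_swap hab hxa.symm hxb.symm] at e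
    exact ⟨gW v hv.1, e⟩
  have lineStable' : ∀ x, x ≠ a → x ≠ b → x ≠ c → x ≠ d →
      ∀ v ∈ (P.U c d a ⊔ P.U c d b) ⊓ P.U c d x, P.op g v ∈ (P.U c d a ⊔ P.U c d b) ⊓ P.U c d x := by
    intro x hxa hxb hxc hxd v hv
    have e := P.mem_U_image hcd hxc.symm hxd.symm g v hv.2
    rw [gc, gd, gx x hxa hxb hxc hxd, P.U_swap hcd hxc.symm hxd.symm] at e
    refine ⟨?_, e⟩
    rw [span_eq]
    exact gW v (span_eq ▸ hv.1)
  obtain ⟨l, hl⟩ := scalar_of_three_lines (f := P.op g) hK2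
    (meet a b c d x1 hab hac had hbc hbd hcd hx1.1 hx1.2.1 hx1.2.2.1 hx1.2.2.2)
    (meet a b c d x2 hab hac had hbc hbd hcd hx2.1 hx2.2.1 hx2.2.2.1 hx2.2.2.2)
    (meet a b c d x3 hab hac had hbc hbd hcd hx3.1 hx3.2.1 hx3.2.2.1 hx3.2.2.2)
    (hKl x1 hx1.1 hx1.2.1 hx1.2.2.1 hx1.2.2.2) (hKl x2 hx2.1 hx2.2.1 hx2.2.2.1 hx2.2.2.2)
    (hKl x3 hx3.1 hx3.2.1 hx3.2.2.1 hx3.2.2.2)
    (eq_bot_iff.2 ((inf_le_inf inf_le_right inf_le_right).trans
      (htriv a b x1 x2 hab (Ne.symm hx1.1) (Ne.symm hx2.1) (Ne.symm hx1.2.1) (Ne.symm hx2.2.1) h12).le))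
    (eq_bot_iff.2 ((inf_le_inf inf_le_right inf_le_right).trans
      (htriv a b x1 x3 hab (Ne.symm hx1.1) (Ne.symm hx3.1) (Ne.symm hx1.2.1) (Ne.symm hx3.2.1) h13).le))
    (eq_bot_iff.2 ((inf_le_inf inf_le_right inf_le_right).trans
      (htriv a b x2 x3 hab (Ne.symm hx2.1) (Ne.symm hx3.1) (Ne.symm hx2.2.1) (Ne.symm hx3.2.1) h23).le))
    (lineStable x1 hx1.1 hx1.2.1 hx1.2.2.1 hx1.2.2.2) (lineStable x2 hx2.1 hx2.2.1 hx2.2.2.1 hx2.2.2.2)
    (lineStable x3 hx3.1 hx3.2.1 hx3.2.2.1 hx3.2.2.2)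
  obtain ⟨l', hl'⟩ := scalar_of_three_lines (f := P.op g) hK2'
    (meet c d a b x1 hcd hac.symm hbc.symm had.symm hbd.symm hab hx1.2.2.1 hx1.2.2.2 hx1.1 hx1.2.1)
    (meet c d a b x2 hcd hac.symm hbc.symm had.symm hbd.symm hab hx2.2.2.1 hx2.2.2.2 hx2.1 hx2.2.1)
    (meet c d a b x3 hcd hac.symm hbc.symm had.symm hbd.symm hab hx3.2.2.1 hx3.2.2.2 hx3.1 hx3.2.1)
    (hKl' x1 hx1.2.2.1 hx1.2.2.2 hx1.1 hx1.2.1) (hKl' x2 hx2.2.2.1 hx2.2.2.2 hx2.1 hx2.2.1)
    (hKl' x3 hx3.2.2.1 hx3.2.2.2 hx3.1 hx3.2.1)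
    (eq_bot_iff.2 ((inf_le_inf inf_le_right inf_le_right).trans
      (htriv c d x1 x2 hcd (Ne.symm hx1.2.2.1) (Ne.symm hx2.2.2.1) (Ne.symm hx1.2.2.2) (Ne.symm hx2.2.2.2) h12).le))
    (eq_bot_iff.2 ((inf_le_inf inf_le_right inf_le_right).trans
      (htriv c d x1 x3 hcd (Ne.symm hx1.2.2.1) (Ne.symm hx3.2.2.1) (Ne.symm hx1.2.2.2) (Ne.symm hx3.2.2.2) h13).le))
    (eq_bot_iff.2 ((inf_le_inf inf_le_right inf_le_right).trans
      (htriv c d x2 x3 hcd (Ne.symm hx2.2.2.1) (Ne.symm hx3.2.2.1) (Ne.symm hx2.2.2.2) (Ne.symm hx3.2.2.2) h23).le))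
    (lineStable' x1 hx1.1 hx1.2.1 hx1.2.2.1 hx1.2.2.2) (lineStable' x2 hx2.1 hx2.2.1 hx2.2.2.1 hx2.2.2.2)
    (lineStable' x3 hx3.1 hx3.2.1 hx3.2.2.1 hx3.2.2.2)
  obtain ⟨z, hz⟩ := (P.πP_eq_one_iff (g ^ 2)).1 (by
    rw [map_pow, hg]
    ext w
    by_cases h1 : w = a
    · subst h1; simp [pow_two, Equiv.swap_apply_of_ne_of_ne, hac, had, hbc, hbd]
    by_cases h2 : w = b
    · subst h2; simp [pow_two, Equiv.swap_apply_of_ne_of_ne, hac, had, hbc, hbd]
    by_cases h3 : w = c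
    · subst h3; simp [pow_two, Equiv.swap_apply_of_ne_of_ne, hac.symm, had.symm, hbc.symm, hbd.symm]
    by_cases h4 : w = d
    · subst h4; simp [pow_two, Equiv.swap_apply_of_ne_of_ne, hac.symm, had.symm, hbc.symm, hbd.symm]
    simp [pow_two, Equiv.swap_apply_of_ne_of_ne, h1, h2, h3, h4])
  have hsq : ∀ (c : k) (v : V), v ≠ 0 → P.op g v = c • v → c ^ 2 = z := by
    intro c v hv0 hv
    have h := congrArg (fun g => P.op g v) hz
    simp only [pow_two, map_mul, Module.End.mul_apply, hv, map_smul, smul_smul, op_sc, LinearMap.smul_apply,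
      Module.End.one_apply] at h
    exact (pow_two c).trans (smul_left_injective k hv0 h)
  obtain ⟨v, hv, hv0⟩ := Submodule.exists_mem_ne_zero_of_ne_bot (p := K) (fun h => by
    rw [h, finrank_bot] at hK2; omega)
  obtain ⟨v', hv', hv0'⟩ := Submodule.exists_mem_ne_zero_of_ne_bot (p := K') (fun h => by
    rw [h, finrank_bot] at hK2'; omega)
  haveI : Fact (Nat.Prime 2) := ⟨Nat.prime_two⟩
  have hll : l' = l := frobenius_inj k 2 (by
    rw [frobenius_def, frobenius_def, hsq l v hv0 (hl v hv), hsq l' v' hv0' (hl' v' hv')])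
  have hscal : ∀ v ∈ K ⊔ K', P.op g v = l • v := by
    intro v hv
    obtain ⟨p, hp, q, hq, rfl⟩ := Submodule.mem_sup.1 hv
    rw [map_add, hl p hp, hl' q hq, hll, smul_add]
  obtain ⟨y, hy, hy0⟩ := Submodule.exists_mem_ne_zero_of_ne_bot
    (p := (P.U a b c ⊔ P.U a b d) ⊓ P.U a b x1) (fun h => by
      have := meet a b c d x1 hab hac had hbc hbd hcd hx1.1 hx1.2.1 hx1.2.2.1 hx1.2.2.2
      rw [h, finrank_bot] at this
      omega)
  have hyK : y ∈ K := hKl x1 hx1.1 hx1.2.1 hx1.2.2.1 hx1.2.2.2 hy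
  have hyK' : y ∉ K' := fun h => hy0
    (P.eq_zero_of_mem_U_of_fixed hab (Ne.symm hx1.1) (Ne.symm hx1.2.1) hy.2
      (hKf' x1 hx1.2.2.1 hx1.2.2.2 hx1.1 hx1.2.1 y h))
  have h3 : 3 ≤ finrank k ↥(K ⊔ K') := by
    have hlt : K' < K ⊔ K' := lt_of_le_of_ne le_sup_right fun e => hyK' (e ▸ Submodule.mem_sup_left hyK)
    have := Submodule.finrank_lt_finrank_of_lt hlt
    omega
  obtain ⟨w, hw, hw0⟩ := Submodule.exists_mem_ne_zero_of_ne_bot (p := (K ⊔ K') ⊓ P.U a b c) (fun h => by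
    have h1 := Submodule.finrank_sup_add_finrank_inf_eq (K ⊔ K') (P.U a b c)
    have h2 := Submodule.finrank_mono
      (sup_le (sup_le hKW hKW') le_sup_left : (K ⊔ K') ⊔ P.U a b c ≤ P.U a b c ⊔ P.U a b d)
    rw [h, finrank_bot, hU a b c hab hac hbc] at h1
    rw [hZ2 a b c d hab hac had hbc hbd hcd] at h2
    omega)
  have hl0 : l ≠ 0 := by
    rintro rfl
    exact hw0 (P.op_apply_injective g (by rw [hscal w hw.1, zero_smul, map_zero]))
  have e := P.mem_U_image hab hac hbc g w hw.2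
  rw [ga, gb, gc, P.U_swap hab had hbd, hscal w hw.1] at e
  have := (Submodule.eq_bot_iff _).1 (htriv a b c d hab hac had hbc hbd hcd) (l • w)
    ⟨Submodule.smul_mem _ _ hw.2, e⟩
  exact hw0 ((smul_eq_zero.1 this).resolve_left hl0)

include hU hfix hn6 in
theorem inf_eq_inf (hsmall : finrank k V < r - 1) {a b c d e : Fin r} (hab : a ≠ b) (hac : a ≠ c) (had : a ≠ d)
    (hae : a ≠ e) (hbc : b ≠ c) (hbd : b ≠ d) (hbe : b ≠ e) (hcd : c ≠ d) (hce : c ≠ e) (hde : d ≠ e) :
    P.U a b c ⊓ P.U a b e = P.U a b c ⊓ P.U a b d := by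
  classical
  have hr := P.nine_le
  have hone := fun {x y : Fin r} (h1 : a ≠ x) (h2 : a ≠ y) (h3 : b ≠ x) (h4 : b ≠ y) (h5 : x ≠ y) =>
    P.finrank_inf_eq_one hU hfix hn6 hsmall hab h1 h2 h3 h4 h5
  by_contra hne
  set L1 := P.U a b c ⊓ P.U a b d with hL1
  set L2 := P.U a b c ⊓ P.U a b e with hL2
  set L3 := P.U a b d ⊓ P.U a b e with hL3
  have h23 : L2 ⊔ L3 = P.U a b e := by
    refine Submodule.eq_of_le_of_finrank_le (sup_le inf_le_right inf_le_right) ?_
    have h := Submodule.finrank_sup_add_finrank_inf_eq L2 L3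
    have e2 : finrank k ↥L2 = 1 := hone hac hae hbc hbe hce
    have e3 : finrank k ↥L3 = 1 := hone had hae hbd hbe hde
    have e0 : L2 ⊓ L3 = ⊥ := by
      by_contra h0
      apply hne
      have hpos := Submodule.one_le_finrank_iff.2 h0
      have eq2 : L2 ⊓ L3 = L2 := Submodule.eq_of_le_of_finrank_le inf_le_left (by omega)
      have hle : L2 ≤ L1 := le_inf inf_le_left ((eq2.ge.trans inf_le_right).trans inf_le_left)
      exact Submodule.eq_of_le_of_finrank_le hle (by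
        have e1 : finrank k ↥L1 = 1 := hone hac had hbc hbd hcd
        omega)
    rw [e0, finrank_bot] at h
    rw [hU a b e hab hae hbe]
    omega
  have hle : P.U a b e ≤ ({c, d} : Finset (Fin r)).sup fun x => P.U a b x := by
    simp only [Finset.sup_insert, Finset.sup_singleton]
    rw [← h23]
    exact sup_le (inf_le_left.trans le_sup_left) (inf_le_left.trans le_sup_right)
  obtain ⟨y', hy', z, hz, hy'z⟩ : ∃ p ∈ ({a, b, c, d, e} : Finset (Fin r))ᶜ,
      ∃ q ∈ ({a, b, c, d, e} : Finset (Fin r))ᶜ, p ≠ q := by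
    refine Finset.one_lt_card.1 ?_
    rw [Finset.card_compl, Fintype.card_fin]
    have : ({a, b, c, d, e} : Finset (Fin r)).card ≤ 5 := Finset.card_le_five
    omega
  simp only [Finset.mem_compl, Finset.mem_insert, Finset.mem_singleton, not_or] at hy' hz
  obtain ⟨p1, p2, p3, p4, p5⟩ := hy'
  obtain ⟨q1, q2, q3, q4, q5⟩ := hz
  have hle' := P.U_le_of_fixed hfix hab hae hbe (Ne.symm p1) (Ne.symm q1) (Ne.symm p2) (Ne.symm q2)
    (Ne.symm p5) (Ne.symm q5) hy'z {c, d} (by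
      intro x hx
      rcases Finset.mem_insert.1 hx with rfl | hx'
      · exact ⟨hac.symm, hbc.symm, hce, Ne.symm p3, Ne.symm q3⟩
      · rw [Finset.mem_singleton.1 hx']
        exact ⟨had.symm, hbd.symm, hde, Ne.symm p4, Ne.symm q4⟩) hle
  have h := hone hae (Ne.symm p1) hbe (Ne.symm p2) (Ne.symm p5)
  rw [inf_eq_left.2 hle', hU a b e hab hae hbe] at h
  omega

include hU hfix hn6 in
theorem exists_edgeLines (hsmall : finrank k V < r - 1) : Nonempty (EdgeLines P) := by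
  classical
  have hr := P.nine_le
  let L : Fin r → Fin r → Submodule k V := fun a b => ⨅ x, ⨅ (_ : x ≠ a), ⨅ (_ : x ≠ b), P.U a b x
  have hone := fun {a b c d : Fin r} (h1 : a ≠ b) (h2 : a ≠ c) (h3 : a ≠ d) (h4 : b ≠ c) (h5 : b ≠ d)
    (h6 : c ≠ d) => P.finrank_inf_eq_one hU hfix hn6 hsmall h1 h2 h3 h4 h5 h6
  have hL : ∀ a b c d, a ≠ b → a ≠ c → a ≠ d → b ≠ c → b ≠ d → c ≠ d →
      L a b = P.U a b c ⊓ P.U a b d := by
    intro a b c d hab hac had hbc hbd hcd
    refine le_antisymm (le_inf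
      ((iInf_le _ c).trans ((iInf_le _ hac.symm).trans (iInf_le _ hbc.symm)))
      ((iInf_le _ d).trans ((iInf_le _ had.symm).trans (iInf_le _ hbd.symm)))) ?_
    refine le_iInf fun x => le_iInf fun hxa => le_iInf fun hxb => ?_
    by_cases hxc : x = c
    · rw [hxc]; exact inf_le_left
    by_cases hxd : x = d
    · rw [hxd]; exact inf_le_right
    rw [← P.inf_eq_inf hU hfix hn6 hsmall hab hac had hxa.symm hbc hbd hxb.symm hcd (Ne.symm hxc) (Ne.symm hxd)]
    exact inf_le_right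
  have hsymm : ∀ a b, L a b = L b a := by
    intro a b
    by_cases hab : a = b
    · rw [hab]
    refine le_antisymm ?_ ?_ <;>
      refine le_iInf fun x => le_iInf fun h1 => le_iInf fun h2 => ?_ <;>
      refine (iInf_le _ x).trans ((iInf_le _ h2).trans ((iInf_le _ h1).trans (le_of_eq ?_)))
    · exact (P.U_swap hab (Ne.symm h2) (Ne.symm h1)).symm
    · exact P.U_swap hab (Ne.symm h1) (Ne.symm h2)
  have hdim : ∀ a b, a ≠ b → finrank k ↥(L a b) = 1 := by
    intro a b hab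
    obtain ⟨c, hc, d, hd, hcd⟩ : ∃ p ∈ ({a, b} : Finset (Fin r))ᶜ, ∃ q ∈ ({a, b} : Finset (Fin r))ᶜ, p ≠ q := by
      refine Finset.one_lt_card.1 ?_
      rw [Finset.card_compl, Fintype.card_fin]
      have : ({a, b} : Finset (Fin r)).card ≤ 2 := Finset.card_le_two
      omega
    simp only [Finset.mem_compl, Finset.mem_insert, Finset.mem_singleton, not_or] at hc hd
    rw [hL a b c d hab (Ne.symm hc.1) (Ne.symm hd.1) (Ne.symm hc.2) (Ne.symm hd.2) hcd]
    exact hone hab (Ne.symm hc.1) (Ne.symm hd.1) (Ne.symm hc.2) (Ne.symm hd.2) hcd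
  have hmap : ∀ (g : ↥P.G) a b, a ≠ b → ∀ v ∈ L a b, P.op g v ∈ L (P.πP g a) (P.πP g b) := by
    intro g a b hab v hv
    simp only [L, Submodule.mem_iInf] at hv ⊢
    intro x hxa hxb
    obtain ⟨c, rfl⟩ := (P.πP g).surjective x
    have hca : c ≠ a := fun e => hxa (e ▸ rfl)
    have hcb : c ≠ b := fun e => hxb (e ▸ rfl)
    exact P.mem_U_image hab hca.symm hcb.symm g v (hv c hca hcb)
  have hleU : ∀ a b c, a ≠ c → b ≠ c → L a b ≤ P.U a b c := fun a b c hac hbc =>
    (iInf_le _ c).trans ((iInf_le _ hac.symm).trans (iInf_le _ hbc.symm))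
  have hadj : ∀ a b c, a ≠ b → a ≠ c → b ≠ c → L a b ≠ L a c := by
    intro a b c hab hac hbc heq
    have hall : ∀ a' b' c', a' ≠ b' → a' ≠ c' → b' ≠ c' → L a' b' = L a' c' := by
      intro a' b' c' hab' hac' hbc'
      obtain ⟨γ, hγ⟩ := exists_even_map (α := Fin r) (m := 3) (by simp; omega) ![a, b, c] ![a', b', c']
        (by intro i j; fin_cases i <;> fin_cases j <;> simp <;> grind)
        (by intro i j; fin_cases i <;> fin_cases j <;> simp <;> grind)
      obtain ⟨u, hu⟩ := P.exists_lift (Perm.mem_alternatingGroup.1 γ.2)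
      obtain ⟨v, hv, hv0⟩ := Submodule.exists_mem_ne_zero_of_ne_bot (p := L a b) (fun h => by
        have := hdim a b hab; rw [h, finrank_bot] at this; omega)
      have e1 := hmap u a b hab v hv
      have e2 := hmap u a c hac v (heq ▸ hv)
      rw [hu, show γ.1 a = a' from hγ 0, show γ.1 b = b' from hγ 1] at e1
      rw [hu, show γ.1 a = a' from hγ 0, show γ.1 c = c' from hγ 2] at e2
      have hne : L a' b' ⊓ L a' c' ≠ ⊥ := fun h =>
        hv0 (P.op_apply_injective u (((Submodule.eq_bot_iff _).1 h _ ⟨e1, e2⟩).trans (map_zero _).symm))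
      have hpos := Submodule.one_le_finrank_iff.2 hne
      have d1 := hdim a' b' hab'
      have d2 := hdim a' c' hac'
      rw [← Submodule.eq_of_le_of_finrank_le (inf_le_left : L a' b' ⊓ L a' c' ≤ _) (by omega)]
      exact Submodule.eq_of_le_of_finrank_le inf_le_right (by omega)
    have hstar : ∀ p q x, p ≠ q → x ≠ p → L p q = L p x := by
      intro p q x hpq hxp
      by_cases hqx : q = x
      · rw [hqx]
      · exact hall p q x hpq hxp.symm hqx
    have hconst : ∀ x y, x ≠ y → L x y = L a b := by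
      intro x y hxy
      by_cases hxa : x = a
      · subst hxa; exact (hstar x b y hab hxy.symm).symm
      by_cases hya : y = a
      · subst hya; rw [hsymm]; exact (hstar y b x hab hxy).symm
      rw [hstar x y a hxy (Ne.symm hxa), hsymm]
      exact (hstar a b x hab hxa).symm
    rcases P.irred (L a b) (fun g v hv => hconst _ _ (fun e => hab ((P.πP g).injective e)) ▸ hmap g a b hab v hv)
      with h | h
    · have := hdim a b hab; rw [h, finrank_bot] at this; omega
    · have := hdim a b hab; rw [h, finrank_top] at this; omega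
  have hspan : ∀ a b c, a ≠ b → a ≠ c → b ≠ c → L a b ⊔ L a c = P.U a b c := by
    intro a b c hab hac hbc
    refine Submodule.eq_of_le_of_finrank_le (sup_le (hleU a b c hac hbc) ?_) ?_
    · exact (hleU a c b hab hbc.symm).trans (le_of_eq (P.U_swap_right hab hac hbc))
    · have h := Submodule.finrank_sup_add_finrank_inf_eq (L a b) (L a c)
      have h0 : L a b ⊓ L a c = ⊥ := by
        by_contra hne
        have hpos := Submodule.one_le_finrank_iff.2 hne
        have d1 := hdim a b hab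
        have d2 := hdim a c hac
        apply hadj a b c hab hac hbc
        rw [← Submodule.eq_of_le_of_finrank_le (inf_le_left : L a b ⊓ L a c ≤ _) (by omega)]
        exact Submodule.eq_of_le_of_finrank_le inf_le_right (by omega)
      rw [h0, finrank_bot, hdim a b hab, hdim a c hac] at h
      rw [hU a b c hab hac hbc]
      omega
  refine ⟨⟨L, hsymm, hdim, hmap, fun a b c hab hac hbc => ?_, hadj, fun a b c d hab hac had hbc hbd hcd h => ?_⟩⟩
  · rw [hspan a b c hab hac hbc, ← P.U_rotate hab hac hbc]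
    exact hleU b c a hab.symm hac.symm
  · rw [hspan a b c hab hac hbc] at h
    have h2 : L a d ≤ P.U a b d := (hleU a d b hab hbd.symm).trans (le_of_eq (P.U_swap_right hab had hbd))
    have h3 : L a d ≤ L a b := by
      rw [hL a b c d hab hac had hbc hbd hcd]; exact le_inf h h2
    refine hadj a b d hab had hbd (Submodule.eq_of_le_of_finrank_le h3 ?_).symm
    rw [hdim a b hab, hdim a d had]

end Planes

include P in
/-- The bound in characteristic two. -/
theorem bound_charTwo : r - 1 - (if 2 ∣ r then 1 else 0) ≤ finrank k V := by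
  by_contra hlt
  obtain ⟨hU, hfix, hn6⟩ := P.charTwo_weights (not_le.1 hlt)
  obtain ⟨E⟩ := P.exists_edgeLines hU hfix hn6 (by omega)
  exact hlt (E.bound 2)

end AltProj

end Cfsg.Agent.H63.AltSec
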