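import Mathlib

/-!
# Counting labels of prescribed support
-/

namespace Cfsg.Agent.H63.AltSec

open Finset

/-- The labels of a given support size. -/
def suppSet (s c j : ℕ) : Finset (Fin s → Fin (c + 1)) :=
  Finset.univ.filter fun w => (Finset.univ.filter fun i => w i ≠ 0).card = j

theorem card_suppSet (s c j : ℕ) : (suppSet s c j).card = s.choose j * c ^ j := by
  classical
  have h : suppSet s c j = (Finset.univ.powersetCard j).biUnion fun J =>
      Fintype.piFinset fun i => if i ∈ J then Finset.univ.erase (0 : Fin (c + 1)) else {0} := by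
    ext w
    simp only [suppSet, mem_filter, mem_univ, true_and, mem_biUnion, mem_powersetCard, Fintype.mem_piFinset]
    constructor
    · intro hw
      refine ⟨_, ⟨Finset.subset_univ _, hw⟩, fun i => ?_⟩
      by_cases hi : w i = 0 <;> simp [hi]
    · rintro ⟨J, ⟨-, hJ⟩, hw⟩
      rw [← hJ]
      congr 1
      ext i
      have := hw i
      by_cases hi : i ∈ J
      · simp only [if_pos hi, mem_erase] at this
        simp [hi, this.1]
      · simp only [if_neg hi, mem_singleton] at this
        simp [hi, this]
  rw [h, Finset.card_biUnion]
  · rw [Finset.sum_congr rfl fun J hJ => ?_, Finset.sum_const, Finset.card_powersetCard,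
      Finset.card_univ, Fintype.card_fin, smul_eq_mul]
    rw [Fintype.card_piFinset, ← Finset.prod_mul_prod_compl J]
    have e1 : ∀ i ∈ J, (if i ∈ J then Finset.univ.erase (0 : Fin (c + 1)) else {0}).card = c := by
      intro i hi; simp [hi]
    have e2 : ∀ i ∈ Jᶜ, (if i ∈ J then Finset.univ.erase (0 : Fin (c + 1)) else {0}).card = 1 := by
      intro i hi; simp [Finset.mem_compl.1 hi]
    rw [Finset.prod_congr rfl e1, Finset.prod_congr rfl e2, Finset.prod_const, Finset.prod_const_one,
      mul_one, (Finset.mem_powersetCard.1 hJ).2]
  · intro J hJ K hK hJK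
    simp only [Function.onFun, Finset.disjoint_left, Fintype.mem_piFinset]
    intro w hw hw'
    apply hJK
    ext i
    have h1 := hw i
    have h2 := hw' i
    by_cases hi : i ∈ J <;> by_cases hi' : i ∈ K <;> simp_all

/-- Lower bound for the orbit of a weight with support at least two, two labels. -/
theorem two_labels_bound {s j : ℕ} (hs : 4 ≤ s) (hj : 2 ≤ j) (hjs : j ≤ s) :
    3 * s + 1 ≤ s.choose j * 2 ^ j := by
  rcases Nat.eq_or_lt_of_le hjs with rfl | hlt
  · rw [Nat.choose_self, one_mul]
    obtain ⟨t, rfl⟩ := Nat.exists_eq_add_of_le hs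
    induction t with
    | zero => norm_num
    | succ t ih =>
      have := ih (by omega) (by omega) (le_refl _)
      rw [show 4 + (t + 1) = 4 + t + 1 by omega, pow_succ]
      omega
  · have h1 : s ≤ s.choose j := by
      have key : ∀ m i : ℕ, 1 ≤ i → i < m → m ≤ m.choose i := by
        intro m
        induction m with
        | zero => intro i _ h; omega
        | succ m ih =>
          intro i h1 h2
          obtain ⟨i, rfl⟩ := Nat.exists_eq_add_of_le h1
          rw [show 1 + i = i + 1 by omega, Nat.choose_succ_succ]
          rcases Nat.eq_zero_or_pos i with rfl | hi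
          · simp
          have := ih i hi (by omega)
          have : 0 < m.choose (i + 1) := Nat.choose_pos (by omega)
          show m + 1 ≤ m.choose i + m.choose (i + 1)
          omega
      exact key s j (by omega) hlt
    have h2 : 4 ≤ 2 ^ j := by
      calc 4 = 2 ^ 2 := rfl
        _ ≤ 2 ^ j := Nat.pow_le_pow_right (by norm_num) hj
    nlinarith

/-- Lower bound for the orbit of a weight with support at least two, three labels. -/
theorem three_labels_bound {s j : ℕ} (hs : 3 ≤ s) (hj : 2 ≤ j) (hjs : j ≤ s) :
    4 * s + 2 ≤ s.choose j * 3 ^ j := by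
  rcases Nat.eq_or_lt_of_le hjs with rfl | hlt
  · rw [Nat.choose_self, one_mul]
    obtain ⟨t, rfl⟩ := Nat.exists_eq_add_of_le hs
    induction t with
    | zero => norm_num
    | succ t ih =>
      have := ih (by omega) (by omega) (le_refl _)
      rw [show 3 + (t + 1) = 3 + t + 1 by omega, pow_succ]
      omega
  · have h1 : s ≤ s.choose j := by
      have key : ∀ m i : ℕ, 1 ≤ i → i < m → m ≤ m.choose i := by
        intro m
        induction m with
        | zero => intro i _ h; omega
        | succ m ih =>
          intro i h1 h2
          obtain ⟨i, rfl⟩ := Nat.exists_eq_add_of_le h1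
          rw [show 1 + i = i + 1 by omega, Nat.choose_succ_succ]
          rcases Nat.eq_zero_or_pos i with rfl | hi
          · simp
          have := ih i hi (by omega)
          have : 0 < m.choose (i + 1) := Nat.choose_pos (by omega)
          show m + 1 ≤ m.choose i + m.choose (i + 1)
          omega
      exact key s j (by omega) hlt
    have h2 : 9 ≤ 3 ^ j := by
      calc 9 = 3 ^ 2 := rfl
        _ ≤ 3 ^ j := Nat.pow_le_pow_right (by norm_num) hj
    nlinarith

end Cfsg.Agent.H63.AltSec
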