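import Cfsg.Agent.H63.AltSec.Setup

/-!
# Two commuting five-cycles
-/

set_option linter.unusedSectionVars false
set_option maxHeartbeats 300000

namespace Cfsg.Agent.H63.AltSec

open Module Equiv

/-- The permutation of `Fin 10` given by a list of images. -/
def permTen (f g : Fin 10 → Fin 10) (h₁ : ∀ x, g (f x) = x := by decide)
    (h₂ : ∀ x, f (g x) = x := by decide) : Perm (Fin 10) where
  toFun := f
  invFun := g
  left_inv := h₁
  right_inv := h₂

/-- The first five-cycle. -/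
def fiveU : Perm (Fin 10) :=
  permTen ![1, 2, 3, 4, 0, 5, 6, 7, 8, 9] ![4, 0, 1, 2, 3, 5, 6, 7, 8, 9]

/-- The second five-cycle. -/
def fiveV : Perm (Fin 10) :=
  permTen ![0, 1, 2, 3, 4, 6, 7, 8, 9, 5] ![0, 1, 2, 3, 4, 9, 5, 6, 7, 8]

/-- Doubling on the first block, with a compensating transposition. -/
def fiveD : Perm (Fin 10) :=
  permTen ![0, 2, 4, 1, 3, 5, 6, 7, 9, 8] ![0, 3, 1, 4, 2, 5, 6, 7, 9, 8]

/-- Exchange of the blocks combined with doubling. -/
def fiveS : Perm (Fin 10) :=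
  permTen ![5, 6, 7, 8, 9, 0, 2, 4, 1, 3] ![5, 8, 6, 9, 7, 0, 1, 2, 3, 4]

/-- The moves on pairs of exponents. -/
def fiveMoveR (w : ZMod 5 × ZMod 5) : ZMod 5 × ZMod 5 := (w.1, 4 * w.2)

/-- The moves on pairs of exponents. -/
def fiveMoveS (w : ZMod 5 × ZMod 5) : ZMod 5 × ZMod 5 := (3 * w.2, w.1)

/-- Iterates of the exchange. -/
def fiveOrbit (w : ZMod 5 × ZMod 5) : Finset (ZMod 5 × ZMod 5) :=
  (Finset.range 8).image (fun i => fiveMoveS^[i] w) ∪
    (Finset.range 8).image (fun i => fiveMoveS^[i] (fiveMoveR w))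

theorem fiveOrbit_card : ∀ w : ZMod 5 × ZMod 5, w.1 ≠ 0 → w.2 ≠ 0 → 10 ≤ (fiveOrbit w).card := by
  decide +kernel

theorem exists_three_pow : ∀ x : ZMod 5, x ≠ 0 → ∃ i : Fin 4, (3 : ZMod 5) ^ (i : ℕ) = x := by decide

theorem three_mul_ne_zero_five : ∀ x : ZMod 5, x ≠ 0 → 3 * x ≠ 0 := by decide

theorem zmod_five_facts : (4 : ZMod 5).val = 4 ∧ (3 : ZMod 5).val = 3 := ⟨rfl, rfl⟩

namespace AltProj

variable {k : Type*} [Field k] {V : Type*} [AddCommGroup V] [Module k V] {r : ℕ} (P : AltProj k V r)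

/-- Lifting a permutation of the first ten points. -/
noncomputable def embTen (hr : 10 ≤ r) : Perm (Fin 10) →* Perm (Fin r) :=
  Perm.viaEmbeddingHom (Fin.castLEEmb hr)

theorem sign_embTen (hr : 10 ≤ r) (σ : Perm (Fin 10)) : Perm.sign (embTen hr σ) = Perm.sign σ := by
  show Perm.sign (Perm.viaEmbedding σ _) = _
  rw [Perm.viaEmbedding]
  convert! Perm.sign_extendDomain σ _

theorem disjoint_embTen (hr : 10 ≤ r) {σ τ : Perm (Fin 10)} (h : ∀ x, σ x = x ∨ τ x = x) :
    _root_.Disjoint (embTen hr σ).support (embTen hr τ).support := by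
  rw [← Perm.disjoint_iff_disjoint_support]
  intro y
  show Perm.viaEmbedding σ (Fin.castLEEmb hr) y = y ∨ Perm.viaEmbedding τ (Fin.castLEEmb hr) y = y
  by_cases hy : y ∈ Set.range (Fin.castLEEmb hr)
  · obtain ⟨x, rfl⟩ := hy
    rw [Perm.viaEmbedding_apply, Perm.viaEmbedding_apply]
    rcases h x with h | h
    · exact Or.inl (by rw [h])
    · exact Or.inr (by rw [h])
  · exact Or.inl (Perm.viaEmbedding_apply_of_notMem _ _ _ hy)

/-- Two commuting five-cycle lifts with their symmetries. -/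
theorem exists_five_data (hr : 10 ≤ r) :
    ∃ u v R S : ↥P.G, P.πP u = embTen hr fiveU ∧ u ^ 5 = 1 ∧ v ^ 5 = 1 ∧ Commute u v ∧
      Commute R u ∧ R * v * R⁻¹ = v ^ 4 ∧ S * u * S⁻¹ = v ∧ S * v * S⁻¹ = u ^ 2 := by
  have sD : Perm.sign fiveD = 1 := by decide +kernel
  have sS : Perm.sign fiveS = 1 := by decide +kernel
  have sU : Perm.sign fiveU = 1 := by decide +kernel
  have eD : fiveD * fiveU * fiveD⁻¹ = fiveU ^ 2 := by decide +kernel
  have eU : fiveU ^ 5 = 1 := by decide +kernel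
  have eV : fiveS * fiveU * fiveS⁻¹ = fiveV := by decide +kernel
  have dUV : ∀ x, fiveU x = x ∨ fiveV x = x := by decide +kernel
  have dR : ∀ x, (fiveS * (fiveD * fiveD) * fiveS⁻¹) x = x ∨ fiveU x = x := by decide +kernel
  have dX : ∀ x, (fiveD⁻¹ * (fiveS * fiveS)) x = x ∨ fiveU x = x := by decide +kernel
  obtain ⟨u, hu, hnorm⟩ := P.exists_normLift (σ := embTen hr fiveU) (γ := embTen hr fiveD)
    ((sign_embTen hr _).trans sU) ((sign_embTen hr _).trans sD)
    (by rw [← map_inv, ← map_mul, ← map_mul, eD, map_pow])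
  obtain ⟨D, hD⟩ := P.exists_lift ((sign_embTen hr _).trans sD)
  obtain ⟨S, hS⟩ := P.exists_lift ((sign_embTen hr _).trans sS)
  have hDu := hnorm D hD
  have hu5 : u ^ 5 = 1 := pow_eq_one_of_normLift P hDu (by rw [hu, ← map_pow, eU, map_one])
  set v := S * u * S⁻¹ with hv
  set R := S * (D * D) * S⁻¹ with hR
  have hv5 : v ^ 5 = 1 := by rw [hv, conj_pow, hu5, mul_one, mul_inv_cancel]
  have huv : Commute u v := P.commute_of_disjoint (by
    rw [hv, map_mul, map_mul, map_inv, hu, hS, ← map_inv, ← map_mul, ← map_mul, eV]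
    exact disjoint_embTen hr dUV)
  have hRu : Commute R u := P.commute_of_disjoint (by
    rw [hR, map_mul, map_mul, map_mul, map_inv, hD, hu, hS, ← map_inv, ← map_mul, ← map_mul, ← map_mul]
    exact disjoint_embTen hr dR)
  have hD2 : (D * D) * u * (D * D)⁻¹ = u ^ 4 := by
    rw [show (D * D) * u * (D * D)⁻¹ = D * (D * u * D⁻¹) * D⁻¹ by group, hDu, ← conj_pow, hDu, ← pow_mul]
  have hX : Commute (D⁻¹ * (S * S)) u := P.commute_of_disjoint (by
    rw [map_mul, map_mul, map_inv, hD, hu, hS, ← map_inv, ← map_mul, ← map_mul]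
    exact disjoint_embTen hr dX)
  refine ⟨u, v, R, S, hu, hu5, hv5, huv, hRu, ?_, rfl, ?_⟩
  · rw [hR, hv, conj_pow, ← hD2]; group
  · calc S * v * S⁻¹ = D * ((D⁻¹ * (S * S)) * u * (D⁻¹ * (S * S))⁻¹) * D⁻¹ := by rw [hv]; group
      _ = D * u * D⁻¹ := by rw [hX.eq, mul_inv_cancel_right]
      _ = u ^ 2 := hDu

variable [IsAlgClosed k] [FiniteDimensional k V]

/-- With two commuting five-cycles, either the degree is at least ten, or the non-trivial eigenspaces of
one are fixed by the other. -/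
theorem five_pair (hr : 10 ≤ r) (h5 : (5 : k) ≠ 0) :
    10 ≤ finrank k V ∨ ∃ (u : ↥P.G) (ζ : k) (d : ℕ), P.πP u = embTen hr fiveU ∧
      IsPrimitiveRoot ζ 5 ∧ 1 ≤ d ∧ 8 * d ≤ finrank k V ∧
      ∀ x : ZMod 5, x ≠ 0 → finrank k ↥((P.op u).eigenspace (ζ ^ x.val)) = d := by
  classical
  obtain ⟨u, v, R, S, hu, hu5, hv5, huv, hRu, hRv, hSu, hSv⟩ := P.exists_five_data hr
  haveI : NeZero ((5 : ℕ) : k) := ⟨by exact_mod_cast h5⟩
  obtain ⟨ζ, hζ⟩ := HasEnoughRootsOfUnity.exists_primitiveRoot k 5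
  let A : Fin 2 → Module.End k V := ![P.op u, P.op v]
  let χ : ZMod 5 × ZMod 5 → (Fin 2 → k) := fun w => ![ζ ^ w.1.val, ζ ^ w.2.val]
  have hζpow : ∀ a b : ℕ, a % 5 = b % 5 → ζ ^ a = ζ ^ b := fun a b h => by
    rw [← Nat.div_add_mod a 5, ← Nat.div_add_mod b 5, pow_add, pow_add, pow_mul, pow_mul, hζ.pow_eq_one,
      one_pow, one_pow, h]
  have hχinj : Function.Injective χ := by
    intro a b h
    have h1 := congrFun h 0
    have h2 := congrFun h 1
    simp [χ] at h1 h2
    exact Prod.ext (ZMod.val_injective 5 (hζ.pow_inj a.1.val_lt b.1.val_lt h1))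
      (ZMod.val_injective 5 (hζ.pow_inj a.2.val_lt b.2.val_lt h2))
  have hA : ∀ i, A i ^ 5 = 1 := by
    intro i
    fin_cases i
    · show P.op u ^ 5 = 1; rw [← map_pow, hu5, map_one]
    · show P.op v ^ 5 = 1; rw [← map_pow, hv5, map_one]
  have hc : ∀ i j, Commute (A i) (A j) := by
    intro i j
    fin_cases i <;> fin_cases j
    · exact Commute.refl _
    · exact huv.map P.op
    · exact huv.symm.map P.op
    · exact Commute.refl _
  have hm : ((5 : ℕ) : k) ≠ 0 := by exact_mod_cast h5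
  let E : ZMod 5 × ZMod 5 → Submodule k V := fun w => jointEigen A (χ w)
  have hmem : ∀ w x, x ∈ E w ↔ P.op u x = ζ ^ w.1.val • x ∧ P.op v x = ζ ^ w.2.val • x := by
    intro w x
    rw [mem_jointEigen, Fin.forall_fin_two]
    simp [A, χ]
  have hpow : ∀ (g : ↥P.G) (x : V) (a : k), P.op g x = a • x → ∀ m : ℕ, P.op (g ^ m) x = a ^ m • x := by
    intro g x a h m
    induction m with
    | zero => simp
    | succ m ih => rw [pow_succ, map_mul, Module.End.mul_apply, h, map_smul, ih, smul_smul, pow_succ']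
  have hmove : ∀ (t : ↥P.G) (w w' : ZMod 5 × ZMod 5), (∀ x ∈ E w, P.op t x ∈ E w') →
      finrank k ↥(E w) ≤ finrank k ↥(E w') := by
    intro t w w' h
    rw [LinearEquiv.finrank_eq (Submodule.equivMapOfInjective _ (P.op_apply_injective t) (E w))]
    refine Submodule.finrank_mono ?_
    rintro _ ⟨x, hx, rfl⟩
    exact h x hx
  have happ : ∀ (t g g' : ↥P.G) (x : V) (a : k), g * t = t * g' → P.op g' x = a • x →
      P.op g (P.op t x) = a • P.op t x := fun t g g' x a e h => by
    rw [← Module.End.mul_apply, ← map_mul, e, map_mul, Module.End.mul_apply, h, map_smul]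
  have mR : ∀ w, finrank k ↥(E w) ≤ finrank k ↥(E (fiveMoveR w)) := by
    intro w
    refine hmove R _ _ fun x hx => ?_
    obtain ⟨h1, h2⟩ := (hmem _ _).1 hx
    refine (hmem _ _).2 ⟨happ R u u x _ hRu.eq.symm h1, ?_⟩
    have h16 : v * R = R * v ^ 4 := by
      have e : R * v ^ 4 * R⁻¹ = v := by
        rw [← conj_pow, hRv, ← pow_mul, show 4 * 4 = 1 + 5 * 3 from rfl, pow_add, pow_mul, hv5, one_pow,
          mul_one, pow_one]
      nth_rewrite 1 [← e]
      rw [inv_mul_cancel_right]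
    rw [happ R v (v ^ 4) x _ h16 (hpow v x _ h2 4), ← pow_mul]
    congr 1
    refine hζpow _ _ ?_
    simp only [fiveMoveR, ZMod.val_mul, zmod_five_facts.1]
    omega
  have mS : ∀ w, finrank k ↥(E w) ≤ finrank k ↥(E (fiveMoveS w)) := by
    intro w
    refine hmove S _ _ fun x hx => ?_
    obtain ⟨h1, h2⟩ := (hmem _ _).1 hx
    refine (hmem _ _).2 ⟨?_, happ S v u x _ (by rw [← hSu, inv_mul_cancel_right]) h1⟩
    have h3 : u * S = S * v ^ 3 := by
      have e : S * v ^ 3 * S⁻¹ = u := by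
        rw [← conj_pow, hSv, ← pow_mul, show 2 * 3 = 1 + 5 from rfl, pow_add, hu5, mul_one, pow_one]
      nth_rewrite 1 [← e]
      rw [inv_mul_cancel_right]
    rw [happ S u (v ^ 3) x _ h3 (hpow v x _ h2 3), ← pow_mul]
    congr 1
    refine hζpow _ _ ?_
    simp only [fiveMoveS, ZMod.val_mul, zmod_five_facts.2]
    omega
  have miter : ∀ i w, finrank k ↥(E w) ≤ finrank k ↥(E (fiveMoveS^[i] w)) := by
    intro i
    induction i with
    | zero => intro w; rfl
    | succ i ih => intro w; rw [Function.iterate_succ_apply']; exact (ih w).trans (mS _)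
  by_cases hboth : ∃ w : ZMod 5 × ZMod 5, w.1 ≠ 0 ∧ w.2 ≠ 0 ∧ E w ≠ ⊥
  · left
    obtain ⟨w, h1, h2, hw⟩ := hboth
    have hpos : ∀ w' ∈ fiveOrbit w, 1 ≤ finrank k ↥(E w') := by
      have h0 : 1 ≤ finrank k ↥(E w) := Submodule.one_le_finrank_iff.2 hw
      intro w' hw'
      rw [fiveOrbit, Finset.mem_union, Finset.mem_image, Finset.mem_image] at hw'
      rcases hw' with ⟨i, -, rfl⟩ | ⟨i, -, rfl⟩
      · exact h0.trans (miter i w)
      · exact h0.trans ((mR w).trans (miter i _))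
    exact ((fiveOrbit_card w h1 h2).trans (le_of_eq (mul_one _).symm)).trans
      (card_mul_le_finrank A hc hm hA χ hχinj (fiveOrbit w) 1 hpos)
  right
  push Not at hboth
  have hchar₀ : ∀ c, jointEigen A c ≠ ⊥ → c ∈ Finset.univ.image χ := by
    intro c hc'
    obtain ⟨x, hx, hx0⟩ := Submodule.exists_mem_ne_zero_of_ne_bot hc'
    have hroot : ∀ i, c i ^ 5 = 1 := by
      intro i
      have hp : ∀ m : ℕ, (A i ^ m) x = c i ^ m • x := by
        intro m
        induction m with
        | zero => simp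
        | succ m ih => rw [pow_succ, Module.End.mul_apply, mem_jointEigen.1 hx i, map_smul, ih, smul_smul, pow_succ']
      have h := hp 5
      rw [hA i, Module.End.one_apply] at h
      exact smul_left_injective k hx0 (by simpa using h.symm)
    obtain ⟨a, ha, ha'⟩ := hζ.eq_pow_of_pow_eq_one (hroot 0)
    obtain ⟨b, hb, hb'⟩ := hζ.eq_pow_of_pow_eq_one (hroot 1)
    refine Finset.mem_image.2 ⟨((a : ZMod 5), (b : ZMod 5)), Finset.mem_univ _, funext fun i => ?_⟩
    fin_cases i <;> simp [χ, ZMod.val_natCast, Nat.mod_eq_of_lt ha, Nat.mod_eq_of_lt hb, ha', hb']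
  obtain ⟨T, hT, hchar⟩ : ∃ T : Finset (Fin 2 → k), (∀ c ∈ T, ∃ w, χ w = c) ∧
      ∀ c, jointEigen A c ≠ ⊥ → c ∈ T :=
    ⟨Finset.univ.image χ, fun c hc' => by
      obtain ⟨w, -, h⟩ := Finset.mem_image.1 hc'
      exact ⟨w, h⟩, hchar₀⟩
  clear hchar₀
  have hscale : ∀ i w, finrank k ↥(E w) ≤ finrank k ↥(E (3 ^ i * w.1, 3 ^ i * w.2)) := by
    intro i
    induction i with
    | zero => intro w; rw [pow_zero, one_mul, one_mul]
    | succ i ih =>
      intro w
      refine (ih w).trans (((mS _).trans (mS _)).trans (le_of_eq ?_))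
      simp only [fiveMoveS]
      rw [pow_succ', mul_assoc, mul_assoc]; rfl
  set d := finrank k ↥(E (1, 0)) with hd
  have hx0 : ∀ x : ZMod 5, x ≠ 0 → finrank k ↥(E (x, 0)) = d ∧ finrank k ↥(E (0, x)) = d := by
    intro x hx
    have hinv : ∀ i : Fin 4, ∃ j : ℕ, (3 : ZMod 5) ^ j * 3 ^ (i : ℕ) = 1 := fun i =>
      ⟨4 - i, by rw [← pow_add, show 4 - (i : ℕ) + i = 4 by omega]; rfl⟩
    obtain ⟨i, hi⟩ := exists_three_pow x hx
    have e1 : finrank k ↥(E (x, 0)) = d := by
      refine le_antisymm ?_ ?_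
      · obtain ⟨j, hj⟩ := hinv i
        have := hscale j (x, 0)
        rwa [← hi, hj, mul_zero, hi] at this
      · have := hscale i (1, 0)
        rwa [mul_one, mul_zero, hi] at this
    refine ⟨e1, le_antisymm ?_ ?_⟩
    · have h := mS (0, x)
      simp only [fiveMoveS] at h
      have h3x : 3 * x ≠ 0 := three_mul_ne_zero_five x hx
      obtain ⟨i', hi'⟩ := exists_three_pow (3 * x) h3x
      obtain ⟨j, hj⟩ := hinv i'
      have := hscale j (3 * x, 0)
      rw [← hi', hj, mul_zero, hi'] at this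
      exact h.trans this
    · rw [← e1]; exact (mS (x, 0)).trans (le_of_eq (by rw [fiveMoveS, mul_zero]))
  have hall : ∀ x : ZMod 5, x ≠ 0 → (P.op u).eigenspace (ζ ^ x.val) = E (x, 0) := by
    intro x hx
    refine le_antisymm ?_ fun y hy => End.mem_eigenspace_iff.2 ((hmem _ _).1 hy).1
    have := eigenspace_eq_sup A hc hm hA _ hchar 0 (ζ ^ x.val)
    rw [show P.op u = A 0 from rfl, this]
    refine Finset.sup_le fun c hcmem => ?_
    obtain ⟨hc1, hc2⟩ := Finset.mem_filter.1 hcmem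
    obtain ⟨w, rfl⟩ := hT c hc1
    have hw1 : w.1 = x := ZMod.val_injective 5 (hζ.pow_inj w.1.val_lt x.val_lt (by simpa [χ] using hc2))
    by_cases hw2 : w.2 = 0
    · rw [show w = (x, 0) from Prod.ext hw1 hw2]
    · exact (le_of_eq (hboth w (hw1 ▸ hx) hw2)).trans bot_le
  refine ⟨u, ζ, d, hu, hζ, ?_, ?_, fun x hx => by rw [hall x hx]; exact (hx0 x hx).1⟩
  · rw [Nat.one_le_iff_ne_zero]
    intro h0
    refine P.ne_scalar (g := u) ?_ 1 ?_
    · rw [hu]
      intro e
      have h1 := congrArg (fun σ : Perm (Fin r) => σ (Fin.castLEEmb hr 0)) e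
      simp only [embTen, Perm.viaEmbeddingHom_apply, Perm.viaEmbedding_apply, Perm.one_apply] at h1
      exact absurd ((Fin.castLEEmb hr).injective h1) (by decide +kernel)
    · rw [one_smul]
      refine LinearMap.ext fun y => ?_
      have htop := sup_jointEigen_eq_top A hc hm hA _ hchar
      have hy : y ∈ (P.op u).eigenspace 1 := by
        refine SetLike.le_def.1 ?_ (Submodule.mem_top : y ∈ (⊤ : Submodule k V))
        rw [← htop]
        refine Finset.sup_le fun c hc' => ?_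
        obtain ⟨w, rfl⟩ := hT c hc'
        intro z hz
        by_cases hw : w.1 = 0
        · rw [End.mem_eigenspace_iff, ((hmem _ _).1 hz).1, hw, ZMod.val_zero, pow_zero]
        · have hb : E w = ⊥ := by
            by_cases hw2 : w.2 = 0
            · rw [show w = (w.1, 0) from Prod.ext rfl hw2, ← Submodule.finrank_eq_zero (R := k)]
              exact (hx0 _ hw).1.trans h0
            · exact hboth w hw hw2
          rw [show z = 0 from (Submodule.mem_bot k).1 (hb ▸ hz)]
          exact Submodule.zero_mem _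
      rw [End.mem_eigenspace_iff, one_smul] at hy
      rw [hy, Module.End.one_apply]
  · let W : Finset (ZMod 5 × ZMod 5) :=
      (Finset.univ.filter fun w => (w.1 = 0) ≠ (w.2 = 0))
    have hW : W.card = 8 := by decide +kernel +revert
    have hWd : ∀ w ∈ W, finrank k ↥(E w) = d := by
      intro w hw
      have hw' := (Finset.mem_filter.1 hw).2
      by_cases h1 : w.1 = 0
      · have h2 : w.2 ≠ 0 := fun h2 => hw' (by rw [h1, h2])
        rw [show w = (0, w.2) from Prod.ext h1 rfl]; exact (hx0 _ h2).2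
      · have h2 : w.2 = 0 := by
          by_contra h2; exact hw' (propext (iff_of_false h1 h2))
        rw [show w = (w.1, 0) from Prod.ext rfl h2]; exact (hx0 _ h1).1
    rw [← hW]
    exact card_mul_le_finrank A hc hm hA χ hχinj W d fun w hw => (hWd w hw).ge

end AltProj

end Cfsg.Agent.H63.AltSec
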