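import Cfsg.Agent.H63.AltSec.ThreeLift
import Cfsg.Agent.H63.AltSec.Counting
import Cfsg.Agent.H63.AltSec.FivePair

/-!
# Characteristic two: the weights of commuting three-cycles
-/

set_option linter.unusedSectionVars false
set_option maxHeartbeats 1000000

namespace Cfsg.Agent.H63.AltSec

open Module Equiv

/-- Negation of a label when the orientation is reversed. -/
def flipLabel (b : Bool) (x : Fin 3) : Fin 3 := if b then -x else x

namespace AltProj

variable {k : Type*} [Field k] [IsAlgClosed k] {V : Type*} [AddCommGroup V] [Module k V]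
  [FiniteDimensional k V] {r : ℕ} (P : AltProj k V r)

/-- The moved space of a three-cycle. -/
noncomputable def U (a b c : Fin r) : Submodule k V := LinearMap.range (P.op (P.tri a b c) - 1)

theorem mem_U_image {a b c : Fin r} (hab : a ≠ b) (hac : a ≠ c) (hbc : b ≠ c) (u : ↥P.G) :
    ∀ v ∈ P.U a b c, P.op u v ∈ P.U (P.πP u a) (P.πP u b) (P.πP u c) := by
  rintro _ ⟨x, rfl⟩
  refine ⟨P.op u x, ?_⟩
  rw [← P.tri_conj hab hac hbc u]
  simp only [LinearMap.sub_apply, Module.End.one_apply, map_sub, map_mul, Module.End.mul_apply, P.op_inv_apply]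

theorem fix_finrank_conj {a b c d e f : Fin r} (hab : a ≠ b) (hac : a ≠ c) (hbc : b ≠ c)
    (hde : d ≠ e) (hdf : d ≠ f) (hef : e ≠ f) :
    finrank k ↥(LinearMap.ker (P.op (P.tri a b c) - 1)) ≤ finrank k ↥(LinearMap.ker (P.op (P.tri d e f) - 1)) := by
  have hr := P.nine_le
  obtain ⟨γ, hγ⟩ := exists_even_map (α := Fin r) (m := 3) (by simp; omega) ![a, b, c] ![d, e, f]
    (by intro i j; fin_cases i <;> fin_cases j <;> simp <;> grind)
    (by intro i j; fin_cases i <;> fin_cases j <;> simp <;> grind)
  obtain ⟨u, hu⟩ := P.exists_lift (Perm.mem_alternatingGroup.1 γ.2)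
  rw [LinearEquiv.finrank_eq (Submodule.equivMapOfInjective _ (P.op_apply_injective u)
    (LinearMap.ker (P.op (P.tri a b c) - 1)))]
  refine Submodule.finrank_mono ?_
  rintro _ ⟨x, hx, rfl⟩
  rw [SetLike.mem_coe, LinearMap.mem_ker, LinearMap.sub_apply, Module.End.one_apply, sub_eq_zero] at hx
  rw [LinearMap.mem_ker, LinearMap.sub_apply, Module.End.one_apply, sub_eq_zero]
  have h := P.tri_conj hab hac hbc u
  rw [hu, show γ.1 a = d from hγ 0, show γ.1 b = e from hγ 1, show γ.1 c = f from hγ 2] at h
  rw [← h, map_mul, map_mul, Module.End.mul_apply, Module.End.mul_apply, P.op_inv_apply, hx]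

/-- With small degree in characteristic two, three-cycles are bireflections with orthogonal moved spaces. -/
theorem charTwo_weights [CharP k 2] (hsmall : finrank k V < r - 1 - (if 2 ∣ r then 1 else 0)) :
    (∀ a b c : Fin r, a ≠ b → a ≠ c → b ≠ c → finrank k ↥(P.U a b c) = 2) ∧
    (∀ a b c d e f : Fin r, a ≠ b → a ≠ c → b ≠ c → d ≠ e → d ≠ f → e ≠ f →
      _root_.Disjoint ({a, b, c} : Finset (Fin r)) {d, e, f} →
      ∀ v ∈ P.U a b c, P.op (P.tri d e f) v = v) ∧
    6 ≤ finrank k V := by
  classical
  have hr := P.nine_le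
  set n := finrank k V with hn
  have h3 : ((3 : ℕ) : k) ≠ 0 := by
    rw [Ne, CharP.cast_eq_zero_iff k 2]; omega
  haveI : NeZero ((3 : ℕ) : k) := ⟨h3⟩
  obtain ⟨ω, hω⟩ := HasEnoughRootsOfUnity.exists_primitiveRoot k 3
  obtain ⟨s, hs⟩ : ∃ s, s = r / 3 := ⟨_, rfl⟩
  have hs3 : 3 ≤ s := by omega
  let blk : Fin s × Fin 3 ↪ Fin r := ⟨fun p => ⟨3 * p.1.val + p.2.val, by have := p.1.2; have := p.2.2; omega⟩,
    by
      rintro ⟨i, x⟩ ⟨j, y⟩ h
      have h' : 3 * i.val + x.val = 3 * j.val + y.val := congrArg Fin.val h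
      have := x.2
      have := y.2
      exact Prod.ext (Fin.ext (by simp only; omega)) (Fin.ext (by simp only; omega))⟩
  have hne : ∀ i (x y : Fin 3), x ≠ y → blk (i, x) ≠ blk (i, y) := fun i x y h e =>
    h (congrArg Prod.snd (blk.injective e))
  let T : Fin s → ↥P.G := fun i => P.tri (blk (i, 0)) (blk (i, 1)) (blk (i, 2))
  have hT3 : ∀ i, T i ^ 3 = 1 := fun i =>
    P.tri_pow_three (hne i 0 1 (by decide)) (hne i 0 2 (by decide)) (hne i 1 2 (by decide))
  let A : Fin s → Module.End k V := fun i => P.op (T i)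
  have hA : ∀ i, A i ^ 3 = 1 := fun i => by
    show P.op (T i) ^ 3 = 1; rw [← map_pow, hT3, map_one]
  have hc : ∀ i j, Commute (A i) (A j) := by
    intro i j
    by_cases h : i = j
    · subst h; exact Commute.refl _
    refine Commute.map (P.tri_commute (hne i 0 1 (by decide)) (hne i 0 2 (by decide)) (hne i 1 2 (by decide))
      (hne j 0 1 (by decide)) (hne j 0 2 (by decide)) (hne j 1 2 (by decide)) ?_) P.op
    simp only [Finset.disjoint_left, Finset.mem_insert, Finset.mem_singleton]
    rintro x (rfl | rfl | rfl) (e | e | e) <;> exact h (congrArg Prod.fst (blk.injective e))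
  let χ : (Fin s → Fin 3) → (Fin s → k) := fun w i => ω ^ (w i).val
  have hχinj : Function.Injective χ := fun a b h =>
    funext fun i => Fin.ext (hω.pow_inj (a i).2 (b i).2 (congrFun h i))
  obtain ⟨S, hS, hchar⟩ : ∃ S : Finset (Fin s → k), (∀ c ∈ S, ∃ w, χ w = c) ∧
      ∀ c, jointEigen A c ≠ ⊥ → c ∈ S := by
    refine ⟨Finset.univ.image χ, fun c hc' => ?_, fun c hc' => ?_⟩
    · obtain ⟨w, -, h⟩ := Finset.mem_image.1 hc'
      exact ⟨w, h⟩
    obtain ⟨x, hx, hx0⟩ := Submodule.exists_mem_ne_zero_of_ne_bot hc'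
    have hroot : ∀ i, c i ^ 3 = 1 := by
      intro i
      have h := congrArg (fun f : Module.End k V => f x) (hA i)
      simp only [pow_succ, pow_zero, one_mul, Module.End.mul_apply, mem_jointEigen.1 hx i, map_smul,
        smul_smul, Module.End.one_apply] at h
      refine smul_left_injective k hx0 ?_
      show c i ^ 3 • x = (1 : k) • x
      rw [one_smul]
      convert h using 2
      ring
    choose a ha ha' using fun i => hω.eq_pow_of_pow_eq_one (hroot i)
    exact Finset.mem_image.2 ⟨fun i => ⟨a i, ha i⟩, Finset.mem_univ _, funext ha'⟩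
  let E : (Fin s → Fin 3) → Submodule k V := fun w => jointEigen A (χ w)
  -- realisation of signed block permutations
  have real : ∀ (σ : Perm (Fin s)) (ε : Fin s → Bool) (w w' : Fin s → Fin 3),
      (∀ i, w' (σ i) = flipLabel (ε i) (w i)) →
      Perm.sign σ * (∏ i, if ε i then (-1 : ℤˣ) else 1) = 1 → finrank k ↥(E w) ≤ finrank k ↥(E w') := by
    intro σ ε w w' hw hsign
    let Q : Perm (Fin s × Fin 3) :=
      (Equiv.prodCongrLeft fun _ : Fin 3 => σ) * (Equiv.prodCongrRight fun i => if ε i then Equiv.swap 1 2 else 1)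
    have hQ : Perm.sign Q = 1 := by
      rw [map_mul, Perm.sign_prodCongrLeft, Perm.sign_prodCongrRight, Fin.prod_univ_three]
      have e1 : ∀ i, Perm.sign (if ε i then Equiv.swap (1 : Fin 3) 2 else 1) = if ε i then (-1 : ℤˣ) else 1 := by
        intro i; cases ε i <;> simp
      simp only [e1]
      rw [Int.units_mul_self, one_mul, hsign]
    obtain ⟨g, hg⟩ := P.exists_lift (σ := Perm.viaEmbedding Q blk)
      (by rw [Perm.viaEmbedding]; convert! (Perm.sign_extendDomain Q _).trans hQ)
    have hgT : ∀ i, g * T i * g⁻¹ = if ε i then (T (σ i))⁻¹ else T (σ i) := by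
      intro i
      show g * P.tri _ _ _ * g⁻¹ = _
      rw [P.tri_conj (hne i 0 1 (by decide)) (hne i 0 2 (by decide)) (hne i 1 2 (by decide)), hg,
        Perm.viaEmbedding_apply, Perm.viaEmbedding_apply, Perm.viaEmbedding_apply]
      have n01 := hne (σ i) 0 1 (by decide)
      have n02 := hne (σ i) 0 2 (by decide)
      have n12 := hne (σ i) 1 2 (by decide)
      have hs0 : Equiv.swap (1 : Fin 3) 2 0 = 0 := by decide
      cases hε : ε i
      · simp [Q, hε, T]
      · simp only [Q, Perm.mul_apply, Equiv.prodCongrRight_apply, Equiv.prodCongrLeft_apply, hε, if_true,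
          Equiv.swap_apply_left, Equiv.swap_apply_right, hs0]
        rw [← P.tri_reverse n01 n02 n12, ← P.tri_rotate n12.symm n02.symm n01.symm,
          ← P.tri_rotate n01.symm n12 n02]
    rw [LinearEquiv.finrank_eq (Submodule.equivMapOfInjective _ (P.op_apply_injective g) (E w))]
    refine Submodule.finrank_mono ?_
    rintro _ ⟨x, hx, rfl⟩
    refine mem_jointEigen.2 fun l => ?_
    obtain ⟨i, rfl⟩ := σ.surjective l
    have hxi : P.op (T i) x = ω ^ (w i).val • x := mem_jointEigen.1 hx i
    show P.op (T (σ i)) (P.op g x) = ω ^ (w' (σ i)).val • P.op g x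
    rw [hw i]
    cases hε : ε i
    · have e : T (σ i) = g * T i * g⁻¹ := by rw [hgT, hε]; rfl
      rw [e, map_mul, map_mul, Module.End.mul_apply, Module.End.mul_apply, P.op_inv_apply, hxi, map_smul]
      rfl
    · have e : T (σ i) = g * (T i * T i) * g⁻¹ := by
        have e' : (g * T i * g⁻¹)⁻¹ = T (σ i) := by rw [hgT, hε, if_pos rfl, inv_inv]
        rw [← e', mul_inv_rev, mul_inv_rev, inv_inv, ← mul_assoc]
        congr 2
        exact inv_eq_of_mul_eq_one_right (by rw [← mul_assoc, ← pow_two, ← pow_succ, hT3])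
      rw [e, map_mul, map_mul, map_mul, Module.End.mul_apply, Module.End.mul_apply, Module.End.mul_apply,
        P.op_inv_apply, hxi, map_smul, hxi, smul_smul, map_smul, ← pow_add]
      congr 1
      have key : ∀ x : Fin 3, ((flipLabel true x).val) % 3 = (x.val + x.val) % 3 := by decide
      rw [← Nat.div_add_mod ((w i).val + (w i).val) 3, pow_add, pow_mul, hω.pow_eq_one, one_pow, one_mul,
        ← key, Nat.mod_eq_of_lt (flipLabel true (w i)).2]
  have trans : ∀ w w' : Fin s → Fin 3,
      (Finset.univ.filter fun i => w i ≠ 0).card = (Finset.univ.filter fun i => w' i ≠ 0).card →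
      finrank k ↥(E w) ≤ finrank k ↥(E w') := by
    intro w w' hcard
    let e : {i // w i ≠ 0} ≃ {i // w' i ≠ 0} := Fintype.equivOfCardEq (by
      rw [Fintype.card_subtype, Fintype.card_subtype, hcard])
    let σ : Perm (Fin s) := e.extendSubtype
    let ε : Fin s → Bool := fun i => decide (w' (σ i) ≠ w i)
    have hw : ∀ i, w' (σ i) = flipLabel (ε i) (w i) := by
      intro i
      have key : ∀ a b : Fin 3, (a ≠ 0 ↔ b ≠ 0) → b = flipLabel (decide (b ≠ a)) a := by decide
      refine key _ _ ⟨fun hi => Equiv.extendSubtype_mem e i hi, fun hi => ?_⟩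
      by_contra hc0
      exact Equiv.extendSubtype_not_mem e i (not_not.2 hc0 |> fun h => h) hi
    rcases Int.units_eq_one_or (Perm.sign σ * ∏ i, if ε i then (-1 : ℤˣ) else 1) with h | h
    · exact real σ ε w w' hw h
    by_cases hz : ∃ i₀, w i₀ = 0
    · obtain ⟨i₀, hi₀⟩ := hz
      refine real σ (fun i => if i = i₀ then !(ε i) else ε i) w w' (fun i => ?_) ?_
      · by_cases hi : i = i₀
        · subst hi
          have hf : ∀ b, flipLabel b (0 : Fin 3) = 0 := by decide
          rw [hw, hi₀, hf, hf]
        · rw [if_neg hi]; exact hw i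
      · rw [← Finset.mul_prod_erase _ _ (Finset.mem_univ i₀)] at h ⊢
        rw [Finset.prod_congr rfl fun i hi => by rw [if_neg (Finset.ne_of_mem_erase hi)]]
        simp only [if_true]
        generalize (Finset.univ.erase i₀).prod (fun i => if ε i then (-1 : ℤˣ) else 1) = q at h ⊢
        generalize Perm.sign σ = t at h ⊢
        revert h
        cases ε i₀ <;> rcases Int.units_eq_one_or q with rfl | rfl <;>
          rcases Int.units_eq_one_or t with rfl | rfl <;> decide
    · push Not at hz
      obtain ⟨a, b, hab, hwab⟩ : ∃ a b, a ≠ b ∧ w a = w b := by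
        by_contra hcon
        push Not at hcon
        have h1 := Finset.card_le_card_of_injOn (s := (Finset.univ : Finset (Fin s)))
          (t := (Finset.univ : Finset (Fin 3)).erase 0) w
          (fun i _ => Finset.mem_coe.2 (Finset.mem_erase.2 ⟨hz i, Finset.mem_univ _⟩))
          (fun x _ y _ h => by_contra fun hne' => hcon x y hne' h)
        simp at h1
        omega
      have hwswap : ∀ i, w (Equiv.swap a b i) = w i := by
        intro i
        by_cases h1 : i = a
        · subst h1; rw [Equiv.swap_apply_left, hwab]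
        by_cases h2 : i = b
        · subst h2; rw [Equiv.swap_apply_right, hwab]
        rw [Equiv.swap_apply_of_ne_of_ne h1 h2]
      refine real (σ * Equiv.swap a b) (ε ∘ Equiv.swap a b) w w' (fun i => ?_) ?_
      · rw [Perm.mul_apply, hw, hwswap]; rfl
      · rw [map_mul, Perm.sign_swap hab]
        simp only [Function.comp_apply]
        rw [Equiv.prod_comp (Equiv.swap a b) (fun i => if ε i then (-1 : ℤˣ) else 1), mul_right_comm, h]
        rfl
  have hcount : ∀ w₀ : Fin s → Fin 3, E w₀ ≠ ⊥ →
      (suppSet s 2 (Finset.univ.filter fun i => w₀ i ≠ 0).card).card ≤ n := by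
    intro w₀ hw₀
    have h1 := card_mul_le_finrank A hc h3 hA χ hχinj
      (suppSet s 2 (Finset.univ.filter fun i => w₀ i ≠ 0).card) 1 fun w hw =>
        (Submodule.one_le_finrank_iff.2 hw₀).trans (trans w₀ w (Finset.mem_filter.1 hw).2.symm)
    simpa using h1
  by_cases hbig : ∃ w₀, E w₀ ≠ ⊥ ∧ 2 ≤ (Finset.univ.filter fun i => w₀ i ≠ 0).card
  · exfalso
    obtain ⟨w₀, hw₀, hj⟩ := hbig
    have hle := hcount w₀ hw₀
    have hjs : (Finset.univ.filter fun i => w₀ i ≠ 0).card ≤ s := (Finset.card_le_univ _).trans (by simp)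
    rw [card_suppSet] at hle
    by_cases hs4 : 4 ≤ s
    · have := two_labels_bound hs4 hj hjs
      omega
    obtain rfl : s = 3 := by omega
    generalize hjdef : (Finset.univ.filter fun i => w₀ i ≠ 0).card = j at hle hj hjs
    interval_cases j
    · norm_num [Nat.choose] at hle
      omega
    norm_num at hle
    have hr11 : r = 11 := by split_ifs at hsmall <;> omega
    -- every three-cycle fixes at most a line
    have hfix : finrank k ↥(LinearMap.ker (P.op (T 0) - 1)) ≤ 1 := by
      have hk : LinearMap.ker (P.op (T 0) - 1) = (A 0).eigenspace (1 : k) := by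
        rw [End.eigenspace_def, one_smul]
      rw [hk]
      have htot := finrank_eq_sum_jointEigen A hc h3 hA S hchar
      have hes := finrank_eigenspace_eq_sum A hc h3 hA S hchar 0 (1 : k)
      rw [← Finset.sum_filter_add_sum_filter_not S (fun c => c 0 = (1 : k)), ← hes] at htot
      have h8 : 8 ≤ ∑ c ∈ S.filter (fun c => ¬ c 0 = (1 : k)), finrank k ↥(jointEigen A c) := by
        have hnon : ∀ w ∈ suppSet 3 2 3, E w ≠ ⊥ := fun w hw h0 => hw₀ (by
          have := trans w₀ w (hjdef.trans (Finset.mem_filter.1 hw).2.symm)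
          rw [h0, finrank_bot] at this
          exact Submodule.finrank_eq_zero.1 (Nat.le_zero.1 this))
        have hsub : (suppSet 3 2 3).image χ ⊆ S.filter (fun c => ¬ c 0 = (1 : k)) := by
          intro c hc'
          obtain ⟨w, hw, rfl⟩ := Finset.mem_image.1 hc'
          refine Finset.mem_filter.2 ⟨hchar _ (hnon w hw), fun h1 => ?_⟩
          have hw0 : w 0 ≠ 0 := by
            have hwS := (Finset.mem_filter.1 hw).2
            have heq := Finset.eq_univ_of_card _ (hwS.trans (by simp))
            have h0 : (0 : Fin 3) ∈ Finset.univ.filter fun i => w i ≠ 0 := heq.symm ▸ Finset.mem_univ _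
            exact (Finset.mem_filter.1 h0).2
          exact hω.pow_ne_one_of_pos_of_lt (fun h => hw0 (Fin.ext h)) (w 0).2 h1
        calc 8 = (suppSet 3 2 3).card := by rw [card_suppSet]; rfl
          _ = ∑ _c ∈ (suppSet 3 2 3).image χ, 1 := by simp [Finset.card_image_of_injective _ hχinj]
          _ ≤ ∑ c ∈ (suppSet 3 2 3).image χ, finrank k ↥(jointEigen A c) := Finset.sum_le_sum fun c hc' => by
              obtain ⟨w, hw, rfl⟩ := Finset.mem_image.1 hc'
              exact Submodule.one_le_finrank_iff.2 (hnon w hw)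
          _ ≤ _ := Finset.sum_le_sum_of_subset hsub
      split_ifs at hsmall <;> omega
    have h5 : (5 : k) ≠ 0 := by
      have : ((5 : ℕ) : k) ≠ 0 := by rw [Ne, CharP.cast_eq_zero_iff k 2]; omega
      exact_mod_cast this
    have hr10 : 10 ≤ r := by omega
    rcases P.five_pair hr10 h5 with h10 | ⟨u, ζ, d, hu, hζ, hd1, hd8, hdim⟩
    · split_ifs at hsmall <;> omega
    have hd : d = 1 := by split_ifs at hsmall <;> omega
    subst hd
    let pt : Fin 10 → Fin r := Fin.castLEEmb hr10
    have hpt : ∀ x y, x ≠ y → pt x ≠ pt y := fun x y h e => h ((Fin.castLEEmb hr10).injective e)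
    have n56 := hpt 5 6 (by decide)
    have n57 := hpt 5 7 (by decide)
    have n67 := hpt 6 7 (by decide)
    have sF : Perm.sign (permTen ![0, 1, 2, 3, 4, 6, 5, 7, 9, 8] ![0, 1, 2, 3, 4, 6, 5, 7, 9, 8]) = 1 := by
      decide +kernel
    obtain ⟨F, hF⟩ := P.exists_lift ((sign_embTen hr10 _).trans sF)
    have d1 : ∀ x, fiveU x = x ∨ (permTen ![0, 1, 2, 3, 4, 6, 7, 5, 8, 9] ![0, 1, 2, 3, 4, 7, 5, 6, 8, 9]) x = x := by
      decide +kernel
    have d2 : ∀ x, fiveU x = x ∨ (permTen ![0, 1, 2, 3, 4, 6, 5, 7, 9, 8] ![0, 1, 2, 3, 4, 6, 5, 7, 9, 8]) x = x := by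
      decide +kernel
    have hcycten : cyc (5 : Fin 10) 6 7 = permTen ![0, 1, 2, 3, 4, 6, 7, 5, 8, 9] ![0, 1, 2, 3, 4, 7, 5, 6, 8, 9] := by
      decide +kernel
    have hcyc : cyc (pt 5) (pt 6) (pt 7) = embTen hr10 (cyc 5 6 7) := by
      refine Equiv.ext fun y => ?_
      show _ = Perm.viaEmbedding _ (Fin.castLEEmb hr10) y
      by_cases hy : y ∈ Set.range (Fin.castLEEmb hr10)
      · obtain ⟨x, rfl⟩ := hy
        rw [Perm.viaEmbedding_apply]
        show _ = pt (cyc 5 6 7 x)
        show cyc (pt 5) (pt 6) (pt 7) (pt x) = _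
        by_cases hx5 : x = 5
        · subst hx5; rw [cyc_apply_fst n56 n57, cyc_apply_fst (by decide) (by decide)]
        by_cases hx6 : x = 6
        · subst hx6; rw [cyc_apply_snd n57 n67, cyc_apply_snd (by decide) (by decide)]
        by_cases hx7 : x = 7
        · subst hx7; rw [cyc_apply_thd, cyc_apply_thd]
        rw [cyc_apply_of_ne (hpt _ _ hx5) (hpt _ _ hx6) (hpt _ _ hx7), cyc_apply_of_ne hx5 hx6 hx7]
      · rw [Perm.viaEmbedding_apply_of_notMem _ _ _ hy, cyc_apply_of_ne] <;>
          exact fun e => hy ⟨_, e.symm⟩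
    set T' := P.tri (pt 5) (pt 6) (pt 7) with hT'
    have c1 : Commute T' u := (P.commute_of_disjoint (by
      rw [hu, P.πP_tri n56 n57 n67, hcyc, hcycten]
      exact disjoint_embTen hr10 d1)).symm
    have c2 : Commute F u := (P.commute_of_disjoint (by rw [hu, hF]; exact disjoint_embTen hr10 d2)).symm
    have hFT : F * T' * F⁻¹ = T'⁻¹ := by
      have e5 : P.πP F (pt 5) = pt 6 := by
        rw [hF]; exact (Perm.viaEmbedding_apply _ (Fin.castLEEmb hr10) 5).trans rfl
      have e6 : P.πP F (pt 6) = pt 5 := by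
        rw [hF]; exact (Perm.viaEmbedding_apply _ (Fin.castLEEmb hr10) 6).trans rfl
      have e7 : P.πP F (pt 7) = pt 7 := by
        rw [hF]; exact (Perm.viaEmbedding_apply _ (Fin.castLEEmb hr10) 7).trans rfl
      rw [hT', P.tri_conj n56 n57 n67, e5, e6, e7, ← P.tri_reverse n56 n57 n67,
        ← P.tri_rotate n67.symm n57.symm n56.symm]
    have h4 : ∀ x : ZMod 5, x ≠ 0 → (P.op u).eigenspace (ζ ^ x.val) ≤ LinearMap.ker (P.op T' - 1) := by
      intro x hx y hy
      rw [LinearMap.mem_ker, LinearMap.sub_apply, Module.End.one_apply, sub_eq_zero]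
      by_cases hy0 : y = 0
      · rw [hy0, map_zero]
      have pres : ∀ g : ↥P.G, Commute g u → ∀ z ∈ (P.op u).eigenspace (ζ ^ x.val),
          P.op g z ∈ (P.op u).eigenspace (ζ ^ x.val) := fun g hg z hz => by
        rw [End.mem_eigenspace_iff] at hz ⊢
        rw [← Module.End.mul_apply, ← map_mul, ← hg.eq, map_mul, Module.End.mul_apply, hz, map_smul]
      have line : ∀ z ∈ (P.op u).eigenspace (ζ ^ x.val), ∃ l : k, z = l • y := by
        intro z hz
        obtain ⟨l, hl⟩ := exists_smul_eq_of_finrank_eq_one (hdim x hx)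
          (x := (⟨y, hy⟩ : (P.op u).eigenspace (ζ ^ x.val))) (fun e => hy0 (congrArg Subtype.val e)) ⟨z, hz⟩
        exact ⟨l, (congrArg Subtype.val hl).symm⟩
      obtain ⟨l, hl⟩ := line _ (pres T' c1 y hy)
      obtain ⟨m, hm⟩ := line _ (pres F c2 y hy)
      have e1 := congrArg (fun g => P.op g (P.op F y)) hFT
      simp only [map_mul, Module.End.mul_apply, P.op_inv_apply] at e1
      have e2 := congrArg (P.op T') e1
      rw [P.op_apply_inv, hl, map_smul, hm, smul_smul, map_smul, hl, smul_smul] at e2
      have hm0 : m ≠ 0 := fun h0 => hy0 (P.op_apply_injective F (by rw [hm, h0, zero_smul, map_zero]))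
      have e3 : l * m * l = m := smul_left_injective k hy0 e2
      have e4 : l ^ 2 = 1 := mul_right_cancel₀ hm0 (by linear_combination e3)
      haveI : Fact (Nat.Prime 2) := ⟨Nat.prime_two⟩
      have e5 : l = 1 := frobenius_inj k 2 (by rw [frobenius_def, frobenius_def, one_pow, e4])
      rw [hl, e5, one_smul]
    have hfix' := P.fix_finrank_conj n56 n57 n67 (hne 0 0 1 (by decide)) (hne 0 0 2 (by decide))
      (hne 0 1 2 (by decide))
    have hsub : (Finset.univ.erase (0 : ZMod 5)).sup (fun x : ZMod 5 => (P.op u).eigenspace (ζ ^ x.val)) ≤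
        LinearMap.ker (P.op T' - 1) :=
      Finset.sup_le fun x hx => h4 x (Finset.ne_of_mem_erase hx)
    have hinj : Function.Injective (fun x : ZMod 5 => ζ ^ x.val) := fun a b h =>
      ZMod.val_injective 5 (hζ.pow_inj a.val_lt b.val_lt h)
    have hrank := iSupIndep_finrank_sup (fun x : ZMod 5 => (P.op u).eigenspace (ζ ^ x.val))
      ((P.op u).eigenspaces_iSupIndep.comp hinj) (Finset.univ.erase 0)
    have h4' := Submodule.finrank_mono hsub
    rw [hrank, Finset.sum_congr rfl fun x hx => hdim x (Finset.ne_of_mem_erase hx), Finset.sum_const,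
      Finset.card_erase_of_mem (Finset.mem_univ _), Finset.card_univ, ZMod.card] at h4'
    simp only [smul_eq_mul, mul_one] at h4'
    change finrank k ↥(LinearMap.ker (P.op T' - 1)) ≤ finrank k ↥(LinearMap.ker (P.op (T 0) - 1)) at hfix'
    omega
  -- only weights of support at most one
  push Not at hbig
  let i0 : Fin s := ⟨0, by omega⟩
  let single : Fin s → Fin 3 → (Fin s → Fin 3) := fun i x => Function.update 0 i x
  have hsupp : ∀ i x, x ≠ 0 → (Finset.univ.filter fun l => single i x l ≠ 0).card = 1 := by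
    intro i x hx
    rw [Finset.card_eq_one]
    refine ⟨i, Finset.ext fun l => ?_⟩
    by_cases hl : l = i
    · subst hl; simp [single, hx]
    · simp [single, hl]
  set d := finrank k ↥(E (single i0 1)) with hd
  have hsd : ∀ i x, x ≠ 0 → finrank k ↥(E (single i x)) = d := fun i x hx =>
    le_antisymm (trans _ _ (by rw [hsupp i x hx, hsupp i0 1 (by decide)]))
      (trans _ _ (by rw [hsupp i x hx, hsupp i0 1 (by decide)]))
  have hcases : ∀ w, E w ≠ ⊥ → w = 0 ∨ ∃ i x, x ≠ 0 ∧ w = single i x := by
    intro w hw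
    have h := hbig w hw
    rcases Nat.eq_zero_or_pos (Finset.univ.filter fun i => w i ≠ 0).card with h0 | h1
    · left
      funext i
      by_contra hi
      exact Finset.notMem_empty i (Finset.card_eq_zero.1 h0 ▸ Finset.mem_filter.2 ⟨Finset.mem_univ _, hi⟩)
    · right
      obtain ⟨i, hi⟩ := Finset.card_eq_one.1 (by omega : (Finset.univ.filter fun i => w i ≠ 0).card = 1)
      have hwi := (Finset.mem_filter.1 (hi ▸ Finset.mem_singleton_self i : i ∈ Finset.univ.filter fun i => w i ≠ 0)).2
      refine ⟨i, w i, hwi, funext fun l => ?_⟩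
      by_cases hl : l = i
      · subst hl; simp [single]
      · have : w l = 0 := by
          by_contra hwl
          exact hl (Finset.mem_singleton.1 (hi ▸ Finset.mem_filter.2 ⟨Finset.mem_univ _, hwl⟩))
        simp [single, hl, this]
  have hd1 : 1 ≤ d := by
    by_contra hlt
    refine P.ne_scalar (g := T i0) ?_ 1 ?_
    · rw [P.πP_tri (hne i0 0 1 (by decide)) (hne i0 0 2 (by decide)) (hne i0 1 2 (by decide))]
      intro e
      have := cyc_apply_fst (hne i0 0 1 (by decide)) (hne i0 0 2 (by decide))
      rw [e] at this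
      exact hne i0 0 1 (by decide) this
    · rw [one_smul]
      refine LinearMap.ext fun y => ?_
      have hy : y ∈ LinearMap.ker (A i0 - 1) := by
        refine SetLike.le_def.1 ?_ (Submodule.mem_top : y ∈ (⊤ : Submodule k V))
        rw [← sup_jointEigen_eq_top A hc h3 hA S hchar]
        refine Finset.sup_le fun c hc' => ?_
        obtain ⟨w, rfl⟩ := hS c hc'
        intro z hz
        by_cases hEw : E w = ⊥
        · rw [show z = 0 from (Submodule.mem_bot k).1 (hEw ▸ hz)]; exact Submodule.zero_mem _
        rcases hcases w hEw with rfl | ⟨i, x, hx, rfl⟩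
        · rw [LinearMap.mem_ker, LinearMap.sub_apply, mem_jointEigen.1 hz i0]
          simp [χ]
        · exfalso
          exact hEw (Submodule.finrank_eq_zero.1 (by rw [hsd i x hx]; omega))
      rw [LinearMap.mem_ker, LinearMap.sub_apply, sub_eq_zero] at hy
      exact hy
  let W1 : Finset (Fin s × Fin 3) := Finset.univ ×ˢ Finset.univ.erase 0
  have hW1 : W1.card = 2 * s := by
    simp only [W1, Finset.card_product, Finset.card_univ, Fintype.card_fin,
      Finset.card_erase_of_mem (Finset.mem_univ _)]
    omega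
  have hinj1 : Set.InjOn (fun p : Fin s × Fin 3 => χ (single p.1 p.2)) (W1 : Set (Fin s × Fin 3)) := by
    rintro ⟨i, x⟩ hp ⟨j, y⟩ _ h
    have hx : x ≠ 0 := Finset.ne_of_mem_erase (Finset.mem_product.1 hp).2
    have h' := hχinj h
    have hij : i = j := by
      by_contra hne'
      have := congrFun h' i
      simp [single, hne'] at this
      exact hx this
    subst hij
    have := congrFun h' i
    simp [single] at this
    rw [this]
  have h2sd : 2 * s * d ≤ n := by
    refine le_trans ?_ (sum_finrank_jointEigen_le A hc h3 hA (W1.image fun p => χ (single p.1 p.2)))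
    rw [Finset.sum_image hinj1, Finset.sum_congr rfl
      (fun p hp => hsd p.1 p.2 (Finset.ne_of_mem_erase (Finset.mem_product.1 hp).2)), Finset.sum_const, hW1,
      smul_eq_mul]
  have hd' : d = 1 := by
    by_contra hne'
    have : 2 * s * 2 ≤ 2 * s * d := Nat.mul_le_mul_left _ (by omega)
    split_ifs at hsmall <;> omega
  have hU0 : finrank k ↥(P.U (blk (i0, 0)) (blk (i0, 1)) (blk (i0, 2))) = 2 := by
    have hrn := LinearMap.finrank_range_add_finrank_ker (A i0 - 1)
    have hk : LinearMap.ker (A i0 - 1) = (A i0).eigenspace (1 : k) := by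
      rw [End.eigenspace_def, one_smul]
    have hes := finrank_eigenspace_eq_sum A hc h3 hA S hchar i0 (1 : k)
    have htot := finrank_eq_sum_jointEigen A hc h3 hA S hchar
    rw [← Finset.sum_filter_add_sum_filter_not S (fun c => c i0 = (1 : k)), ← hes] at htot
    have hnon : ∑ c ∈ S.filter (fun c => ¬ c i0 = (1 : k)), finrank k ↥(jointEigen A c) = 2 := by
      have hz : ∀ x : Fin 3, x ≠ 0 → χ (single i0 x) i0 ≠ 1 := fun x hx h1 => by
        simp only [χ, single, Function.update_self] at h1
        exact hω.pow_ne_one_of_pos_of_lt (fun h => hx (Fin.ext h)) x.2 h1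
      have hpair : χ (single i0 1) ≠ χ (single i0 2) := fun h => by
        have := congrFun (hχinj h) i0
        simp [single] at this
      rw [← Finset.sum_subset (s₁ := {χ (single i0 1), χ (single i0 2)}) (fun c hc' => ?_) (fun c hc' hc'' => ?_),
        Finset.sum_pair hpair]
      · show finrank k ↥(E (single i0 1)) + finrank k ↥(E (single i0 2)) = 2
        rw [hsd i0 1 (by decide), hsd i0 2 (by decide), hd']
      · have aux : ∀ x : Fin 3, x ≠ 0 → χ (single i0 x) ∈ S.filter (fun c => ¬ c i0 = (1 : k)) := fun x hx =>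
          Finset.mem_filter.2 ⟨hchar _ fun h0 => by
            have h := hsd i0 x hx
            have h0' : E (single i0 x) = ⊥ := h0
            rw [h0', finrank_bot] at h
            omega, hz x hx⟩
        rcases Finset.mem_insert.1 hc' with rfl | h
        · exact aux 1 (by decide)
        · rw [Finset.mem_singleton.1 h]; exact aux 2 (by decide)
      · rw [Submodule.finrank_eq_zero]
        by_contra h0
        obtain ⟨hcS, hc1⟩ := Finset.mem_filter.1 hc'
        obtain ⟨w, rfl⟩ := hS c hcS
        rcases hcases w h0 with rfl | ⟨i, x, hx, rfl⟩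
        · exact hc1 (by simp [χ])
        · by_cases hi : i = i0
          · subst hi
            have : ∀ x : Fin 3, x ≠ 0 → x = 1 ∨ x = 2 := by decide
            rcases this x hx with rfl | rfl <;> simp at hc''
          · exact hc1 (by simp [χ, single, Ne.symm hi])
    show finrank k ↥(LinearMap.range (A i0 - 1)) = 2
    rw [hk] at hrn
    have key : ∀ {f e m q : ℕ}, f + e = m → m = e + q → q = 2 → f = 2 := by intros; omega
    exact key hrn htot hnon
  refine ⟨fun a b c hab hac hbc => ?_, ?_, by have := Nat.le_of_eq (congrArg (2 * s * ·) hd'.symm); omega⟩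
  · have h1 := P.fix_finrank_conj hab hac hbc (hne i0 0 1 (by decide)) (hne i0 0 2 (by decide)) (hne i0 1 2 (by decide))
    have h2 := P.fix_finrank_conj (hne i0 0 1 (by decide)) (hne i0 0 2 (by decide)) (hne i0 1 2 (by decide)) hab hac hbc
    have r1 := LinearMap.finrank_range_add_finrank_ker (P.op (P.tri a b c) - 1)
    have r2 := LinearMap.finrank_range_add_finrank_ker
      (P.op (P.tri (blk (i0, 0)) (blk (i0, 1)) (blk (i0, 2))) - 1)
    have key : ∀ {f g f' g' m : ℕ}, f + g = m → f' + g' = m → g ≤ g' → g' ≤ g → f' = 2 → f = 2 := by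
      intros; omega
    exact key r1 r2 h1 h2 hU0
  · intro a b c d e f hab hac hbc hde hdf hef hdis v hv
    obtain ⟨j0, hj0⟩ : ∃ j : Fin s, j ≠ i0 := ⟨⟨1, by omega⟩, by simp [i0]⟩
    simp only [Finset.disjoint_left, Finset.mem_insert, Finset.mem_singleton, not_or] at hdis
    have e1 := hdis (Or.inl rfl : a = a ∨ a = b ∨ a = c)
    have e2 := hdis (Or.inr (Or.inl rfl) : b = a ∨ b = b ∨ b = c)
    have e3 := hdis (Or.inr (Or.inr rfl) : c = a ∨ c = b ∨ c = c)
    have hb : ∀ (i l : Fin s) (x y : Fin 3), (i, x) ≠ (l, y) → blk (i, x) ≠ blk (l, y) :=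
      fun i l x y h h' => h (blk.injective h')
    obtain ⟨γ, hγ⟩ := exists_even_map (α := Fin r) (m := 6) (by simp; omega) ![a, b, c, d, e, f]
      ![blk (i0, 0), blk (i0, 1), blk (i0, 2), blk (j0, 0), blk (j0, 1), blk (j0, 2)]
      (by intro i j; fin_cases i <;> fin_cases j <;> simp <;> grind)
      (by
        have hp : Function.Injective (![(i0, 0), (i0, 1), (i0, 2), (j0, 0), (j0, 1), (j0, 2)] :
            Fin 6 → Fin s × Fin 3) := by
          intro i j
          fin_cases i <;> fin_cases j <;> simp [hj0, Ne.symm hj0]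
        have := blk.injective.comp hp
        intro i j h
        apply this
        fin_cases i <;> fin_cases j <;> exact h)
    obtain ⟨g, hg⟩ := P.exists_lift (Perm.mem_alternatingGroup.1 γ.2)
    have hv' := P.mem_U_image hab hac hbc g v hv
    rw [hg, show γ.1 a = blk (i0, 0) from hγ 0, show γ.1 b = blk (i0, 1) from hγ 1,
      show γ.1 c = blk (i0, 2) from hγ 2] at hv'
    have hzero : (A j0 - 1) * (A i0 - 1) = 0 := by
      refine LinearMap.ext fun y => ?_
      have hy : y ∈ LinearMap.ker ((A j0 - 1) * (A i0 - 1)) := by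
        refine SetLike.le_def.1 ?_ (Submodule.mem_top : y ∈ (⊤ : Submodule k V))
        rw [← sup_jointEigen_eq_top A hc h3 hA S hchar]
        refine Finset.sup_le fun c hc' => ?_
        obtain ⟨w, rfl⟩ := hS c hc'
        intro z hz
        by_cases hEw : E w = ⊥
        · rw [show z = 0 from (Submodule.mem_bot k).1 (hEw ▸ hz)]; exact Submodule.zero_mem _
        simp only [LinearMap.mem_ker, Module.End.mul_apply, LinearMap.sub_apply, Module.End.one_apply,
          mem_jointEigen.1 hz i0, mem_jointEigen.1 hz j0, map_sub, map_smul]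
        rcases hcases w hEw with rfl | ⟨i, x, hx, rfl⟩
        · simp [χ]
        · by_cases hi : i = i0
          · subst hi; simp [χ, single, hj0]
          · simp [χ, single, Ne.symm hi]
      exact hy
    obtain ⟨y, hy⟩ := hv'
    have hfix : A j0 (P.op g v) = P.op g v := by
      rw [← sub_eq_zero, ← hy]
      exact LinearMap.congr_fun hzero y
    have hconj := P.tri_conj hde hdf hef g
    rw [hg, show γ.1 d = blk (j0, 0) from hγ 3, show γ.1 e = blk (j0, 1) from hγ 4,
      show γ.1 f = blk (j0, 2) from hγ 5] at hconj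
    refine P.op_apply_injective g ?_
    conv_rhs => rw [← hfix]
    show _ = P.op (P.tri (blk (j0, 0)) (blk (j0, 1)) (blk (j0, 2))) (P.op g v)
    rw [← hconj, map_mul, map_mul, Module.End.mul_apply, Module.End.mul_apply, P.op_inv_apply]

end AltProj

end Cfsg.Agent.H63.AltSec
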