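import Cfsg.Agent.H63.AltSec.DoubleSwap
import Cfsg.Agent.H63.AltSec.FivePair

/-!
# Odd characteristic, anticommuting double transpositions

Disjoint anticommuting pairs force dimensions divisible by powers of two; a cycle of length five or seven
supplies enough eigenspaces.
-/

set_option linter.unusedSectionVars false

namespace Cfsg.Agent.H63.AltSec

open Module Equiv

/-- The five-cycle on nine points. -/
def nineFive : Perm (Fin 9) :=
  Equiv.swap 0 1 * Equiv.swap 1 2 * Equiv.swap 2 3 * Equiv.swap 3 4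

/-- Doubling for the five-cycle. -/
def nineFiveD : Perm (Fin 9) :=
  Equiv.swap 1 2 * Equiv.swap 2 4 * Equiv.swap 4 3 * Equiv.swap 5 6

/-- The seven-cycle on nine points. -/
def nineSeven : Perm (Fin 9) :=
  Equiv.swap 0 1 * Equiv.swap 1 2 * Equiv.swap 2 3 * Equiv.swap 3 4 * Equiv.swap 4 5 * Equiv.swap 5 6

/-- Doubling for the seven-cycle. -/
def nineSevenD : Perm (Fin 9) :=
  Equiv.swap 1 2 * Equiv.swap 2 4 * Equiv.swap 3 6 * Equiv.swap 6 5

/-- Tripling for the seven-cycle. -/
def nineSevenE : Perm (Fin 9) :=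
  Equiv.swap 1 3 * Equiv.swap 3 2 * Equiv.swap 2 6 * Equiv.swap 6 4 * Equiv.swap 4 5 * Equiv.swap 7 8

/-- Lifting a permutation of the first nine points. -/
noncomputable def embNine {r : ℕ} (hr : 9 ≤ r) : Perm (Fin 9) →* Perm (Fin r) :=
  Perm.viaEmbeddingHom (Fin.castLEEmb hr)

theorem sign_embNine {r : ℕ} (hr : 9 ≤ r) (σ : Perm (Fin 9)) : Perm.sign (embNine hr σ) = Perm.sign σ := by
  show Perm.sign (Perm.viaEmbedding σ _) = _
  rw [Perm.viaEmbedding]
  convert! Perm.sign_extendDomain σ _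

theorem embNine_fix {r : ℕ} (hr : 9 ≤ r) {σ : Perm (Fin 9)} {m : ℕ} (h : ∀ x : Fin 9, m ≤ x.val → σ x = x)
    (y : Fin r) (hy : m ≤ y.val) : embNine hr σ y = y := by
  show Perm.viaEmbedding σ (Fin.castLEEmb hr) y = y
  by_cases hy' : y ∈ Set.range (Fin.castLEEmb hr)
  · obtain ⟨x, rfl⟩ := hy'
    rw [Perm.viaEmbedding_apply, h x hy]
  · exact Perm.viaEmbedding_apply_of_notMem _ _ _ hy'

namespace AltProj

variable {k : Type*} [Field k] [IsAlgClosed k] {V : Type*} [AddCommGroup V] [Module k V]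
  [FiniteDimensional k V] {r : ℕ} (P : AltProj k V r)

theorem commute_of_fix {g h : ↥P.G} {m : ℕ} (hg : ∀ y : Fin r, m ≤ y.val → P.πP g y = y)
    (hh : ∀ y : Fin r, y.val < m → P.πP h y = y) : Commute g h := by
  refine P.commute_of_disjoint ?_
  rw [← Perm.disjoint_iff_disjoint_support]
  intro y
  rcases Nat.lt_or_ge y.val m with hy | hy
  · exact Or.inr (hh y hy)
  · exact Or.inl (hg y hy)

/-- Anticommuting disjoint pairs give divisibility by a power of two. -/
theorem two_pow_dvd (h2 : (2 : k) ≠ 0) (hs : P.SignIs (-1)) :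
    ∀ (q m : ℕ), m + 4 * q ≤ r → ∀ W : Submodule k V,
      (∀ g : ↥P.G, (∀ y : Fin r, y.val < m → P.πP g y = y) → ∀ v ∈ W, P.op g v ∈ W) →
      2 ^ q ∣ finrank k ↥W := by
  intro q
  induction q with
  | zero => intro m _ W _; simp
  | succ q ih =>
    intro m hm W hW
    let o : Fin 4 → Fin r := fun i => ⟨m + i.val, by omega⟩
    have ho : ∀ i j, i ≠ j → o i ≠ o j := fun i j h e =>
      h (Fin.ext (by simpa [o] using congrArg Fin.val e))
    obtain ⟨x, hx⟩ := P.exists_lift (sign_dswap (ho 0 1 (by decide)) (ho 2 3 (by decide)))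
    obtain ⟨y, hy⟩ := P.exists_lift (sign_dswap (ho 0 2 (by decide)) (ho 1 3 (by decide)))
    have hxy := hs (o 0) (o 1) (o 2) (o 3) (ho 0 1 (by decide)) (ho 0 2 (by decide)) (ho 0 3 (by decide))
      (ho 1 2 (by decide)) (ho 1 3 (by decide)) (ho 2 3 (by decide)) x y hx hy
    obtain ⟨c, hc⟩ := (P.πP_eq_one_iff (x * x)).1 (by
      rw [map_mul, hx, dswap_mul_self (ho 0 2 (by decide)) (ho 0 3 (by decide)) (ho 1 2 (by decide))
        (ho 1 3 (by decide))])
    obtain ⟨l, hl⟩ := IsAlgClosed.exists_eq_mul_self (c : k)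
    have hl0 : l ≠ 0 := fun h => c.ne_zero (by rw [hl, h, mul_zero])
    have hxx : ∀ v, P.op x (P.op x v) = (l * l) • v := fun v => by
      rw [← Module.End.mul_apply, ← map_mul, hc, op_sc, ← hl]; rfl
    have hanti : ∀ v, P.op x (P.op y v) = -P.op y (P.op x v) := fun v => by
      rw [← Module.End.mul_apply, ← map_mul, hxy, map_mul, map_mul, op_sc]; simp
    have hblk : ∀ g : ↥P.G, (P.πP g = dswap (o 0) (o 1) (o 2) (o 3) ∨ P.πP g = dswap (o 0) (o 2) (o 1) (o 3)) →
        ∀ z : Fin r, (z.val < m ∨ m + 4 ≤ z.val) → P.πP g z = z := by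
      intro g hg z hz
      have hne : ∀ i, z ≠ o i := fun i e => by
        have : z.val = m + i.val := congrArg Fin.val e
        omega
      rcases hg with hg | hg <;> rw [hg] <;> exact dswap_of_ne (hne _) (hne _) (hne _) (hne _)
    have hWx : ∀ v ∈ W, P.op x v ∈ W := hW x fun z hz => hblk x (Or.inl hx) z (Or.inl hz)
    have hWy : ∀ v ∈ W, P.op y v ∈ W := hW y fun z hz => hblk y (Or.inr hy) z (Or.inl hz)
    let E : k → Submodule k V := fun a => W ⊓ (P.op x).eigenspace a
    have hE : ∀ a v, v ∈ E a ↔ v ∈ W ∧ P.op x v = a • v := fun a v => by simp [E]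
    have hdisj : E l ⊓ E (-l) = ⊥ := by
      rw [Submodule.eq_bot_iff]
      intro v hv
      have h1 := ((hE _ v).1 hv.1).2
      rw [((hE _ v).1 hv.2).2, neg_smul, neg_eq_iff_add_eq_zero, ← add_smul, ← two_mul] at h1
      exact (smul_eq_zero.1 h1).resolve_left (mul_ne_zero h2 hl0)
    have hsum : E l ⊔ E (-l) = W := by
      refine le_antisymm (sup_le inf_le_left inf_le_left) fun v hv => ?_
      have e : v = (2 * l)⁻¹ • (l • v + P.op x v) + (2 * l)⁻¹ • (l • v - P.op x v) := by
        rw [← smul_add, add_add_sub_cancel, ← two_smul k, smul_smul, smul_smul, mul_assoc,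
          inv_mul_cancel₀ (mul_ne_zero h2 hl0), one_smul]
      rw [e]
      refine Submodule.add_mem_sup ?_ ?_ <;> refine Submodule.smul_mem _ _ ((hE _ _).2 ⟨?_, ?_⟩)
      · exact W.add_mem (W.smul_mem _ hv) (hWx v hv)
      · rw [map_add, map_smul, hxx]; module
      · exact W.sub_mem (W.smul_mem _ hv) (hWx v hv)
      · rw [map_sub, map_smul, hxx]; module
    have hswap : ∀ a, finrank k ↥(E a) ≤ finrank k ↥(E (-a)) := by
      intro a
      rw [LinearEquiv.finrank_eq (Submodule.equivMapOfInjective _ (P.op_apply_injective y) (E a))]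
      refine Submodule.finrank_mono ?_
      rintro _ ⟨v, hv, rfl⟩
      obtain ⟨hv1, hv2⟩ := (hE a v).1 hv
      exact (hE _ _).2 ⟨hWy v hv1, by rw [hanti, hv2, map_smul, neg_smul]⟩
    have heq : finrank k ↥(E (-l)) = finrank k ↥(E l) :=
      le_antisymm ((hswap (-l)).trans (le_of_eq (by rw [neg_neg]))) (hswap l)
    have h := Submodule.finrank_sup_add_finrank_inf_eq (E l) (E (-l))
    rw [hsum, hdisj, finrank_bot, add_zero, heq] at h
    have hdvd := ih (m + 4) (by omega) (E l) (fun g hg v hv => by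
      obtain ⟨hv1, hv2⟩ := (hE l v).1 hv
      refine (hE l _).2 ⟨hW g (fun z hz => hg z (by omega)) v hv1, ?_⟩
      have hcomm : Commute x g :=
        P.commute_of_fix (fun z hz => hblk x (Or.inl hx) z (Or.inr hz)) hg
      rw [← Module.End.mul_apply, ← map_mul, hcomm.eq, map_mul, Module.End.mul_apply, hv2, map_smul])
    rw [h, pow_succ, ← mul_two]
    exact Nat.mul_dvd_mul_right hdvd 2

/-- The eigenspaces of a cycle normalised by doubling and tripling. -/
theorem cycle_eigen {m j : ℕ} (hm : 1 < m) (hmk : (m : k) ≠ 0) (σ γ ε : Perm (Fin r))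
    (hσ : Perm.sign σ = 1) (hγ : Perm.sign γ = 1) (hε : Perm.sign ε = 1) (h2c : γ * σ * γ⁻¹ = σ ^ 2)
    (h3c : ε * σ * ε⁻¹ = σ ^ 3) (hcomm : Commute γ ε) (hσm : σ ^ m = 1) (hσ1 : σ ≠ 1) (hj : 3 * j % m = 1)
    (horb : ∀ x < m, x ≠ 0 → ∀ y < m, y ≠ 0 → ∃ i < m, x * j ^ i % m = y) :
    ∃ (u : ↥P.G) (ζ : k) (d : ℕ), P.πP u = σ ∧ IsPrimitiveRoot ζ m ∧ 1 ≤ d ∧ (m - 1) * d ≤ finrank k V ∧
      ∀ x < m, x ≠ 0 → finrank k ↥((P.op u).eigenspace (ζ ^ x)) = d := by
  classical
  obtain ⟨u, hu, hnorm⟩ := P.exists_normLift hσ hγ h2c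
  obtain ⟨D, hD⟩ := P.exists_lift hγ
  obtain ⟨E, hE⟩ := P.exists_lift hε
  have hDu := hnorm D hD
  have hum : u ^ m = 1 := pow_eq_one_of_normLift P hDu (by rw [hu, hσm])
  obtain ⟨c, hc⟩ := P.exists_sc_mul (g := E * u * E⁻¹) (h := u ^ 3)
    (by rw [map_mul, map_mul, map_inv, map_pow, hE, hu, h3c])
  have hEu : E * u * E⁻¹ = u ^ 3 := by
    obtain ⟨s, hs⟩ := P.exists_sc_mul (g := D * E) (h := E * D) (by rw [map_mul, map_mul, hD, hE, hcomm.eq])
    have hcen : ∀ x : ↥P.G, P.sc s * x * (P.sc s)⁻¹ = x := fun x => by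
      rw [P.sc_comm, mul_inv_cancel_right]
    have e1 : D * (E * u * E⁻¹) * D⁻¹ = E * (D * u * D⁻¹) * E⁻¹ := by
      calc D * (E * u * E⁻¹) * D⁻¹ = (D * E) * u * (D * E)⁻¹ := by group
        _ = P.sc s * (E * (D * u * D⁻¹) * E⁻¹) * (P.sc s)⁻¹ := by rw [hs]; group
        _ = _ := hcen _
    rw [hDu, ← conj_pow (a := E), hc] at e1
    rw [← mul_assoc D, ← P.sc_comm c D, mul_assoc (P.sc c), mul_assoc (P.sc c), ← conj_pow, hDu, ← pow_mul,
      Commute.mul_pow (P.sc_comm c (u ^ 3)) 2, ← pow_mul, show 3 * 2 = 2 * 3 from rfl, pow_two,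
      mul_assoc] at e1
    have e2 := mul_left_cancel e1
    nth_rewrite 1 [← one_mul (u ^ (2 * 3))] at e2
    rw [hc, ← mul_right_cancel e2, one_mul]
  haveI : NeZero ((m : ℕ) : k) := ⟨hmk⟩
  haveI : NeZero m := ⟨by omega⟩
  obtain ⟨ζ, hζ⟩ := HasEnoughRootsOfUnity.exists_primitiveRoot k m
  have hpow : ∀ (g : ↥P.G) (x : V) (a : k), P.op g x = a • x → ∀ i : ℕ, P.op (g ^ i) x = a ^ i • x := by
    intro g x a h i
    induction i with
    | zero => simp
    | succ i ih => rw [pow_succ, map_mul, Module.End.mul_apply, h, map_smul, ih, smul_smul, pow_succ']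
  have hζpow : ∀ a : ℕ, ζ ^ a = ζ ^ (a % m) := fun a => by
    conv_lhs => rw [← Nat.div_add_mod a m, pow_add, pow_mul, hζ.pow_eq_one, one_pow, one_mul]
  have hj' : u ^ (3 * j) = u := by
    rw [← Nat.div_add_mod (3 * j) m, hj, pow_add, pow_mul, hum, one_pow, one_mul, pow_one]
  have hmove : ∀ x : ℕ, finrank k ↥((P.op u).eigenspace (ζ ^ x)) ≤
      finrank k ↥((P.op u).eigenspace (ζ ^ (x * j % m))) := by
    intro x
    rw [LinearEquiv.finrank_eq (Submodule.equivMapOfInjective _ (P.op_apply_injective E) _)]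
    refine Submodule.finrank_mono ?_
    rintro _ ⟨v, hv, rfl⟩
    rw [SetLike.mem_coe, End.mem_eigenspace_iff] at hv
    have h3 : P.op (u ^ 3) (P.op E v) = ζ ^ x • P.op E v := by
      rw [← hEu, ← Module.End.mul_apply, ← map_mul, inv_mul_cancel_right, map_mul, Module.End.mul_apply, hv,
        map_smul]
    have h4 := hpow _ _ _ h3 j
    rw [← pow_mul, hj', ← pow_mul] at h4
    rw [End.mem_eigenspace_iff, h4, ← hζpow]
  have hiter : ∀ (i x : ℕ), finrank k ↥((P.op u).eigenspace (ζ ^ x)) ≤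
      finrank k ↥((P.op u).eigenspace (ζ ^ (x * j ^ i % m))) := by
    intro i
    induction i with
    | zero => intro x; rw [pow_zero, mul_one, ← hζpow]
    | succ i ih =>
      intro x
      refine ((ih x).trans (hmove _)).trans (le_of_eq ?_)
      rw [Nat.mod_mul_mod, pow_succ, mul_assoc]
  set d := finrank k ↥((P.op u).eigenspace (ζ ^ 1)) with hd
  have heq : ∀ x < m, x ≠ 0 → finrank k ↥((P.op u).eigenspace (ζ ^ x)) = d := by
    intro x hx hx0
    obtain ⟨i, -, hi⟩ := horb x hx hx0 1 hm one_ne_zero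
    obtain ⟨i', -, hi'⟩ := horb 1 hm one_ne_zero x hx hx0
    exact le_antisymm (by have := hiter i x; rwa [hi] at this) (by have := hiter i' 1; rwa [hi'] at this)
  have hinj : Function.Injective (fun x : Fin m => ζ ^ (x : ℕ)) := fun a b h =>
    Fin.ext (hζ.pow_inj a.2 b.2 h)
  have hind := (P.op u).eigenspaces_iSupIndep.comp hinj
  refine ⟨u, ζ, d, hu, hζ, ?_, ?_, heq⟩
  · by_contra hlt
    refine P.ne_scalar (g := u) (hu ▸ hσ1) 1 ?_
    have hU : (P.op u) ^ m = 1 := by rw [← map_pow, hum, map_one]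
    have hA : ∀ _i : Fin 1, (P.op u) ^ m = 1 := fun _ => hU
    have hall : ∀ χ, jointEigen (fun _ : Fin 1 => P.op u) χ ≠ ⊥ → χ ∈ ({fun _ => 1} : Finset (Fin 1 → k)) := by
      intro χ hχ
      obtain ⟨v, hv, hv0⟩ := Submodule.exists_mem_ne_zero_of_ne_bot hχ
      have h1 := mem_jointEigen.1 hv 0
      have h2 := hpow u v _ h1 m
      rw [hum, map_one, Module.End.one_apply] at h2
      obtain ⟨a, ha, ha'⟩ := hζ.eq_pow_of_pow_eq_one
        (smul_left_injective k hv0 (h2.symm.trans (one_smul k v).symm))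
      rcases Nat.eq_zero_or_pos a with rfl | ha0
      · rw [pow_zero] at ha'
        exact Finset.mem_singleton.2 (funext fun i => by rw [Fin.fin_one_eq_zero i, ← ha'])
      · exfalso
        have h3 := heq a ha (by omega)
        rw [show d = 0 by omega, Submodule.finrank_eq_zero] at h3
        refine hv0 ((Submodule.eq_bot_iff _).1 h3 v ?_)
        rw [End.mem_eigenspace_iff, ha']
        exact h1
    have htop := sup_jointEigen_eq_top (fun _ : Fin 1 => P.op u) (fun _ _ => Commute.refl _) hmk hA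
      {fun _ => 1} hall
    rw [Finset.sup_singleton] at htop
    refine LinearMap.ext fun v => ?_
    have := mem_jointEigen.1 (htop.symm ▸ Submodule.mem_top : v ∈ jointEigen (fun _ : Fin 1 => P.op u) fun _ => 1) 0
    rw [this, one_smul, one_smul]
    rfl
  · have h := iSupIndep_sum_finrank_le _ hind (Finset.univ.erase ⟨0, by omega⟩)
    simp only [Function.comp_apply] at h
    rw [Finset.sum_congr rfl (fun (x : Fin m) (hx : x ∈ Finset.univ.erase (⟨0, by omega⟩ : Fin m)) =>
        heq x.val x.2 fun e => Finset.ne_of_mem_erase hx (Fin.ext e)),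
      Finset.sum_const, Finset.card_erase_of_mem (Finset.mem_univ _), Finset.card_univ, Fintype.card_fin,
      smul_eq_mul] at h
    exact h

/-- The bound when double transpositions anticommute. -/
theorem bound_spin (h2 : (2 : k) ≠ 0) (hs : P.SignIs (-1)) (p : ℕ) [CharP k p] :
    r - 1 - (if p ∣ r then 1 else 0) ≤ finrank k V := by
  classical
  have hr := P.nine_le
  by_contra hlt
  set n := finrank k V with hn
  have hdvd : ∀ q, 4 * q ≤ r → 2 ^ q ∣ n := by
    intro q hq
    have h := P.two_pow_dvd h2 hs q 0 (by omega) ⊤ fun _ _ _ _ => Submodule.mem_top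
    rwa [finrank_top] at h
  have eig : ∀ (u : ↥P.G) (m : ℕ), (∀ y : Fin r, m ≤ y.val → P.πP u y = y) → ∀ (q : ℕ), m + 4 * q ≤ r →
      ∀ a : k, 2 ^ q ∣ finrank k ↥((P.op u).eigenspace a) := by
    intro u m hu q hq a
    refine P.two_pow_dvd h2 hs q m hq _ fun g hg v hv => ?_
    rw [End.mem_eigenspace_iff] at hv ⊢
    rw [← Module.End.mul_apply, ← map_mul, (P.commute_of_fix hu hg).eq, map_mul, Module.End.mul_apply, hv,
      map_smul]
  by_cases h5 : (5 : k) = 0
  · have hp : p ∣ 5 := (CharP.cast_eq_zero_iff k p 5).1 (by exact_mod_cast h5)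
    obtain rfl : p = 5 := by
      rcases (Nat.dvd_prime (by norm_num)).1 hp with h | h
      · exact absurd h (CharP.char_ne_one k p)
      · exact h
    have h7 : ((7 : ℕ) : k) ≠ 0 := by
      rw [Ne, CharP.cast_eq_zero_iff k 5]; omega
    have sS : Perm.sign nineSeven = 1 := by decide +kernel
    have sD : Perm.sign nineSevenD = 1 := by decide +kernel
    have sE : Perm.sign nineSevenE = 1 := by decide +kernel
    have eD : nineSevenD * nineSeven * nineSevenD⁻¹ = nineSeven ^ 2 := by decide +kernel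
    have eE : nineSevenE * nineSeven * nineSevenE⁻¹ = nineSeven ^ 3 := by decide +kernel
    have eC : nineSevenD * nineSevenE = nineSevenE * nineSevenD := by decide +kernel
    have eS : nineSeven ^ 7 = 1 := by decide +kernel
    have hne : nineSeven ≠ 1 := by decide +kernel
    have hsupp : ∀ x : Fin 9, 7 ≤ x.val → nineSeven x = x := by decide +kernel
    obtain ⟨u, ζ, d, hu, -, hd1, hdn, hdim⟩ := P.cycle_eigen (m := 7) (j := 5) (by norm_num) h7
      (embNine hr nineSeven) (embNine hr nineSevenD) (embNine hr nineSevenE)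
      ((sign_embNine hr _).trans sS) ((sign_embNine hr _).trans sD) ((sign_embNine hr _).trans sE)
      (by rw [← map_inv, ← map_mul, ← map_mul, eD, map_pow]) (by rw [← map_inv, ← map_mul, ← map_mul, eE, map_pow])
      (by show _ * _ = _ * _; rw [← map_mul, ← map_mul, eC]) (by rw [← map_pow, eS, map_one])
      (fun h => hne (Perm.viaEmbeddingHom_injective _ (h.trans (map_one _).symm))) (by norm_num)
      (by decide +kernel)
    obtain ⟨q, hq⟩ : ∃ q, q = (r - 7) / 4 := ⟨_, rfl⟩
    have hdiv : 2 ^ q ∣ d := by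
      rw [← hdim 1 (by norm_num) one_ne_zero]
      exact eig u 7 (fun y hy => by rw [hu]; exact embNine_fix hr hsupp y hy) q (by omega) _
    have hdq : 2 ^ q ≤ d := Nat.le_of_dvd (by omega) hdiv
    rcases Nat.lt_or_ge r 11 with hr11 | hr11
    · obtain ⟨e, he⟩ := hdvd 2 (by omega)
      split_ifs at hlt <;> omega
    · rcases Nat.lt_or_ge r 15 with hr15 | hr15
      · have : q = 1 := by omega
        subst this
        rcases Nat.lt_or_ge r 14 with hr14 | hr14
        · split_ifs at hlt <;> omega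
        · obtain ⟨e, he⟩ := hdvd 3 (by omega)
          split_ifs at hlt <;> omega
      · have key : ∀ t, 2 ≤ t → 4 * t + 9 ≤ 6 * 2 ^ t := by
          intro t ht
          induction t, ht using Nat.le_induction with
          | base => norm_num
          | succ t _ ih => rw [pow_succ]; omega
        have := key q (by omega)
        split_ifs at hlt <;> omega
  have h5' : ((5 : ℕ) : k) ≠ 0 := by exact_mod_cast h5
  have sS : Perm.sign nineFive = 1 := by decide +kernel
  have sD : Perm.sign nineFiveD = 1 := by decide +kernel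
  have eD : nineFiveD * nineFive * nineFiveD⁻¹ = nineFive ^ 2 := by decide +kernel
  have eE : nineFiveD⁻¹ * nineFive * nineFiveD⁻¹⁻¹ = nineFive ^ 3 := by decide +kernel
  have eS : nineFive ^ 5 = 1 := by decide +kernel
  have hne : nineFive ≠ 1 := by decide +kernel
  have hsupp : ∀ x : Fin 9, 5 ≤ x.val → nineFive x = x := by decide +kernel
  obtain ⟨u, ζ, d, hu, -, hd1, hdn, hdim⟩ := P.cycle_eigen (m := 5) (j := 2) (by norm_num) h5'
    (embNine hr nineFive) (embNine hr nineFiveD) (embNine hr nineFiveD)⁻¹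
    ((sign_embNine hr _).trans sS) ((sign_embNine hr _).trans sD)
    (by rw [Perm.sign_inv]; exact (sign_embNine hr _).trans sD)
    (by rw [← map_inv, ← map_mul, ← map_mul, eD, map_pow])
    (by rw [← map_inv, ← map_inv, ← map_mul, ← map_mul, eE, map_pow])
    (Commute.refl _).inv_right (by rw [← map_pow, eS, map_one])
    (fun h => hne (Perm.viaEmbeddingHom_injective _ (h.trans (map_one _).symm))) (by norm_num)
    (by decide +kernel)
  obtain ⟨q, hq⟩ : ∃ q, q = (r - 5) / 4 := ⟨_, rfl⟩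
  have hdiv : 2 ^ q ∣ d := by
    rw [← hdim 1 (by norm_num) one_ne_zero]
    exact eig u 5 (fun y hy => by rw [hu]; exact embNine_fix hr hsupp y hy) q (by omega) _
  have hdq : 2 ^ q ≤ d := Nat.le_of_dvd (by omega) hdiv
  rcases Nat.lt_or_ge r 10 with hr10 | hr10
  · have : q = 1 := by omega
    subst this
    split_ifs at hlt <;> omega
  rcases Nat.lt_or_ge r 13 with hr13 | hr13
  · rcases P.five_pair hr10 (by exact_mod_cast h5) with h10 | ⟨u', ζ', d', hu', -, hd1', hd8, hdim'⟩
    · obtain ⟨e, he⟩ := hdvd 2 (by omega)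
      split_ifs at hlt <;> omega
    · have hfix : ∀ x : Fin 10, 5 ≤ x.val → fiveU x = x := by decide +kernel
      have hd2 : 2 ^ 1 ∣ d' := by
        rw [← hdim' 1 (by decide)]
        refine eig u' 5 (fun y hy => ?_) 1 (by omega) _
        rw [hu']
        show Perm.viaEmbedding fiveU (Fin.castLEEmb hr10) y = y
        by_cases hy' : y ∈ Set.range (Fin.castLEEmb hr10)
        · obtain ⟨x, rfl⟩ := hy'
          rw [Perm.viaEmbedding_apply, hfix x hy]
        · exact Perm.viaEmbedding_apply_of_notMem _ _ _ hy'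
      have := Nat.le_of_dvd (by omega) hd2
      split_ifs at hlt <;> omega
  · have key : ∀ t, 2 ≤ t → t + 2 ≤ 2 ^ t := by
      intro t ht
      induction t, ht using Nat.le_induction with
      | base => norm_num
      | succ t _ ih => rw [pow_succ]; omega
    have := key q (by omega)
    split_ifs at hlt <;> omega

end AltProj

end Cfsg.Agent.H63.AltSec
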