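import Cfsg.Agent.H63.AltSec.OddWeights
import Cfsg.Agent.H63.AltSec.OddSpin
import Cfsg.Agent.H63.AltSec.Natural

/-!
# Odd characteristic: the lines of pairs

Double transpositions negate planes; two of them through a common transposition share a line, which depends
only on the transposition.
-/

set_option linter.unusedSectionVars false
set_option maxHeartbeats 4000000

namespace Cfsg.Agent.H63.AltSec

open Module Equiv

namespace AltProj

variable {k : Type*} [Field k] [IsAlgClosed k] {V : Type*} [AddCommGroup V] [Module k V]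
  [FiniteDimensional k V] {r : ℕ} (P : AltProj k V r)

/-- An involution negating a plane. -/
def IsD (g : ↥P.G) : Prop := g * g = 1 ∧ finrank k ↥((P.op g).eigenspace (-1)) = 2

/-- The negated space. -/
noncomputable def neg (g : ↥P.G) : Submodule k V := (P.op g).eigenspace (-1)

theorem mem_neg {g : ↥P.G} {v : V} : v ∈ P.neg g ↔ P.op g v = -v := by
  simp [neg]

theorem sub_mem_neg {g : ↥P.G} (hg : g * g = 1) (v : V) : P.op g v - v ∈ P.neg g := by
  rw [mem_neg, map_sub, ← Module.End.mul_apply, ← map_mul, hg, map_one, Module.End.one_apply, neg_sub]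

open Classical in
/-- The distinguished lift of a double transposition. -/
noncomputable def dd (a b c d : Fin r) : ↥P.G :=
  if h : ∃ g, P.πP g = dswap a b c d ∧ P.IsD g then h.choose else 1

section Lines

variable (h2 : (2 : k) ≠ 0)
  (hD : ∀ a b c d : Fin r, a ≠ b → a ≠ c → a ≠ d → b ≠ c → b ≠ d → c ≠ d →
    ∃ g, P.πP g = dswap a b c d ∧ g * g = 1 ∧ finrank k ↥((P.op g).eigenspace (-1)) = 2)
  (hn6 : 6 ≤ finrank k V)

include h2 in
theorem op_eq_of_neg_eq {g h : ↥P.G} (hg : g * g = 1) (hh : h * h = 1) (hc : Commute g h)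
    (he : P.neg g = P.neg h) : g = h := by
  refine P.op_injective (LinearMap.ext fun v => ?_)
  have h1 : P.op g (P.op h v - v) = -(P.op h v - v) := P.mem_neg.1 (he ▸ P.sub_mem_neg hh v)
  have h1' : P.op h (P.op g v - v) = -(P.op g v - v) := P.mem_neg.1 (he.symm ▸ P.sub_mem_neg hg v)
  have hgh : P.op g (P.op h v) = P.op h (P.op g v) := by
    rw [← Module.End.mul_apply, ← map_mul, hc.eq, map_mul, Module.End.mul_apply]
  rw [map_sub, hgh] at h1
  rw [map_sub] at h1'
  have h2' : (2 : k) • (P.op g v - P.op h v) = 0 := by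
    linear_combination (norm := module) h1' - h1
  exact sub_eq_zero.1 ((smul_eq_zero.1 h2').resolve_left h2)

include h2 hn6 in
theorem IsD.eq {g g' : ↥P.G} (h : P.IsD g) (h' : P.IsD g') (e : P.πP g' = P.πP g) : g' = g := by
  obtain ⟨hg, hd⟩ := h
  obtain ⟨hg', hd'⟩ := h'
  obtain ⟨c, rfl⟩ := P.exists_sc_mul e
  rw [mul_assoc, ← mul_assoc g, ← P.sc_comm c g, mul_assoc (P.sc c), hg, mul_one, ← map_mul] at hg'
  have hc : c * c = 1 := P.sc_eq_one hg'
  rcases mul_self_eq_one_iff.1 (show (c : k) * c = 1 by rw [← Units.val_mul, hc]; rfl) with hc1 | hc1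
  · rw [show c = 1 from Units.ext hc1, map_one, one_mul]
  exfalso
  have heq : ∀ v, P.op (P.sc c * g) v = -P.op g v := fun v => by
    rw [map_mul, Module.End.mul_apply, op_sc, hc1]; simp
  have hle : (P.op (P.sc c * g)).eigenspace (-1) ⊔ (P.op g).eigenspace (-1) = ⊤ := by
    rw [eq_top_iff]
    intro v _
    have hd : v = (2 : k)⁻¹ • (v + P.op g v) + (2 : k)⁻¹ • (v - P.op g v) := by
      rw [← smul_add, add_add_sub_cancel, ← two_smul k, smul_smul, inv_mul_cancel₀ h2, one_smul]
    rw [hd]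
    refine Submodule.add_mem_sup (Submodule.smul_mem _ _ ?_) (Submodule.smul_mem _ _ ?_)
    · rw [End.mem_eigenspace_iff, heq, map_add, ← Module.End.mul_apply (P.op g), ← map_mul, hg, map_one,
        Module.End.one_apply]
      module
    · rw [End.mem_eigenspace_iff, map_sub, ← Module.End.mul_apply (P.op g), ← map_mul, hg, map_one,
        Module.End.one_apply]
      module
  have h := Submodule.finrank_add_le_finrank_add_finrank ((P.op (P.sc c * g)).eigenspace (-1))
    ((P.op g).eigenspace (-1))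
  rw [hle, finrank_top, hd, hd'] at h
  omega

variable {a b c d : Fin r} (hab : a ≠ b) (hac : a ≠ c) (had : a ≠ d) (hbc : b ≠ c) (hbd : b ≠ d) (hcd : c ≠ d)

include hD hab hac had hbc hbd hcd in
theorem dd_spec : P.πP (P.dd a b c d) = dswap a b c d ∧ P.IsD (P.dd a b c d) := by
  have h : ∃ g, P.πP g = dswap a b c d ∧ P.IsD g := hD a b c d hab hac had hbc hbd hcd
  rw [dd, dif_pos h]
  exact h.choose_spec

include h2 hD hn6 hab hac had hbc hbd hcd in
theorem dd_eq {g : ↥P.G} (hπ : P.πP g = dswap a b c d) (hg : P.IsD g) : g = P.dd a b c d :=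
  IsD.eq P h2 hn6 (P.dd_spec hD hab hac had hbc hbd hcd).2 hg
    (hπ.trans (P.dd_spec hD hab hac had hbc hbd hcd).1.symm)

include h2 hD hn6 hab hac had hbc hbd hcd in
theorem dd_conj (u : ↥P.G) :
    u * P.dd a b c d * u⁻¹ = P.dd (P.πP u a) (P.πP u b) (P.πP u c) (P.πP u d) := by
  obtain ⟨hπ, hg, hd⟩ := P.dd_spec hD hab hac had hbc hbd hcd
  have inj : ∀ {x y}, x ≠ y → P.πP u x ≠ P.πP u y := fun h e => h ((P.πP u).injective e)
  refine P.dd_eq h2 hD hn6 (inj hab) (inj hac) (inj had) (inj hbc) (inj hbd) (inj hcd)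
    (by rw [map_mul, map_mul, map_inv, hπ, conj_dswap]) ⟨?_, ?_⟩
  · rw [show u * P.dd a b c d * u⁻¹ * (u * P.dd a b c d * u⁻¹) = u * (P.dd a b c d * P.dd a b c d) * u⁻¹ by
      group, hg, mul_one, mul_inv_cancel]
  · have e : (P.op (u * P.dd a b c d * u⁻¹)).eigenspace (-1 : k) =
        ((P.op (P.dd a b c d)).eigenspace (-1 : k)).map (P.op u) := by
      ext v
      rw [End.mem_eigenspace_iff, Submodule.mem_map]
      constructor
      · intro h
        refine ⟨P.op u⁻¹ v, End.mem_eigenspace_iff.2 ?_, P.op_apply_inv u v⟩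
        apply P.op_apply_injective u
        rw [map_smul, P.op_apply_inv]
        simpa using h
      · rintro ⟨w, hw, rfl⟩
        rw [End.mem_eigenspace_iff] at hw
        rw [map_mul, map_mul, Module.End.mul_apply, Module.End.mul_apply, P.op_inv_apply, hw, map_smul]
    rw [e, ← LinearEquiv.finrank_eq (Submodule.equivMapOfInjective _ (P.op_apply_injective u) _), hd]

include h2 hD hn6 hab hac had hbc hbd hcd in
theorem op_mem_neg_dd (u : ↥P.G) :
    ∀ v ∈ P.neg (P.dd a b c d), P.op u v ∈ P.neg (P.dd (P.πP u a) (P.πP u b) (P.πP u c) (P.πP u d)) := by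
  intro v hv
  rw [← P.dd_conj h2 hD hn6 hab hac had hbc hbd hcd u, mem_neg, map_mul, map_mul, Module.End.mul_apply,
    Module.End.mul_apply, P.op_inv_apply, P.mem_neg.1 hv, map_neg]

include h2 hD hn6 hab hac had hbc hbd hcd in
theorem dd_swap_left : P.dd b a c d = P.dd a b c d :=
  P.dd_eq h2 hD hn6 hab hac had hbc hbd hcd
    ((P.dd_spec hD hab.symm hbc hbd hac had hcd).1.trans (dswap_swap' _ _ _ _))
    (P.dd_spec hD hab.symm hbc hbd hac had hcd).2

include h2 hD hn6 hab hac had hbc hbd hcd in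
theorem dd_swap_right : P.dd a b d c = P.dd a b c d :=
  P.dd_eq h2 hD hn6 hab hac had hbc hbd hcd
    ((P.dd_spec hD hab had hac hbd hbc hcd.symm).1.trans (dswap_swap _ _ _ _))
    (P.dd_spec hD hab had hac hbd hbc hcd.symm).2

include h2 hD hn6 hab hac had hbc hbd hcd in
theorem dd_exchange : P.dd c d a b = P.dd a b c d :=
  P.dd_eq h2 hD hn6 hab hac had hbc hbd hcd
    ((P.dd_spec hD hcd hac.symm hbc.symm had.symm hbd.symm hab).1.trans (dswap_exchange hac had hbc hbd))
    (P.dd_spec hD hcd hac.symm hbc.symm had.symm hbd.symm hab).2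

include P in
theorem exists_move (m : ℕ) (hm : m + 2 ≤ r) (f g : Fin m → Fin r) (hf : Function.Injective f)
    (hg : Function.Injective g) : ∃ u : ↥P.G, ∀ i, P.πP u (f i) = g i := by
  obtain ⟨γ, hγ⟩ := exists_even_map (α := Fin r) (by simpa using hm) f g hf hg
  obtain ⟨u, hu⟩ := P.exists_lift (Perm.mem_alternatingGroup.1 γ.2)
  exact ⟨u, fun i => hu ▸ hγ i⟩

theorem op_mem_neg_of_commute {g h : ↥P.G} (hc : Commute g h) : ∀ v ∈ P.neg g, P.op h v ∈ P.neg g := by
  intro v hv
  rw [mem_neg, ← Module.End.mul_apply, ← map_mul, hc.eq, map_mul, Module.End.mul_apply, P.mem_neg.1 hv, map_neg]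

include h2 hD hn6 in
theorem dd_commute : ∀ {a b c d e f}, a ≠ b → a ≠ c → a ≠ d → b ≠ c → b ≠ d → c ≠ d → a ≠ e → a ≠ f → b ≠ e →
    b ≠ f → c ≠ e → c ≠ f → d ≠ e → d ≠ f → e ≠ f → Commute (P.dd a b c d) (P.dd a b e f) := by
  intro a b c d e f hab hac had hbc hbd hcd hae haf hbe hbf hce hcf hde hdf hef
  have h := P.dd_conj h2 hD hn6 hab hac had hbc hbd hcd (P.dd a b e f)
  rw [(P.dd_spec hD hab hae haf hbe hbf hef).1, dswap_fst hae haf, dswap_snd hbe hbf,
    dswap_of_ne hac.symm hbc.symm hce hcf, dswap_of_ne had.symm hbd.symm hde hdf,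
    P.dd_swap_left h2 hD hn6 hab hac had hbc hbd hcd] at h
  rw [Commute, SemiconjBy]
  conv_lhs => rw [← h]
  group


include h2 hD hn6 in
/-- two planes through a transposition meet in a line. -/
theorem finrank_neg_inf : ∀ {a b c d e f}, a ≠ b → a ≠ c → a ≠ d → b ≠ c → b ≠ d → c ≠ d → a ≠ e → a ≠ f → b ≠ e →
    b ≠ f → c ≠ e → c ≠ f → d ≠ e → d ≠ f → e ≠ f → finrank k ↥(P.neg (P.dd a b c d) ⊓ P.neg (P.dd a b e f)) = 1 := by
  classical
  have hr := P.nine_le
  have hU : ∀ {a b c d}, a ≠ b → a ≠ c → a ≠ d → b ≠ c → b ≠ d → c ≠ d →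
      finrank k ↥(P.neg (P.dd a b c d)) = 2 := fun h1 h2' h3 h4 h5 h6 => (P.dd_spec hD h1 h2' h3 h4 h5 h6).2.2
  have hmove := P.exists_move
  have comm2 := fun {a b c d e f : Fin r} => P.dd_commute h2 hD hn6 (a := a) (b := b) (c := c) (d := d) (e := e) (f := f)
  have pres := fun {g h : ↥P.G} => P.op_mem_neg_of_commute (g := g) (h := h)
  intro a b c d e f hab hac had hbc hbd hcd hae haf hbe hbf hce hcf hde hdf hef
  have hx := P.dd_spec hD hab hac had hbc hbd hcd
  have hy := P.dd_spec hD hab hae haf hbe hbf hef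
  have hle := Submodule.finrank_mono (inf_le_left : P.neg (P.dd a b c d) ⊓ P.neg (P.dd a b e f) ≤ _)
  rw [hU hab hac had hbc hbd hcd] at hle
  have hne2 : finrank k ↥(P.neg (P.dd a b c d) ⊓ P.neg (P.dd a b e f)) ≠ 2 := by
    intro h
    have e1 : P.neg (P.dd a b c d) ⊓ P.neg (P.dd a b e f) = P.neg (P.dd a b c d) :=
      Submodule.eq_of_le_of_finrank_le inf_le_left (by rw [hU hab hac had hbc hbd hcd, h])
    have e2 : P.neg (P.dd a b c d) ⊓ P.neg (P.dd a b e f) = P.neg (P.dd a b e f) :=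
      Submodule.eq_of_le_of_finrank_le inf_le_right (by rw [hU hab hae haf hbe hbf hef, h])
    have heq := P.op_eq_of_neg_eq h2 hx.2.1 hy.2.1
      (comm2 hab hac had hbc hbd hcd hae haf hbe hbf hce hcf hde hdf hef) (e1.symm.trans e2)
    have := congrArg P.πP heq
    rw [hx.1, hy.1] at this
    have h' := Equiv.congr_fun this c
    rw [dswap_thd had hbd, dswap_of_ne hac.symm hbc.symm hce hcf] at h'
    exact hcd h'.symm
  have hne0 : finrank k ↥(P.neg (P.dd a b c d) ⊓ P.neg (P.dd a b e f)) ≠ 0 := by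
    intro h0
    have zero : ∀ {c' d' e' f'}, a ≠ c' → a ≠ d' → b ≠ c' → b ≠ d' → c' ≠ d' → a ≠ e' → a ≠ f' → b ≠ e' →
        b ≠ f' → c' ≠ e' → c' ≠ f' → d' ≠ e' → d' ≠ f' → e' ≠ f' → P.neg (P.dd a b c' d') ⊓ P.neg (P.dd a b e' f') = ⊥ := by
      intro c' d' e' f' h1 h2' h3 h4 h5 h6 h7 h8 h9 h10 h11 h12 h13 h14
      obtain ⟨u, hu⟩ := hmove 6 (by omega) ![a, b, c', d', e', f'] ![a, b, c, d, e, f]
        (by intro i j; fin_cases i <;> fin_cases j <;> simp <;> grind)
        (by intro i j; fin_cases i <;> fin_cases j <;> simp <;> grind)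
      rw [Submodule.eq_bot_iff]
      intro v hv
      have e1 := P.op_mem_neg_dd h2 hD hn6 hab h1 h2' h3 h4 h5 u v hv.1
      have e2 := P.op_mem_neg_dd h2 hD hn6 hab h6 h7 h8 h9 h14 u v hv.2
      rw [show P.πP u a = a from hu 0, show P.πP u b = b from hu 1, show P.πP u c' = c from hu 2,
        show P.πP u d' = d from hu 3] at e1
      rw [show P.πP u a = a from hu 0, show P.πP u b = b from hu 1, show P.πP u e' = e from hu 4,
        show P.πP u f' = f from hu 5] at e2
      apply P.op_apply_injective u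
      rw [map_zero]
      exact (Submodule.eq_bot_iff _).1 (Submodule.finrank_eq_zero.1 h0) _ ⟨e1, e2⟩
    have fixes : ∀ {g h : ↥P.G}, Commute g h → h * h = 1 → P.neg g ⊓ P.neg h = ⊥ →
        ∀ v ∈ P.neg g, P.op h v = v := by
      intro g h hc hh hz v hv
      exact sub_eq_zero.1 ((Submodule.eq_bot_iff _).1 hz _
        ⟨sub_mem (pres hc v hv) hv, P.sub_mem_neg hh v⟩)
    set x := P.dd a b c d with hxdef
    set y := P.dd a b e f with hydef
    have hcxy : Commute x y := comm2 hab hac had hbc hbd hcd hae haf hbe hbf hce hcf hde hdf hef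
    have hxy0 : P.neg x ⊓ P.neg y = ⊥ := Submodule.finrank_eq_zero.1 h0
    have hcd4 := Submodule.finrank_sup_add_finrank_inf_eq (P.neg x) (P.neg y)
    rw [hxy0, finrank_bot, show finrank k ↥(P.neg x) = 2 from hx.2.2,
      show finrank k ↥(P.neg y) = 2 from hy.2.2] at hcd4
    -- the product is the opposite of the distinguished lift
    have hz := P.dd_spec hD hcd hce hcf hde hdf hef
    obtain ⟨l, hl⟩ := P.exists_sc_mul (g := x * y) (h := P.dd c d e f) (by
      rw [map_mul, hx.1, hy.1, hz.1]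
      show Equiv.swap a b * Equiv.swap c d * (Equiv.swap a b * Equiv.swap e f) = Equiv.swap c d * Equiv.swap e f
      have := dswap_exchange (a := a) (b := b) (c := c) (d := d) hac had hbc hbd
      simp only [dswap] at this
      rw [← this, mul_assoc, Equiv.swap_mul_self_mul])
    have hxy2 : x * y * (x * y) = 1 := by rw [hcxy.symm.mul_mul_mul_comm, hx.2.1, hy.2.1, one_mul]
    have hnegxy : P.neg x ⊔ P.neg y ≤ P.neg (x * y) := by
      refine sup_le (fun v hv => ?_) fun v hv => ?_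
      · rw [mem_neg, map_mul, Module.End.mul_apply, fixes hcxy hy.2.1 hxy0 v hv, P.mem_neg.1 hv]
      · rw [mem_neg, map_mul, Module.End.mul_apply, P.mem_neg.1 hv, map_neg,
          fixes hcxy.symm hx.2.1 (by rw [inf_comm]; exact hxy0) v hv]
    have h4 := Submodule.finrank_mono hnegxy
    have hn : finrank k V = 6 := by
      have hll : (l : k) * l = 1 := by
        have h1 := hxy2
        rw [hl, mul_assoc, ← mul_assoc (P.dd c d e f), ← P.sc_comm, mul_assoc (P.sc l), hz.2.1, mul_one,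
          ← map_mul] at h1
        rw [← Units.val_mul, P.sc_eq_one h1]; rfl
      rcases mul_self_eq_one_iff.1 hll with h1 | h1
      · exfalso
        rw [hl, show l = 1 from Units.ext h1, map_one, one_mul] at h4
        have : finrank k ↥(P.neg (P.dd c d e f)) = 2 := hz.2.2
        omega
      · have hne : P.neg (x * y) ⊓ P.neg (P.dd c d e f) = ⊥ := by
          rw [Submodule.eq_bot_iff]
          intro v hv
          have e1 := P.mem_neg.1 hv.1
          rw [hl, map_mul, Module.End.mul_apply, P.mem_neg.1 hv.2, op_sc, h1] at e1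
          have : (2 : k) • v = 0 := by
            simp at e1
            rw [two_smul]; nth_rewrite 1 [e1]; simp
          exact (smul_eq_zero.1 this).resolve_left h2
        have hn' : finrank k V ≤ finrank k ↥(P.neg x ⊔ P.neg y ⊔ P.neg (P.dd c d e f)) := by
          rw [← finrank_top (R := k) (M := V)]
          refine Submodule.finrank_mono fun v _ => ?_
          have e1 : v = (2 : k)⁻¹ • ((v - P.op x v) + P.op x (v - P.op y v)) +
              (2 : k)⁻¹ • (v - P.op (P.dd c d e f) v) := by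
            have e3 : P.op x (P.op y v) = -P.op (P.dd c d e f) v := by
              rw [← Module.End.mul_apply, ← map_mul, hl, map_mul, op_sc, h1]; simp
            rw [map_sub, e3, ← smul_add,
              show v - P.op x v + (P.op x v - -P.op (P.dd c d e f) v) + (v - P.op (P.dd c d e f) v) = (2 : k) • v by
                module,
              smul_smul, inv_mul_cancel₀ h2, one_smul]
          rw [e1]
          refine Submodule.add_mem_sup (Submodule.smul_mem _ _ (Submodule.add_mem_sup ?_ ?_))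
            (Submodule.smul_mem _ _ ?_)
          · rw [← neg_sub]; exact Submodule.neg_mem _ (P.sub_mem_neg hx.2.1 v)
          · refine pres hcxy.symm _ ?_
            rw [← neg_sub]; exact Submodule.neg_mem _ (P.sub_mem_neg hy.2.1 v)
          · rw [← neg_sub]; exact Submodule.neg_mem _ (P.sub_mem_neg hz.2.1 v)
        have h5 := Submodule.finrank_add_le_finrank_add_finrank (P.neg x ⊔ P.neg y) (P.neg (P.dd c d e f))
        have : finrank k ↥(P.neg (P.dd c d e f)) = 2 := hz.2.2
        omega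
    obtain ⟨p, hp, q, hq, hpq⟩ : ∃ p ∈ ({a, b, c, d, e, f} : Finset (Fin r))ᶜ,
        ∃ q ∈ ({a, b, c, d, e, f} : Finset (Fin r))ᶜ, p ≠ q := by
      refine Finset.one_lt_card.1 ?_
      rw [Finset.card_compl, Fintype.card_fin]
      have : ({a, b, c, d, e, f} : Finset (Fin r)).card ≤ 6 := Finset.card_le_six
      omega
    simp only [Finset.mem_compl, Finset.mem_insert, Finset.mem_singleton, not_or] at hp hq
    obtain ⟨pa, pb, pc, pd, pe, pf⟩ := hp
    obtain ⟨qa, qb, qc, qd, qe, qf⟩ := hq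
    have hw := P.dd_spec hD hab (Ne.symm pa) (Ne.symm qa) (Ne.symm pb) (Ne.symm qb) hpq
    set w := P.dd a b p q with hwdef
    have hcxw : Commute x w := comm2 hab hac had hbc hbd hcd (Ne.symm pa) (Ne.symm qa) (Ne.symm pb)
      (Ne.symm qb) (Ne.symm pc) (Ne.symm qc) (Ne.symm pd) (Ne.symm qd) hpq
    have hcyw : Commute y w := comm2 hab hae haf hbe hbf hef (Ne.symm pa) (Ne.symm qa) (Ne.symm pb)
      (Ne.symm qb) (Ne.symm pe) (Ne.symm qe) (Ne.symm pf) (Ne.symm qf) hpq
    have zxw : P.neg x ⊓ P.neg w = ⊥ := zero hac had hbc hbd hcd (Ne.symm pa) (Ne.symm qa) (Ne.symm pb)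
      (Ne.symm qb) (Ne.symm pc) (Ne.symm qc) (Ne.symm pd) (Ne.symm qd) hpq
    have zyw : P.neg y ⊓ P.neg w = ⊥ := zero hae haf hbe hbf hef (Ne.symm pa) (Ne.symm qa) (Ne.symm pb)
      (Ne.symm qb) (Ne.symm pe) (Ne.symm qe) (Ne.symm pf) (Ne.symm qf) hpq
    have hz3 : (P.neg x ⊔ P.neg y) ⊓ P.neg w = ⊥ := by
      rw [Submodule.eq_bot_iff]
      intro v hv
      obtain ⟨v1, h1, v2, h2v, rfl⟩ := Submodule.mem_sup.1 hv.1
      have e1 := P.mem_neg.1 hv.2
      rw [map_add, fixes hcxw hw.2.1 zxw v1 h1, fixes hcyw hw.2.1 zyw v2 h2v] at e1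
      have : (2 : k) • (v1 + v2) = 0 := by rw [two_smul]; nth_rewrite 1 [e1]; simp
      exact (smul_eq_zero.1 this).resolve_left h2
    have h6 := Submodule.finrank_sup_add_finrank_inf_eq (P.neg x ⊔ P.neg y) (P.neg w)
    rw [hz3, finrank_bot, show finrank k ↥(P.neg w) = 2 from hw.2.2] at h6
    have htop : P.neg x ⊔ P.neg y ⊔ P.neg w = ⊤ := Submodule.eq_top_of_finrank_eq (by omega)
    refine P.ne_scalar (g := x * y * w) ?_ (-1) (LinearMap.ext fun v => ?_)
    · rw [map_mul, map_mul, hx.1, hy.1, hw.1]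
      intro h'
      have := Equiv.congr_fun h' c
      rw [Perm.mul_apply, Perm.mul_apply, dswap_of_ne hac.symm hbc.symm (Ne.symm pc) (Ne.symm qc),
        dswap_of_ne hac.symm hbc.symm hce hcf, dswap_thd had hbd] at this
      exact hcd this.symm
    · have hv : v ∈ P.neg x ⊔ P.neg y ⊔ P.neg w := by rw [htop]; exact Submodule.mem_top
      obtain ⟨v12, h12, v3, h3, rfl⟩ := Submodule.mem_sup.1 hv
      obtain ⟨v1, h1, v2, h2v, rfl⟩ := Submodule.mem_sup.1 h12
      simp only [map_mul, Module.End.mul_apply, map_add, fixes hcxw hw.2.1 zxw v1 h1,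
        fixes hcyw hw.2.1 zyw v2 h2v, P.mem_neg.1 h3, fixes hcxy hy.2.1 hxy0 v1 h1, P.mem_neg.1 h2v,
        map_neg, fixes hcyw.symm hy.2.1 (by rw [inf_comm]; exact zyw) v3 h3, P.mem_neg.1 h1,
        fixes hcxy.symm hx.2.1 (by rw [inf_comm]; exact hxy0) v2 h2v,
        fixes hcxw.symm hx.2.1 (by rw [inf_comm]; exact zxw) v3 h3]
      simp
  omega


include h2 hD hn6 in
/-- three planes through a transposition share a line. -/
theorem neg_inf_eq : ∀ {a b c d e f p q}, a ≠ b → a ≠ c → a ≠ d → b ≠ c → b ≠ d → c ≠ d → a ≠ e → a ≠ f → b ≠ e →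
    b ≠ f → c ≠ e → c ≠ f → d ≠ e → d ≠ f → e ≠ f → a ≠ p → a ≠ q → b ≠ p → b ≠ q → c ≠ p → c ≠ q →
    d ≠ p → d ≠ q → e ≠ p → e ≠ q → f ≠ p → f ≠ q → p ≠ q →
    P.neg (P.dd a b c d) ⊓ P.neg (P.dd a b e f) = P.neg (P.dd a b c d) ⊓ P.neg (P.dd a b p q) := by
  classical
  have hr := P.nine_le
  have hU : ∀ {a b c d}, a ≠ b → a ≠ c → a ≠ d → b ≠ c → b ≠ d → c ≠ d →
      finrank k ↥(P.neg (P.dd a b c d)) = 2 := fun h1 h2' h3 h4 h5 h6 => (P.dd_spec hD h1 h2' h3 h4 h5 h6).2.2
  have hmove := P.exists_move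
  have comm2 := fun {a b c d e f : Fin r} => P.dd_commute h2 hD hn6 (a := a) (b := b) (c := c) (d := d) (e := e) (f := f)
  have pres := fun {g h : ↥P.G} => P.op_mem_neg_of_commute (g := g) (h := h)
  have inter := fun {a b c d e f : Fin r} => P.finrank_neg_inf h2 hD hn6 (a := a) (b := b) (c := c) (d := d) (e := e) (f := f)
  intro a b c d e f p q hab hac had hbc hbd hcd hae haf hbe hbf hce hcf hde hdf hef hap haq hbp hbq hcp hcq
    hdp hdq hep heq hfp hfq hpq
  have hx := P.dd_spec hD hab hac had hbc hbd hcd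
  have hy := P.dd_spec hD hab hae haf hbe hbf hef
  have hw := P.dd_spec hD hab hap haq hbp hbq hpq
  set x := P.dd a b c d
  set y := P.dd a b e f
  set w := P.dd a b p q
  have hcxy : Commute x y := comm2 hab hac had hbc hbd hcd hae haf hbe hbf hce hcf hde hdf hef
  have hcxw : Commute x w := comm2 hab hac had hbc hbd hcd hap haq hbp hbq hcp hcq hdp hdq hpq
  have hcyw : Commute y w := comm2 hab hae haf hbe hbf hef hap haq hbp hbq hep heq hfp hfq hpq
  show P.neg x ⊓ P.neg y = P.neg x ⊓ P.neg w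
  by_contra hne
  have d1 : finrank k ↥(P.neg x ⊓ P.neg y) = 1 := inter hab hac had hbc hbd hcd hae haf hbe hbf hce hcf hde hdf hef
  have d2 : finrank k ↥(P.neg x ⊓ P.neg w) = 1 := inter hab hac had hbc hbd hcd hap haq hbp hbq hcp hcq hdp hdq hpq
  have d3 : finrank k ↥(P.neg y ⊓ P.neg w) = 1 := inter hab hae haf hbe hbf hef hap haq hbp hbq hep heq hfp hfq hpq
  set L1 := P.neg x ⊓ P.neg y with hL1
  set L2 := P.neg x ⊓ P.neg w with hL2
  set L3 := P.neg y ⊓ P.neg w with hL3
  have dis : ∀ {A B : Submodule k V}, finrank k ↥A = 1 → finrank k ↥B = 1 → A ≠ B → A ⊓ B = ⊥ := by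
    intro A B hA hB hAB
    by_contra h
    have hpos := Submodule.one_le_finrank_iff.2 h
    exact hAB ((Submodule.eq_of_le_of_finrank_le (inf_le_left : A ⊓ B ≤ _) (by omega)).symm.trans
      (Submodule.eq_of_le_of_finrank_le inf_le_right (by omega)))
  have n12 : L1 ⊓ L2 = ⊥ := dis d1 d2 hne
  have n13 : L1 ⊓ L3 = ⊥ := dis d1 d3 fun h => hne (Submodule.eq_of_le_of_finrank_le
    (le_inf inf_le_left (h.le.trans inf_le_right)) (by omega))
  have n23 : L2 ⊓ L3 = ⊥ := dis d2 d3 fun h => hne (Submodule.eq_of_le_of_finrank_le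
    (le_inf inf_le_left (h.le.trans inf_le_left) : L2 ≤ L1) (d1.trans d2.symm).le).symm
  have span : ∀ {A B C : Submodule k V}, finrank k ↥A = 1 → finrank k ↥B = 1 → A ⊓ B = ⊥ → A ≤ C → B ≤ C →
      finrank k ↥C = 2 → A ⊔ B = C := by
    intro A B C hA hB h hAC hBC hC
    refine Submodule.eq_of_le_of_finrank_le (sup_le hAC hBC) ?_
    have := Submodule.finrank_sup_add_finrank_inf_eq A B
    rw [h, finrank_bot] at this
    omega
  have sx : L1 ⊔ L2 = P.neg x := span d1 d2 n12 inf_le_left inf_le_left hx.2.2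
  have sy : L1 ⊔ L3 = P.neg y := span d1 d3 n13 inf_le_right inf_le_left hy.2.2
  have sw : L2 ⊔ L3 = P.neg w := span d2 d3 n23 inf_le_right inf_le_right hw.2.2
  have w1 : ∀ v ∈ L1, P.op w v = v := fun v hv => sub_eq_zero.1 ((Submodule.eq_bot_iff _).1 n12 _
    ⟨sub_mem ⟨pres hcxw v hv.1, pres hcyw v hv.2⟩ hv,
      ⟨sub_mem (pres hcxw v hv.1) hv.1, P.sub_mem_neg hw.2.1 v⟩⟩)
  have y2 : ∀ v ∈ L2, P.op y v = v := fun v hv => sub_eq_zero.1 ((Submodule.eq_bot_iff _).1 n12 _
    ⟨⟨sub_mem (pres hcxy v hv.1) hv.1, P.sub_mem_neg hy.2.1 v⟩,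
      sub_mem ⟨pres hcxy v hv.1, pres hcyw.symm v hv.2⟩ hv⟩)
  have x3 : ∀ v ∈ L3, P.op x v = v := fun v hv => sub_eq_zero.1 ((Submodule.eq_bot_iff _).1 n13 _
    ⟨⟨P.sub_mem_neg hx.2.1 v, sub_mem (pres hcxy.symm v hv.1) hv.1⟩,
      sub_mem ⟨pres hcxy.symm v hv.1, pres hcxw.symm v hv.2⟩ hv⟩)
  have hW : ∀ v ∈ L1 ⊔ L2 ⊔ L3, P.op (x * y * w) v = v := by
    intro v hv
    obtain ⟨v12, h12, v3, h3, rfl⟩ := Submodule.mem_sup.1 hv
    obtain ⟨v1, h1, v2, h2v, rfl⟩ := Submodule.mem_sup.1 h12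
    simp only [map_mul, Module.End.mul_apply, map_add, w1 v1 h1, P.mem_neg.1 h2v.2, P.mem_neg.1 h3.2,
      map_neg, P.mem_neg.1 h1.2, y2 v2 h2v, P.mem_neg.1 h3.1, neg_neg, P.mem_neg.1 h1.1, P.mem_neg.1 h2v.1,
      x3 v3 h3]
  refine P.ne_scalar (g := x * y * w) ?_ 1 (LinearMap.ext fun v => ?_)
  · rw [map_mul, map_mul, hx.1, hy.1, hw.1]
    intro h'
    have := Equiv.congr_fun h' c
    rw [Perm.mul_apply, Perm.mul_apply, dswap_of_ne hac.symm hbc.symm hcp hcq,
      dswap_of_ne hac.symm hbc.symm hce hcf, dswap_thd had hbd] at this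
    exact hcd this.symm
  · have hmem : P.op (x * y * w) v - v ∈ L1 ⊔ L2 ⊔ L3 := by
      have e : P.op (x * y * w) v - v =
          P.op x (P.op y (P.op w v - v)) + P.op x (P.op y v - v) + (P.op x v - v) := by
        simp only [map_mul, Module.End.mul_apply, map_sub]; abel
      have lx : P.neg x ≤ L1 ⊔ L2 ⊔ L3 := sx ▸ le_sup_left
      have ly : P.neg y ≤ L1 ⊔ L2 ⊔ L3 := sy ▸ sup_le (le_sup_left.trans le_sup_left) le_sup_right
      have lw : P.neg w ≤ L1 ⊔ L2 ⊔ L3 := sw ▸ sup_le (le_sup_right.trans le_sup_left) le_sup_right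
      rw [e]
      exact Submodule.add_mem _ (Submodule.add_mem _ (lw (pres hcxw.symm _ (pres hcyw.symm _ (P.sub_mem_neg hw.2.1 v))))
        (ly (pres hcxy.symm _ (P.sub_mem_neg hy.2.1 v)))) (lx (P.sub_mem_neg hx.2.1 v))
    have hsq : x * y * w * (x * y * w) = 1 := by
      rw [(Commute.mul_left hcxw hcyw).symm.mul_mul_mul_comm, hcxy.symm.mul_mul_mul_comm, hx.2.1, hy.2.1, hw.2.1,
        one_mul, one_mul]
    have e := hW _ hmem
    rw [map_sub, ← Module.End.mul_apply, ← map_mul, hsq, map_one, Module.End.one_apply] at e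
    have : (2 : k) • (P.op (x * y * w) v - v) = 0 := by
      rw [two_smul]; nth_rewrite 1 [← e]; abel
    rw [one_smul, Module.End.one_apply]
    exact sub_eq_zero.1 ((smul_eq_zero.1 this).resolve_left h2)


include h2 hD hn6 in
theorem exists_edgeLines_odd : Nonempty (EdgeLines P) := by
  classical
  have hr := P.nine_le
  let U : Fin r → Fin r → Fin r → Fin r → Submodule k V := fun a b c d => P.neg (P.dd a b c d)
  have hU : ∀ {a b c d}, a ≠ b → a ≠ c → a ≠ d → b ≠ c → b ≠ d → c ≠ d →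
      finrank k ↥(U a b c d) = 2 := fun h1 h2' h3 h4 h5 h6 => (P.dd_spec hD h1 h2' h3 h4 h5 h6).2.2
  have hmove := P.exists_move
  have inter := fun {a b c d e f : Fin r} => P.finrank_neg_inf h2 hD hn6 (a := a) (b := b) (c := c) (d := d) (e := e) (f := f)
  have common := fun {a b c d e f p q : Fin r} => P.neg_inf_eq h2 hD hn6 (a := a) (b := b) (c := c) (d := d) (e := e) (f := f) (p := p) (q := q)
  -- the line of a pair
  let L : Fin r → Fin r → Submodule k V := fun a b =>
    ⨅ c, ⨅ d, ⨅ (_ : c ≠ d ∧ c ≠ a ∧ c ≠ b ∧ d ≠ a ∧ d ≠ b), U a b c d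
  have hleU : ∀ {a b c d}, a ≠ c → a ≠ d → b ≠ c → b ≠ d → c ≠ d → L a b ≤ U a b c d :=
    fun {a b c d} h1 h2' h3 h4 h5 =>
      (iInf_le _ c).trans ((iInf_le _ d).trans (iInf_le _ ⟨h5, h1.symm, h3.symm, h2'.symm, h4.symm⟩))
  have hpair : ∀ {a b c d e f p q}, a ≠ b → a ≠ c → a ≠ d → b ≠ c → b ≠ d → c ≠ d → a ≠ e → a ≠ f → b ≠ e →
      b ≠ f → c ≠ e → c ≠ f → d ≠ e → d ≠ f → e ≠ f → a ≠ p → a ≠ q → b ≠ p → b ≠ q → c ≠ p → c ≠ q →
      d ≠ p → d ≠ q → p ≠ q → U a b c d ⊓ U a b e f = U a b c d ⊓ U a b p q := by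
    intro a b c d e f p q hab hac had hbc hbd hcd hae haf hbe hbf hce hcf hde hdf hef hap haq hbp hbq hcp hcq
      hdp hdq hpq
    by_cases h : e ≠ p ∧ e ≠ q ∧ f ≠ p ∧ f ≠ q
    · exact common hab hac had hbc hbd hcd hae haf hbe hbf hce hcf hde hdf hef hap haq hbp hbq hcp hcq hdp hdq
        h.1 h.2.1 h.2.2.1 h.2.2.2 hpq
    obtain ⟨u, hu, v, hv, huv⟩ : ∃ u ∈ ({a, b, c, d, e, f, p, q} : Finset (Fin r))ᶜ,
        ∃ v ∈ ({a, b, c, d, e, f, p, q} : Finset (Fin r))ᶜ, u ≠ v := by
      refine Finset.one_lt_card.1 ?_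
      rw [Finset.card_compl, Fintype.card_fin]
      have h7 : ({a, b, c, d, e, f, p, q} : Finset (Fin r)).card ≤ 7 := by
        have hsub : ({a, b, c, d, e, f, p, q} : Finset (Fin r)) ⊆ {a, b, c, d} ∪ {e, f, p, q} := by
          intro x; simp; tauto
        have h3 : ({e, f, p, q} : Finset (Fin r)).card ≤ 3 := by
          simp only [ne_eq, not_and_or, not_not] at h
          rcases h with rfl | rfl | rfl | rfl
          · exact (Finset.card_le_card (t := {e, f, q}) (by intro x; simp <;> tauto)).trans Finset.card_le_three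
          · exact (Finset.card_le_card (t := {e, f, p}) (by intro x; simp <;> tauto)).trans Finset.card_le_three
          · exact (Finset.card_le_card (t := {e, f, q}) (by intro x; simp <;> tauto)).trans Finset.card_le_three
          · exact (Finset.card_le_card (t := {e, f, p}) (by intro x; simp <;> tauto)).trans Finset.card_le_three
        have := (Finset.card_le_card hsub).trans (Finset.card_union_le _ _)
        have : ({a, b, c, d} : Finset (Fin r)).card ≤ 4 := Finset.card_le_four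
        omega
      omega
    simp only [Finset.mem_compl, Finset.mem_insert, Finset.mem_singleton, not_or] at hu hv
    obtain ⟨ua, ub, uc, ud, ue, uf, up, uq⟩ := hu
    obtain ⟨va, vb, vc, vd, ve, vf, vp, vq⟩ := hv
    rw [common hab hac had hbc hbd hcd hae haf hbe hbf hce hcf hde hdf hef (Ne.symm ua) (Ne.symm va) (Ne.symm ub)
        (Ne.symm vb) (Ne.symm uc) (Ne.symm vc) (Ne.symm ud) (Ne.symm vd) (Ne.symm ue) (Ne.symm ve) (Ne.symm uf)
        (Ne.symm vf) huv,
      common hab hac had hbc hbd hcd hap haq hbp hbq hcp hcq hdp hdq hpq (Ne.symm ua) (Ne.symm va) (Ne.symm ub)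
        (Ne.symm vb) (Ne.symm uc) (Ne.symm vc) (Ne.symm ud) (Ne.symm vd) (Ne.symm up) (Ne.symm vp) (Ne.symm uq)
        (Ne.symm vq) huv]
  have hL : ∀ {a b c d e f}, a ≠ b → a ≠ c → a ≠ d → b ≠ c → b ≠ d → c ≠ d → a ≠ e → a ≠ f → b ≠ e →
      b ≠ f → c ≠ e → c ≠ f → d ≠ e → d ≠ f → e ≠ f → L a b = U a b c d ⊓ U a b e f := by
    intro a b c d e f hab hac had hbc hbd hcd hae haf hbe hbf hce hcf hde hdf hef
    refine le_antisymm (le_inf (hleU hac had hbc hbd hcd) (hleU hae haf hbe hbf hef))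
      (le_iInf fun p => le_iInf fun q => le_iInf fun ⟨hpq, pa, pb, qa, qb⟩ => ?_)
    obtain ⟨u, hu, v, hv, huv⟩ : ∃ u ∈ ({a, b, c, d, p, q} : Finset (Fin r))ᶜ,
        ∃ v ∈ ({a, b, c, d, p, q} : Finset (Fin r))ᶜ, u ≠ v := by
      refine Finset.one_lt_card.1 ?_
      rw [Finset.card_compl, Fintype.card_fin]
      have : ({a, b, c, d, p, q} : Finset (Fin r)).card ≤ 6 := Finset.card_le_six
      omega
    simp only [Finset.mem_compl, Finset.mem_insert, Finset.mem_singleton, not_or] at hu hv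
    obtain ⟨ua, ub, uc, ud, up, uq⟩ := hu
    obtain ⟨va, vb, vc, vd, vp, vq⟩ := hv
    rw [hpair hab hac had hbc hbd hcd hae haf hbe hbf hce hcf hde hdf hef (Ne.symm ua) (Ne.symm va) (Ne.symm ub)
      (Ne.symm vb) (Ne.symm uc) (Ne.symm vc) (Ne.symm ud) (Ne.symm vd) huv, inf_comm,
      hpair hab (Ne.symm ua) (Ne.symm va) (Ne.symm ub) (Ne.symm vb) huv hac had hbc hbd uc ud vc vd hcd
        (Ne.symm pa) (Ne.symm qa) (Ne.symm pb) (Ne.symm qb) up uq vp vq hpq]
    exact inf_le_right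
  have four : ∀ {a b : Fin r}, ∃ c d e f : Fin r, a ≠ c ∧ a ≠ d ∧ b ≠ c ∧ b ≠ d ∧ c ≠ d ∧ a ≠ e ∧ a ≠ f ∧
      b ≠ e ∧ b ≠ f ∧ c ≠ e ∧ c ≠ f ∧ d ≠ e ∧ d ≠ f ∧ e ≠ f := by
    intro a b
    obtain ⟨T, hT, hTc⟩ := Finset.exists_subset_card_eq
      (s := ({a, b} : Finset (Fin r))ᶜ) (n := 4) (by
        rw [Finset.card_compl, Fintype.card_fin]
        have : ({a, b} : Finset (Fin r)).card ≤ 2 := Finset.card_le_two
        omega)
    let em := T.orderEmbOfFin hTc
    have hm : ∀ i, em i ≠ a ∧ em i ≠ b := fun i => by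
      have := hT (Finset.orderEmbOfFin_mem T hTc i)
      simpa using this
    have hne : ∀ i j, i ≠ j → em i ≠ em j := fun i j h e => h (em.injective e)
    exact ⟨em 0, em 1, em 2, em 3, (hm 0).1.symm, (hm 1).1.symm, (hm 0).2.symm, (hm 1).2.symm,
      hne 0 1 (by decide), (hm 2).1.symm, (hm 3).1.symm, (hm 2).2.symm, (hm 3).2.symm, hne 0 2 (by decide),
      hne 0 3 (by decide), hne 1 2 (by decide), hne 1 3 (by decide), hne 2 3 (by decide)⟩
  have hdim : ∀ a b, a ≠ b → finrank k ↥(L a b) = 1 := by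
    intro a b hab
    obtain ⟨c, d, e, f, hac, had, hbc, hbd, hcd, hae, haf, hbe, hbf, hce, hcf, hde, hdf, hef⟩ := @four a b
    rw [hL hab hac had hbc hbd hcd hae haf hbe hbf hce hcf hde hdf hef]
    exact inter hab hac had hbc hbd hcd hae haf hbe hbf hce hcf hde hdf hef
  have hsymm : ∀ a b, L a b = L b a := by
    intro a b
    by_cases hab : a = b
    · rw [hab]
    refine le_antisymm ?_ ?_ <;>
      refine le_iInf fun c => le_iInf fun d => le_iInf fun ⟨h1, h2', h3, h4, h5⟩ => ?_ <;>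
      refine (hleU h3.symm h5.symm h2'.symm h4.symm h1).trans (le_of_eq ?_)
    · exact congrArg P.neg (P.dd_swap_left h2 hD hn6 hab h3.symm h5.symm h2'.symm h4.symm h1).symm
    · exact congrArg P.neg (P.dd_swap_left h2 hD hn6 hab h2'.symm h4.symm h3.symm h5.symm h1)
  have hmap : ∀ (g : ↥P.G) a b, a ≠ b → ∀ v ∈ L a b, P.op g v ∈ L (P.πP g a) (P.πP g b) := by
    intro g a b hab v hv
    simp only [L, Submodule.mem_iInf] at hv ⊢
    intro c d hcd
    obtain ⟨c, rfl⟩ := (P.πP g).surjective c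
    obtain ⟨d, rfl⟩ := (P.πP g).surjective d
    obtain ⟨h1, h2', h3, h4, h5⟩ := hcd
    have h1' : c ≠ d := fun e => h1 (e ▸ rfl)
    have h2'' : c ≠ a := fun e => h2' (e ▸ rfl)
    have h3' : c ≠ b := fun e => h3 (e ▸ rfl)
    have h4' : d ≠ a := fun e => h4 (e ▸ rfl)
    have h5' : d ≠ b := fun e => h5 (e ▸ rfl)
    exact P.op_mem_neg_dd h2 hD hn6 hab h2''.symm h4'.symm h3'.symm h5'.symm h1' g v
      (hv c d ⟨h1', h2'', h3', h4', h5'⟩)
  have line_eq : ∀ (g : ↥P.G) (a b a' b' : Fin r), a ≠ b → P.πP g a = a' → P.πP g b = b' →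
      (L a b).map (P.op g) = L a' b' := by
    intro g a b a' b' hab ha hb
    subst ha; subst hb
    refine Submodule.eq_of_le_of_finrank_le ?_ ?_
    · rintro _ ⟨v, hv, rfl⟩; exact hmap g a b hab v hv
    · rw [hdim _ _ fun e => hab ((P.πP g).injective e),
        ← LinearEquiv.finrank_eq (Submodule.equivMapOfInjective _ (P.op_apply_injective g) (L a b)),
        hdim a b hab]
  have hadj : ∀ a b c, a ≠ b → a ≠ c → b ≠ c → L a b ≠ L a c := by
    intro a b c hab hac hbc heq
    have hall : ∀ a' b' c', a' ≠ b' → a' ≠ c' → b' ≠ c' → L a' b' = L a' c' := by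
      intro a' b' c' hab' hac' hbc'
      obtain ⟨u, hu⟩ := hmove 3 (by omega) ![a, b, c] ![a', b', c']
        (by intro i j; fin_cases i <;> fin_cases j <;> simp <;> grind)
        (by intro i j; fin_cases i <;> fin_cases j <;> simp <;> grind)
      rw [← line_eq u a b a' b' hab (hu 0) (hu 1), ← line_eq u a c a' c' hac (hu 0) (hu 2), heq]
    have hstar : ∀ p q x, p ≠ q → x ≠ p → L p q = L p x := by
      intro p q x hpq hxp
      by_cases hqx : q = x
      · rw [hqx]
      · exact hall p q x hpq hxp.symm hqx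
    have hconst : ∀ x y, x ≠ y → L x y = L a b := by
      intro x y hxy
      by_cases hxa : x = a
      · subst hxa; exact (hstar x b y hab hxy.symm).symm
      by_cases hya : y = a
      · subst hya; rw [hsymm]; exact (hstar y b x hab hxy).symm
      rw [hstar x y a hxy (Ne.symm hxa), hsymm]
      exact (hstar a b x hab hxa).symm
    rcases P.irred (L a b) (fun g v hv => hconst _ _ (fun e => hab ((P.πP g).injective e)) ▸ hmap g a b hab v hv)
      with h | h
    · have := hdim a b hab; rw [h, finrank_bot] at this; omega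
    · have := hdim a b hab; rw [h, finrank_top] at this; omega
  have hdisj : ∀ {a b c d}, a ≠ b → a ≠ c → a ≠ d → b ≠ c → b ≠ d → c ≠ d → L a b ≠ L c d := by
    intro a b c d hab hac had hbc hbd hcd heq
    obtain ⟨e, he, f, hf, hef⟩ : ∃ e ∈ ({a, b, c} : Finset (Fin r))ᶜ,
        ∃ f ∈ ({a, b, c} : Finset (Fin r))ᶜ, e ≠ f := by
      refine Finset.one_lt_card.1 ?_
      rw [Finset.card_compl, Fintype.card_fin]
      have : ({a, b, c} : Finset (Fin r)).card ≤ 3 := Finset.card_le_three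
      omega
    simp only [Finset.mem_compl, Finset.mem_insert, Finset.mem_singleton, not_or] at he hf
    obtain ⟨u, hu⟩ := hmove 4 (by omega) ![a, b, c, d] ![a, b, e, f]
      (by intro i j; fin_cases i <;> fin_cases j <;> simp <;> grind)
      (by intro i j; fin_cases i <;> fin_cases j <;> simp <;> grind)
    obtain ⟨u', hu'⟩ := hmove 4 (by omega) ![a, b, c, d] ![a, c, e, f]
      (by intro i j; fin_cases i <;> fin_cases j <;> simp <;> grind)
      (by intro i j; fin_cases i <;> fin_cases j <;> simp <;> grind)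
    refine hadj a b c hab hac hbc ?_
    rw [← line_eq u a b a b hab (hu 0) (hu 1), heq, line_eq u c d e f hcd (hu 2) (hu 3),
      ← line_eq u' a b a c hab (hu' 0) (hu' 1), heq, line_eq u' c d e f hcd (hu' 2) (hu' 3)]
  have dis1 : ∀ {A B : Submodule k V}, finrank k ↥A = 1 → finrank k ↥B = 1 → A ≠ B →
      finrank k ↥(A ⊔ B) = 2 := by
    intro A B hA hB hAB
    have h := Submodule.finrank_sup_add_finrank_inf_eq A B
    have h0 : A ⊓ B = ⊥ := by
      by_contra h'
      have hpos := Submodule.one_le_finrank_iff.2 h'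
      exact hAB ((Submodule.eq_of_le_of_finrank_le (inf_le_left : A ⊓ B ≤ _) (by omega)).symm.trans
        (Submodule.eq_of_le_of_finrank_le inf_le_right (by omega)))
    rw [h0, finrank_bot, hA, hB] at h
    omega
  have split : ∀ {a b c d}, a ≠ b → a ≠ c → a ≠ d → b ≠ c → b ≠ d → c ≠ d → L a b ⊔ L c d = U a b c d := by
    intro a b c d hab hac had hbc hbd hcd
    refine Submodule.eq_of_le_of_finrank_le (sup_le (hleU hac had hbc hbd hcd) ?_) ?_
    · exact (hleU hac.symm hbc.symm had.symm hbd.symm hab).trans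
        (le_of_eq (congrArg P.neg (P.dd_exchange h2 hD hn6 hab hac had hbc hbd hcd)))
    · rw [dis1 (hdim a b hab) (hdim c d hcd) (hdisj hab hac had hbc hbd hcd), hU hab hac had hbc hbd hcd]
  have hfix : ∀ {a b c d p q}, a ≠ b → a ≠ c → a ≠ d → b ≠ c → b ≠ d → c ≠ d → a ≠ p → a ≠ q → b ≠ p →
      b ≠ q → c ≠ p → c ≠ q → d ≠ p → d ≠ q → p ≠ q → ∀ v ∈ L p q, P.op (P.dd a b c d) v = v := by
    intro a b c d p q hab hac had hbc hbd hcd hap haq hbp hbq hcp hcq hdp hdq hpq v hv
    have hx := P.dd_spec hD hab hac had hbc hbd hcd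
    have h1 := hmap (P.dd a b c d) p q hpq v hv
    rw [hx.1, dswap_of_ne hap.symm hbp.symm hcp.symm hdp.symm, dswap_of_ne haq.symm hbq.symm hcq.symm hdq.symm] at h1
    by_contra hne
    have hmem : P.op (P.dd a b c d) v - v ∈ L p q ⊓ U a b c d := ⟨sub_mem h1 hv, P.sub_mem_neg hx.2.1 v⟩
    have hne' : L p q ⊓ U a b c d ≠ ⊥ := fun h =>
      sub_ne_zero.2 hne ((Submodule.eq_bot_iff _).1 h _ hmem)
    have hle : L p q ≤ U a b c d :=
      inf_eq_left.1 (Submodule.eq_of_le_of_finrank_le inf_le_left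
        (by rw [hdim p q hpq]; exact Submodule.one_le_finrank_iff.2 hne'))
    have hle' : L p q ≤ L a b := by
      rw [hL hab hac had hbc hbd hcd hap haq hbp hbq hcp hcq hdp hdq hpq]
      refine le_inf hle ((hleU hap.symm hbp.symm haq.symm hbq.symm hab).trans (le_of_eq (congrArg P.neg ?_)))
      exact P.dd_exchange h2 hD hn6 hab hap haq hbp hbq hpq
    exact hdisj hab hap haq hbp hbq hpq (Submodule.eq_of_le_of_finrank_le hle'
      (by rw [hdim a b hab, hdim p q hpq])).symm
  have htri : ∀ a b c, a ≠ b → a ≠ c → b ≠ c → L b c ≤ L a b ⊔ L a c := by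
    intro a b c hab hac hbc
    obtain ⟨T, hT, hTc⟩ := Finset.exists_subset_card_eq
      (s := ({a, b, c} : Finset (Fin r))ᶜ) (n := 6) (by
        rw [Finset.card_compl, Fintype.card_fin]
        have : ({a, b, c} : Finset (Fin r)).card ≤ 3 := Finset.card_le_three
        omega)
    let em := T.orderEmbOfFin hTc
    have hm : ∀ i, a ≠ em i ∧ b ≠ em i ∧ c ≠ em i := fun i => by
      have := hT (Finset.orderEmbOfFin_mem T hTc i)
      simp only [Finset.mem_compl, Finset.mem_insert, Finset.mem_singleton, not_or] at this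
      exact ⟨Ne.symm this.1, Ne.symm this.2.1, Ne.symm this.2.2⟩
    have hne : ∀ i j, i ≠ j → em i ≠ em j := fun i j h e => h (em.injective e)
    have step : ∀ i j, i ≠ j → L b c ≤ L a b ⊔ L a c ⊔ L (em i) (em j) := by
      intro i j hij u hu
      have hx := P.dd_spec hD hab (hm i).1 (hm j).1 (hm i).2.1 (hm j).2.1 (hne i j hij)
      have h1 := hmap (P.dd a b (em i) (em j)) b c hbc u hu
      rw [hx.1, dswap_snd (hm i).2.1 (hm j).2.1, dswap_of_ne hac.symm hbc.symm (hm i).2.2 (hm j).2.2] at h1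
      have h3 : P.op (P.dd a b (em i) (em j)) u - u ∈ L a b ⊔ L (em i) (em j) := by
        rw [split hab (hm i).1 (hm j).1 (hm i).2.1 (hm j).2.1 (hne i j hij)]
        exact P.sub_mem_neg hx.2.1 u
      have e : u = P.op (P.dd a b (em i) (em j)) u - (P.op (P.dd a b (em i) (em j)) u - u) := by abel
      rw [e]
      exact sub_mem (Submodule.mem_sup_left (Submodule.mem_sup_right h1))
        (SetLike.le_def.1 (sup_le (le_sup_left.trans le_sup_left) le_sup_right) h3)
    have hnot : ¬ L (em 2) (em 3) ≤ L a b ⊔ L a c ⊔ L (em 0) (em 1) := by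
      intro hle
      obtain ⟨u, hu⟩ := hmove 7 (by omega) ![a, b, c, em 0, em 1, em 2, em 3]
        ![a, b, c, em 0, em 1, em 4, em 5]
        (by
          intro i j
          fin_cases i <;> fin_cases j <;>
            simp [hab, hac, hbc, Ne.symm hab, Ne.symm hac, Ne.symm hbc, (hm _).1, (hm _).2.1, (hm _).2.2,
              Ne.symm (hm _).1, Ne.symm (hm _).2.1, Ne.symm (hm _).2.2, em.injective.eq_iff])
        (by
          intro i j
          fin_cases i <;> fin_cases j <;>
            simp [hab, hac, hbc, Ne.symm hab, Ne.symm hac, Ne.symm hbc, (hm _).1, (hm _).2.1, (hm _).2.2,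
              Ne.symm (hm _).1, Ne.symm (hm _).2.1, Ne.symm (hm _).2.2, em.injective.eq_iff])
      have hle2 : L (em 4) (em 5) ≤ L a b ⊔ L a c ⊔ L (em 0) (em 1) := by
        have := Submodule.map_mono (f := P.op u) hle
        rwa [Submodule.map_sup, Submodule.map_sup, line_eq u a b a b hab (hu 0) (hu 1), line_eq u a c a c hac (hu 0) (hu 2),
          line_eq u _ _ (em 0) (em 1) (hne 0 1 (by decide)) (hu 3) (hu 4),
          line_eq u _ _ (em 4) (em 5) (hne 2 3 (by decide)) (hu 5) (hu 6)] at this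
      have hx := P.dd_spec hD hab (hm 0).1 (hm 1).1 (hm 0).2.1 (hm 1).2.1 (hne 0 1 (by decide))
      have hbot : (L a b ⊔ L (em 0) (em 1)) ⊓ (L (em 2) (em 3) ⊔ L (em 4) (em 5)) = ⊥ := by
        rw [Submodule.eq_bot_iff]
        intro v hv
        have hv1 : v ∈ U a b (em 0) (em 1) := by
          rw [← split hab (hm 0).1 (hm 1).1 (hm 0).2.1 (hm 1).2.1 (hne 0 1 (by decide))]; exact hv.1
        have e1 := P.mem_neg.1 hv1
        obtain ⟨v1, h1, v2, h2v, rfl⟩ := Submodule.mem_sup.1 hv.2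
        rw [map_add, hfix hab (hm 0).1 (hm 1).1 (hm 0).2.1 (hm 1).2.1 (hne 0 1 (by decide)) (hm 2).1 (hm 3).1
            (hm 2).2.1 (hm 3).2.1 (hne 0 2 (by decide)) (hne 0 3 (by decide)) (hne 1 2 (by decide))
            (hne 1 3 (by decide)) (hne 2 3 (by decide)) v1 h1,
          hfix hab (hm 0).1 (hm 1).1 (hm 0).2.1 (hm 1).2.1 (hne 0 1 (by decide)) (hm 4).1 (hm 5).1
            (hm 4).2.1 (hm 5).2.1 (hne 0 4 (by decide)) (hne 0 5 (by decide)) (hne 1 4 (by decide))
            (hne 1 5 (by decide)) (hne 4 5 (by decide)) v2 h2v] at e1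
        have : (2 : k) • (v1 + v2) = 0 := by rw [two_smul]; nth_rewrite 1 [e1]; simp
        exact (smul_eq_zero.1 this).resolve_left h2
      have hA := dis1 (hdim a b hab) (hdim _ _ (hne 0 1 (by decide)))
        (hdisj hab (hm 0).1 (hm 1).1 (hm 0).2.1 (hm 1).2.1 (hne 0 1 (by decide)))
      have hB := dis1 (hdim _ _ (hne 2 3 (by decide))) (hdim _ _ (hne 4 5 (by decide)))
        (hdisj (hne 2 3 (by decide)) (hne 2 4 (by decide)) (hne 2 5 (by decide)) (hne 3 4 (by decide))
          (hne 3 5 (by decide)) (hne 4 5 (by decide)))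
      have hAB := Submodule.finrank_sup_add_finrank_inf_eq (L a b ⊔ L (em 0) (em 1))
        (L (em 2) (em 3) ⊔ L (em 4) (em 5))
      rw [hbot, finrank_bot, hA, hB] at hAB
      have hle3 : L a b ⊔ L (em 0) (em 1) ⊔ (L (em 2) (em 3) ⊔ L (em 4) (em 5)) ≤
          L a b ⊔ L a c ⊔ L (em 0) (em 1) :=
        sup_le (sup_le (le_sup_left.trans le_sup_left) le_sup_right) (sup_le hle hle2)
      have h3 := Submodule.finrank_mono hle3
      have h4 := Submodule.finrank_add_le_finrank_add_finrank (L a b ⊔ L a c) (L (em 0) (em 1))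
      rw [dis1 (hdim a b hab) (hdim a c hac) (hadj a b c hab hac hbc), hdim _ _ (hne 0 1 (by decide))] at h4
      omega
    set S := L a b ⊔ L a c ⊔ L (em 0) (em 1) with hS
    set S' := L a b ⊔ L a c ⊔ L (em 2) (em 3) with hS'
    have hlt : S ⊓ S' < S' := lt_of_le_of_ne inf_le_right fun e =>
      hnot ((le_sup_right.trans e.ge).trans inf_le_left)
    have h3 := Submodule.finrank_lt_finrank_of_lt hlt
    have h4 := Submodule.finrank_add_le_finrank_add_finrank (L a b ⊔ L a c) (L (em 2) (em 3))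
    rw [dis1 (hdim a b hab) (hdim a c hac) (hadj a b c hab hac hbc), hdim _ _ (hne 2 3 (by decide))] at h4
    change finrank k ↥S' ≤ _ at h4
    have heq : L a b ⊔ L a c = S ⊓ S' := Submodule.eq_of_le_of_finrank_le
      (le_inf le_sup_left le_sup_left)
      (by rw [dis1 (hdim a b hab) (hdim a c hac) (hadj a b c hab hac hbc)]; omega)
    rw [heq]
    exact le_inf (step 0 1 (by decide)) (step 2 3 (by decide))
  refine ⟨⟨L, hsymm, hdim, hmap, htri, hadj, fun a b c d hab hac had hbc hbd hcd h => ?_⟩⟩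
  have hstar : ∀ x, x ≠ a → L a x ≤ L a b ⊔ L a c := by
    intro x hxa
    by_cases hxb : x = b
    · rw [hxb]; exact le_sup_left
    by_cases hxc : x = c
    · rw [hxc]; exact le_sup_right
    obtain ⟨u, hu⟩ := hmove 4 (by omega) ![a, b, c, d] ![a, b, c, x]
      (by intro i j; fin_cases i <;> fin_cases j <;> simp <;> grind)
      (by intro i j; fin_cases i <;> fin_cases j <;> simp <;> grind)
    have := Submodule.map_mono (f := P.op u) h
    rwa [Submodule.map_sup, line_eq u a b a b hab (hu 0) (hu 1), line_eq u a c a c hac (hu 0) (hu 2),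
      line_eq u a d a x had (hu 0) (hu 3)] at this
  have hallP : ∀ x y, x ≠ y → L x y ≤ L a b ⊔ L a c := by
    intro x y hxy
    by_cases hxa : x = a
    · subst hxa; exact hstar y hxy.symm
    by_cases hya : y = a
    · subst hya; rw [hsymm]; exact hstar x hxy
    exact (htri a x y (Ne.symm hxa) (Ne.symm hya) hxy).trans (sup_le (hstar x hxa) (hstar y hya))
  have h2d := dis1 (hdim a b hab) (hdim a c hac) (hadj a b c hab hac hbc)
  rcases P.irred (L a b ⊔ L a c) (fun g v hv => by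
      obtain ⟨p, hp, q, hq, rfl⟩ := Submodule.mem_sup.1 hv
      rw [map_add]
      exact Submodule.add_mem _ (hallP _ _ (fun e => hab ((P.πP g).injective e)) (hmap g a b hab p hp))
        (hallP _ _ (fun e => hac ((P.πP g).injective e)) (hmap g a c hac q hq))) with h' | h'
  · rw [h', finrank_bot] at h2d; omega
  · rw [h', finrank_top] at h2d; omega

end Lines

include P in
/-- The bound in odd characteristic. -/
theorem bound_odd (h2 : (2 : k) ≠ 0) (p : ℕ) [CharP k p] :
    r - 1 - (if p ∣ r then 1 else 0) ≤ finrank k V := by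
  obtain ⟨z, hz | hz, hs⟩ := P.exists_signIs
  · subst hz
    by_contra hlt
    obtain ⟨hD, hn6⟩ := P.odd_weights h2 hs p (not_le.1 hlt)
    obtain ⟨E⟩ := P.exists_edgeLines_odd h2 hD hn6
    exact hlt (E.bound p)
  · subst hz
    exact P.bound_spin h2 hs p

end AltProj

end Cfsg.Agent.H63.AltSec
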