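import Cfsg.Agent.H63.AltSec.DoubleSwap
import Cfsg.Agent.H63.AltSec.Counting

/-!
# Odd characteristic, commuting double transpositions: the weights
-/

set_option linter.unusedSectionVars false
set_option maxHeartbeats 1000000

namespace Cfsg.Agent.H63.AltSec

open Module Equiv

/-- The action of a rotation on labels. -/
def rotLabel : Fin 4 → Fin 4 := ![0, 2, 3, 1]

/-- Whether the involution with index `m` acts trivially on a label. -/
def labelTriv (x : Fin 4) (m : Fin 3) : Bool := decide (x = 0 ∨ x.val = m.val + 1)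

theorem labelTriv_rot : ∀ (x : Fin 4) (m : Fin 3), labelTriv (rotLabel x) (m + 1) = labelTriv x m := by
  decide

theorem exists_rot : ∀ x y : Fin 4, (x = 0 ↔ y = 0) → ∃ i : Fin 3, rotLabel^[i.val] x = y := by decide

theorem labelTriv_inj : ∀ x y : Fin 4, (∀ m, labelTriv x m = labelTriv y m) → x = y := by decide

/-- The basic lift of the involution `(a c)(b d)` inside a four-set. -/
theorem perm_comm_dswap {α : Type*} [DecidableEq α] {a b c d : α} (hab : a ≠ b) (hac : a ≠ c) (had : a ≠ d)
    (hbc : b ≠ c) (hbd : b ≠ d) (hcd : c ≠ d) :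
    dswap a b c d * cyc a b c * (dswap a b c d)⁻¹ * (cyc a b c)⁻¹ = dswap a c b d := by
  have hinv : (dswap a b c d)⁻¹ = dswap a b c d :=
    inv_eq_of_mul_eq_one_right (dswap_mul_self hac had hbc hbd)
  rw [hinv, mul_assoc (dswap a b c d) (cyc a b c), mul_assoc (dswap a b c d), conj_dswap,
    cyc_apply_fst hab hac, cyc_apply_snd hac hbc, cyc_apply_thd, cyc_apply_of_ne had.symm hbd.symm hcd.symm,
    dswap_exchange hab.symm hbd (Ne.symm hac) hcd |>.symm, dswap_swap a b d c,
    dswap_mul_dswap hab had hac hbd hbc hcd.symm]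

theorem update_rot_mem : ∀ (l : Fin 2) (w : Fin 2 → Fin 4), w ∈ suppSet 2 3 2 →
    Function.update w l (rotLabel (w l)) ∈ suppSet 2 3 2 := by
  decide +kernel

namespace AltProj

variable {k : Type*} [Field k] [IsAlgClosed k] {V : Type*} [AddCommGroup V] [Module k V]
  [FiniteDimensional k V] {r : ℕ} (P : AltProj k V r)

/-- With commuting double transpositions and small degree, each has a lift which is an involution negating a
plane. -/
theorem odd_weights (h2 : (2 : k) ≠ 0) (hs1 : P.SignIs 1) (p : ℕ) [CharP k p]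
    (hsmall : finrank k V < r - 1 - (if p ∣ r then 1 else 0)) :
    (∀ a b c d : Fin r, a ≠ b → a ≠ c → a ≠ d → b ≠ c → b ≠ d → c ≠ d →
      ∃ g, P.πP g = dswap a b c d ∧ g * g = 1 ∧ finrank k ↥((P.op g).eigenspace (-1)) = 2) ∧
    6 ≤ finrank k V := by
  classical
  have hr := P.nine_le
  have h2' : ((2 : ℕ) : k) ≠ 0 := by exact_mod_cast h2
  set n := finrank k V with hn
  obtain ⟨s, hs⟩ : ∃ s, s = r / 4 := ⟨_, rfl⟩
  have hs2 : 2 ≤ s := by omega
  let blk : Fin s × Fin 4 ↪ Fin r := ⟨fun p => ⟨4 * p.1.val + p.2.val, by have := p.1.2; have := p.2.2; omega⟩,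
    by
      rintro ⟨i, x⟩ ⟨j, y⟩ h
      have h' : 4 * i.val + x.val = 4 * j.val + y.val := congrArg Fin.val h
      have := x.2
      have := y.2
      exact Prod.ext (Fin.ext (by simp only; omega)) (Fin.ext (by simp only; omega))⟩
  have hne : ∀ i (x y : Fin 4), x ≠ y → blk (i, x) ≠ blk (i, y) := fun i x y h e =>
    h (congrArg Prod.snd (blk.injective e))
  have hne' : ∀ i l (x y : Fin 4), i ≠ l → blk (i, x) ≠ blk (l, y) := fun i l x y h e =>
    h (congrArg Prod.fst (blk.injective e))
  have hx_ex : ∀ i, ∃ x, P.πP x = dswap (blk (i, 0)) (blk (i, 1)) (blk (i, 2)) (blk (i, 3)) := fun i =>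
    P.exists_lift (sign_dswap (hne i 0 1 (by decide)) (hne i 2 3 (by decide)))
  choose X hX using hx_ex
  let T : Fin s → ↥P.G := fun i => P.tri (blk (i, 0)) (blk (i, 1)) (blk (i, 2))
  have hT3 : ∀ i, T i ^ 3 = 1 := fun i =>
    P.tri_pow_three (hne i 0 1 (by decide)) (hne i 0 2 (by decide)) (hne i 1 2 (by decide))
  have hT : ∀ i, P.πP (T i) = cyc (blk (i, 0)) (blk (i, 1)) (blk (i, 2)) := fun i =>
    P.πP_tri (hne i 0 1 (by decide)) (hne i 0 2 (by decide)) (hne i 1 2 (by decide))
  let B : Fin s → ↥P.G := fun i => X i * T i * (X i)⁻¹ * (T i)⁻¹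
  let A : Fin s × Fin 3 → ↥P.G := fun q => T q.1 ^ q.2.val * B q.1 * (T q.1 ^ q.2.val)⁻¹
  have hA0 : ∀ i, A (i, 0) = B i := fun i => by simp [A]
  have hTA : ∀ i m, T i * A (i, m) * (T i)⁻¹ = A (i, m + 1) := by
    intro i m
    fin_cases m
    · simp [A]
    · simp [A, pow_two]; group
    · show T i * (T i ^ 2 * B i * (T i ^ 2)⁻¹) * (T i)⁻¹ = A (i, 0)
      rw [hA0, show T i * (T i ^ 2 * B i * (T i ^ 2)⁻¹) * (T i)⁻¹ = T i ^ 3 * B i * (T i ^ 3)⁻¹ by group, hT3]
      group
  have hπB : ∀ i, P.πP (B i) = dswap (blk (i, 0)) (blk (i, 2)) (blk (i, 1)) (blk (i, 3)) := by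
    intro i
    simp only [B, map_mul, map_inv, hX i, hT i]
    exact perm_comm_dswap (hne i 0 1 (by decide)) (hne i 0 2 (by decide)) (hne i 0 3 (by decide))
      (hne i 1 2 (by decide)) (hne i 1 3 (by decide)) (hne i 2 3 (by decide))
  have hB2 : ∀ i, B i * B i = 1 := by
    intro i
    have h01 := hne i 0 1 (by decide)
    have h02 := hne i 0 2 (by decide)
    have h03 := hne i 0 3 (by decide)
    have h12 := hne i 1 2 (by decide)
    have h13 := hne i 1 3 (by decide)
    have h23 := hne i 2 3 (by decide)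
    have hy : P.πP (T i * X i * (T i)⁻¹) = dswap (blk (i, 0)) (blk (i, 3)) (blk (i, 1)) (blk (i, 2)) := by
      rw [map_mul, map_mul, map_inv, hX i, hT i, conj_dswap, cyc_apply_fst h01 h02, cyc_apply_snd h02 h12,
        cyc_apply_thd, cyc_apply_of_ne h03.symm h13.symm h23.symm]
      exact (dswap_exchange h01.symm h13 h02.symm h23).symm
    have hc : Commute (X i) (T i * X i * (T i)⁻¹) := by
      have := hs1 _ _ _ _ h01 h03 h02 h13 h12 h23.symm (X i) (T i * X i * (T i)⁻¹)
        ((hX i).trans (dswap_swap _ _ _ _).symm) hy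
      rw [map_one, one_mul] at this
      exact this
    obtain ⟨c, hc2⟩ := (P.πP_eq_one_iff (X i * X i)).1 (by
      rw [map_mul, hX i, dswap_mul_self h02 h03 h12 h13])
    have e : B i = X i * (T i * X i * (T i)⁻¹)⁻¹ := by simp only [B]; group
    rw [e, (hc.inv_right).symm.mul_mul_mul_comm, hc2,
      show (T i * X i * (T i)⁻¹)⁻¹ * (T i * X i * (T i)⁻¹)⁻¹ = T i * (X i * X i)⁻¹ * (T i)⁻¹ by group, hc2,
      ← map_inv, ← P.sc_comm, mul_inv_cancel_right, ← map_mul, mul_inv_cancel, map_one]
  have hA2 : ∀ q, A q * A q = 1 := by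
    intro q
    simp only [A]
    rw [show ∀ a b : ↥P.G, a * b * a⁻¹ * (a * b * a⁻¹) = a * (b * b) * a⁻¹ from fun a b => by group, hB2,
      mul_one, mul_inv_cancel]
  have hprod : ∀ i, A (i, 0) * A (i, 1) * A (i, 2) = 1 := by
    intro i
    have e : A (i, 0) * A (i, 1) * A (i, 2) = X i * (T i ^ 3) * (X i)⁻¹ * (T i ^ 3)⁻¹ := by
      rw [show T i ^ 3 = T i * T i * T i by rw [pow_succ, pow_two]]
      simp only [A, B, Fin.val_zero, Fin.val_one, Fin.val_two]
      group
    rw [e, hT3]
    group
  have hfix : ∀ i, ∀ y : Fin r, (∀ x, y ≠ blk (i, x)) →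
      P.πP (X i) y = y ∧ P.πP (T i) y = y := fun i y hy => by
    rw [hX i, hT i]
    exact ⟨dswap_of_ne (hy _) (hy _) (hy _) (hy _), cyc_apply_of_ne (hy _) (hy _) (hy _)⟩
  have hAfix : ∀ i m, ∀ y : Fin r, (∀ x, y ≠ blk (i, x)) → P.πP (A (i, m)) y = y := by
    intro i m y hy
    obtain ⟨h1, h2⟩ := hfix i y hy
    have h1' : (P.πP (X i))⁻¹ y = y := Equiv.Perm.inv_eq_iff_eq.2 h1.symm
    have h2' : (P.πP (T i))⁻¹ y = y := Equiv.Perm.inv_eq_iff_eq.2 h2.symm
    have h3 : P.πP (B i) y = y := by
      simp only [B, map_mul, map_inv, Perm.mul_apply, h1, h2, h1', h2']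
    have h4 : ∀ e : ℕ, P.πP (T i ^ e) y = y := by
      intro e
      induction e with
      | zero => simp
      | succ e ih => rw [pow_succ, map_mul, Perm.mul_apply, h2, ih]
    simp only [A, map_mul, map_inv, Perm.mul_apply]
    rw [Equiv.Perm.inv_eq_iff_eq.2 (h4 _).symm, h3, h4]
  have disjoint_comm : ∀ (g h : ↥P.G) (i : Fin s), (∀ y : Fin r, (∀ x, y ≠ blk (i, x)) → P.πP g y = y) →
      (∀ x, P.πP h (blk (i, x)) = blk (i, x)) → Commute g h := by
    intro g h i hg hh
    refine P.commute_of_disjoint ?_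
    rw [← Perm.disjoint_iff_disjoint_support]
    intro y
    by_cases hy : ∀ x, y ≠ blk (i, x)
    · exact Or.inl (hg y hy)
    · push Not at hy
      obtain ⟨x, rfl⟩ := hy
      exact Or.inr (hh x)
  have hc : ∀ q q', Commute (P.op (A q)) (P.op (A q')) := by
    rintro ⟨i, m⟩ ⟨l, m'⟩
    refine Commute.map ?_ P.op
    by_cases hil : i = l
    · subst hil
      have h10 : Commute (A (i, 1)) (A (i, 0)) := by
        have hπ1 : P.πP (A (i, 1)) = dswap (blk (i, 0)) (blk (i, 1)) (blk (i, 2)) (blk (i, 3)) := by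
          have := congrArg P.πP (hTA i 0)
          rw [map_mul, map_mul, map_inv, hA0, hπB, hT i, conj_dswap,
            cyc_apply_fst (hne i 0 1 (by decide)) (hne i 0 2 (by decide)),
            cyc_apply_snd (hne i 0 2 (by decide)) (hne i 1 2 (by decide)), cyc_apply_thd,
            cyc_apply_of_ne (hne i 3 0 (by decide)) (hne i 3 1 (by decide)) (hne i 3 2 (by decide)),
            dswap_swap'] at this
          exact this.symm
        have := hs1 _ _ _ _ (hne i 0 1 (by decide)) (hne i 0 2 (by decide)) (hne i 0 3 (by decide))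
          (hne i 1 2 (by decide)) (hne i 1 3 (by decide)) (hne i 2 3 (by decide)) (A (i, 1)) (A (i, 0)) hπ1
          ((hA0 i).symm ▸ hπB i)
        rw [map_one, one_mul] at this
        exact this
      have h21 : Commute (A (i, 2)) (A (i, 1)) := by
        rw [show (2 : Fin 3) = 1 + 1 from rfl, ← hTA i 1]
        nth_rewrite 2 [show (1 : Fin 3) = 0 + 1 from rfl]
        rw [← hTA i 0]
        exact (Commute.conj_iff _).2 h10
      have h02 : Commute (A (i, 0)) (A (i, 2)) := by
        nth_rewrite 1 [show (0 : Fin 3) = 2 + 1 from rfl]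
        rw [← hTA i 2]
        nth_rewrite 2 [show (2 : Fin 3) = 1 + 1 from rfl]
        rw [← hTA i 1]
        exact (Commute.conj_iff _).2 h21
      fin_cases m <;> fin_cases m'
      exacts [Commute.refl _, h10.symm, h02, h10, Commute.refl _, h21.symm, h02.symm, h21, Commute.refl _]
    · exact disjoint_comm _ _ i (hAfix i m) fun x => hAfix l m' _ fun y => hne' i l x y hil
  have hA : ∀ q, P.op (A q) ^ 2 = 1 := fun q => by rw [pow_two, ← map_mul, hA2, map_one]
  let χ : (Fin s → Fin 4) → (Fin s × Fin 3 → k) := fun w q => if labelTriv (w q.1) q.2 then 1 else -1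
  have hχinj : Function.Injective χ := by
    intro a b h
    funext i
    refine labelTriv_inj _ _ fun m => ?_
    have h' := congrFun h (i, m)
    have h11 : (1 : k) ≠ -1 := fun e => h2 (by linear_combination e)
    simp only [χ] at h'
    cases ha : labelTriv (a i) m <;> cases hb : labelTriv (b i) m <;> simp [ha, hb, h11, h11.symm] at h' ⊢
  let opA : Fin s × Fin 3 → Module.End k V := fun q => P.op (A q)
  obtain ⟨S, hS, hchar⟩ : ∃ S : Finset (Fin s × Fin 3 → k), (∀ c ∈ S, ∃ w, χ w = c) ∧
      ∀ c, jointEigen opA c ≠ ⊥ → c ∈ S := by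
    refine ⟨Finset.univ.image χ, fun c hc' => ?_, fun c hc' => ?_⟩
    · obtain ⟨w, -, h⟩ := Finset.mem_image.1 hc'
      exact ⟨w, h⟩
    obtain ⟨v, hv, hv0⟩ := Submodule.exists_mem_ne_zero_of_ne_bot hc'
    have hroot : ∀ q, c q = 1 ∨ c q = -1 := fun q => by
      have h := congrArg (fun g => P.op g v) (hA2 q)
      have hq : P.op (A q) v = c q • v := mem_jointEigen.1 hv q
      simp only [map_mul, Module.End.mul_apply, hq, map_smul, smul_smul, map_one, Module.End.one_apply] at h
      exact mul_self_eq_one_iff.1 (smul_left_injective k hv0 (h.trans (one_smul k v).symm))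
    have hpr : ∀ i, c (i, 0) * c (i, 1) * c (i, 2) = 1 := fun i => by
      have h := congrArg (fun g => P.op g v) (hprod i)
      have hq : ∀ m, P.op (A (i, m)) v = c (i, m) • v := fun m => mem_jointEigen.1 hv (i, m)
      simp only [map_mul, Module.End.mul_apply, hq, map_smul, smul_smul, map_one, Module.End.one_apply] at h
      refine smul_left_injective k hv0 ?_
      simp only [one_smul]
      nth_rewrite 2 [← h]
      congr 1
      ring
    have hlab : ∀ i, ∃ x : Fin 4, ∀ m, c (i, m) = if labelTriv x m then 1 else -1 := by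
      intro i
      have h11 : (-1 : k) ≠ 1 := fun e => h2 (by linear_combination -e)
      rcases hroot (i, 0) with e0 | e0 <;> rcases hroot (i, 1) with e1 | e1 <;>
        rcases hroot (i, 2) with e2 | e2 <;> have hp := hpr i <;> rw [e0, e1, e2] at hp <;> norm_num at hp <;>
        first
        | exact absurd hp h11
        | (refine ⟨0, fun m => ?_⟩; fin_cases m <;> (simp [labelTriv, e0, e1, e2]; done))
        | (refine ⟨1, fun m => ?_⟩; fin_cases m <;> (simp [labelTriv, e0, e1, e2]; done))
        | (refine ⟨2, fun m => ?_⟩; fin_cases m <;> (simp [labelTriv, e0, e1, e2]; done))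
        | (refine ⟨3, fun m => ?_⟩; fin_cases m <;> (simp [labelTriv, e0, e1, e2]; done))
    choose w hw using hlab
    exact Finset.mem_image.2 ⟨w, Finset.mem_univ _, funext fun q => (hw q.1 q.2).symm⟩
  let E : (Fin s → Fin 4) → Submodule k V := fun w => jointEigen opA (χ w)
  have hmem : ∀ w v, v ∈ E w ↔ ∀ i m, P.op (A (i, m)) v = χ w (i, m) • v := fun w v =>
    mem_jointEigen.trans Prod.forall
  -- rotation of a block
  have hrot : ∀ l w, ∀ v ∈ E w, P.op (T l) v ∈ E (Function.update w l (rotLabel (w l))) := by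
    intro l w v hv
    rw [hmem] at hv ⊢
    intro i m
    by_cases hil : i = l
    · subst hil
      have hm : m = (m - 1) + 1 := (sub_add_cancel m 1).symm
      have hχ : χ (Function.update w i (rotLabel (w i))) (i, m) = χ w (i, m - 1) := by
        have hl : labelTriv (rotLabel (w i)) m = labelTriv (w i) (m - 1) :=
          (congrArg _ hm).trans (labelTriv_rot _ _)
        simp only [χ, Function.update_self, hl]
      rw [hχ]
      nth_rewrite 1 [hm]
      rw [← hTA i (m - 1), ← Module.End.mul_apply, ← map_mul, inv_mul_cancel_right, map_mul,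
        Module.End.mul_apply, hv i (m - 1), map_smul]
    · have hχ : χ (Function.update w l (rotLabel (w l))) (i, m) = χ w (i, m) := by
        simp only [χ, Function.update_of_ne hil]
      have hcm : Commute (A (i, m)) (T l) :=
        disjoint_comm _ _ i (hAfix i m) fun x => (hfix l _ fun y => hne' i l x y hil).2
      rw [hχ, ← Module.End.mul_apply, ← map_mul, hcm.eq, map_mul, Module.End.mul_apply, hv i m, map_smul]
  have hmove : ∀ (g : ↥P.G) w w', (∀ v ∈ E w, P.op g v ∈ E w') → finrank k ↥(E w) ≤ finrank k ↥(E w') := by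
    intro g w w' h
    rw [LinearEquiv.finrank_eq (Submodule.equivMapOfInjective _ (P.op_apply_injective g) (E w))]
    refine Submodule.finrank_mono ?_
    rintro _ ⟨v, hv, rfl⟩
    exact h v hv
  -- permutation of the blocks
  have hperm : ∀ (σ : Perm (Fin s)) w, finrank k ↥(E w) ≤ finrank k ↥(E (w ∘ σ.symm)) := by
    intro σ w
    have hQ : Perm.sign (Equiv.prodCongrLeft fun _ : Fin 4 => σ) = 1 := by
      rw [Perm.sign_prodCongrLeft, Fin.prod_univ_four]
      rcases Int.units_eq_one_or (Perm.sign σ) with h | h <;> rw [h] <;> decide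
    obtain ⟨g, hg⟩ := P.exists_lift (σ := Perm.viaEmbedding (Equiv.prodCongrLeft fun _ : Fin 4 => σ) blk)
      (by rw [Perm.viaEmbedding]; convert! (Perm.sign_extendDomain _ _).trans hQ)
    have hgblk : ∀ i x, P.πP g (blk (i, x)) = blk (σ i, x) := fun i x => by
      rw [hg, Perm.viaEmbedding_apply]; rfl
    have hgT : ∀ i, g * T i * g⁻¹ = T (σ i) := fun i => by
      simp only [T]
      rw [P.tri_conj (hne i 0 1 (by decide)) (hne i 0 2 (by decide)) (hne i 1 2 (by decide)), hgblk, hgblk, hgblk]
    have hgB : ∀ i, g * B i * g⁻¹ = B (σ i) := by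
      intro i
      obtain ⟨c, hc'⟩ := P.exists_sc_mul (g := g * X i * g⁻¹) (h := X (σ i)) (by
        rw [map_mul, map_mul, map_inv, hX, conj_dswap, hgblk, hgblk, hgblk, hgblk, hX])
      have e : g * B i * g⁻¹ = (g * X i * g⁻¹) * (g * T i * g⁻¹) * (g * X i * g⁻¹)⁻¹ * (g * T i * g⁻¹)⁻¹ := by
        simp only [B]; group
      rw [e, hc', hgT]
      simp only [B]
      rw [mul_inv_rev, ← map_inv, ← P.sc_comm c⁻¹, mul_assoc (P.sc c), mul_assoc (P.sc c),
        ← mul_assoc (X (σ i) * T (σ i)), ← P.sc_comm c⁻¹, mul_assoc (P.sc c⁻¹), ← mul_assoc (P.sc c),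
        ← map_mul, mul_inv_cancel, map_one, one_mul]
    have hgA : ∀ i m, g * A (i, m) * g⁻¹ = A (σ i, m) := by
      intro i m
      simp only [A]
      rw [← hgB i, ← hgT i, conj_pow]
      group
    refine hmove g w _ fun v hv => ?_
    rw [hmem] at hv ⊢
    intro i m
    obtain ⟨j, rfl⟩ := σ.surjective i
    have hχ : χ (w ∘ σ.symm) (σ j, m) = χ w (j, m) := by simp [χ]
    rw [hχ, ← hgA j m, ← Module.End.mul_apply, ← map_mul, inv_mul_cancel_right, map_mul, Module.End.mul_apply,
      hv j m, map_smul]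
  have trans : ∀ w w' : Fin s → Fin 4,
      (Finset.univ.filter fun i => w i ≠ 0).card = (Finset.univ.filter fun i => w' i ≠ 0).card →
      finrank k ↥(E w) ≤ finrank k ↥(E w') := by
    intro w w' hcard
    let e : {i // w i ≠ 0} ≃ {i // w' i ≠ 0} := Fintype.equivOfCardEq (by
      rw [Fintype.card_subtype, Fintype.card_subtype, hcard])
    let σ : Perm (Fin s) := e.extendSubtype
    have hsupp : ∀ i, (w ∘ σ.symm) i = 0 ↔ w' i = 0 := by
      intro i
      obtain ⟨j, rfl⟩ := σ.surjective i
      simp only [Function.comp_apply, Equiv.symm_apply_apply]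
      constructor
      · intro hj
        by_contra h
        exact Equiv.extendSubtype_not_mem e j (not_not.2 hj) h
      · intro hj
        by_contra h
        exact Equiv.extendSubtype_mem e j h hj
    have hiter : ∀ (l : Fin s) (i : ℕ) (u : Fin s → Fin 4),
        finrank k ↥(E u) ≤ finrank k ↥(E (Function.update u l (rotLabel^[i] (u l)))) := by
      intro l i
      induction i with
      | zero => intro u; rw [Function.iterate_zero_apply, Function.update_eq_self]
      | succ i ih =>
        intro u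
        refine (ih u).trans ((hmove _ _ _ (hrot l _)).trans (le_of_eq ?_))
        rw [Function.update_idem, Function.update_self, Function.iterate_succ_apply']
    have hall : ∀ (J : Finset (Fin s)) (u : Fin s → Fin 4), (∀ i, u i = 0 ↔ w' i = 0) →
        (∀ i ∉ J, u i = w' i) → finrank k ↥(E u) ≤ finrank k ↥(E w') := by
      intro J
      induction J using Finset.induction with
      | empty => intro u _ h; rw [funext fun i => h i (Finset.notMem_empty i)]
      | insert a J ha ih =>
        intro u hu h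
        obtain ⟨i, hi⟩ := exists_rot (u a) (w' a) (hu a)
        refine (hiter a i.val u).trans (ih _ (fun l => ?_) fun l hl => ?_)
        · by_cases hla : l = a
          · subst hla; rw [Function.update_self, hi]
          · rw [Function.update_of_ne hla]; exact hu l
        · by_cases hla : l = a
          · subst hla; rw [Function.update_self, hi]
          · rw [Function.update_of_ne hla]; exact h l (by simp [hla, hl])
    exact (hperm σ w).trans (hall Finset.univ _ hsupp fun i hi => absurd (Finset.mem_univ i) hi)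
  have hcount : ∀ w₀ : Fin s → Fin 4, E w₀ ≠ ⊥ →
      (suppSet s 3 (Finset.univ.filter fun i => w₀ i ≠ 0).card).card ≤ n := by
    intro w₀ hw₀
    have h1 := card_mul_le_finrank opA hc h2' hA χ hχinj
      (suppSet s 3 (Finset.univ.filter fun i => w₀ i ≠ 0).card) 1 fun w hw =>
        (Submodule.one_le_finrank_iff.2 hw₀).trans (trans w₀ w (Finset.mem_filter.1 hw).2.symm)
    simpa using h1
  by_cases hbig : ∃ w₀, E w₀ ≠ ⊥ ∧ 2 ≤ (Finset.univ.filter fun i => w₀ i ≠ 0).card
  · exfalso
    obtain ⟨w₀, hw₀, hj⟩ := hbig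
    have hle := hcount w₀ hw₀
    have hjs : (Finset.univ.filter fun i => w₀ i ≠ 0).card ≤ s := (Finset.card_le_univ _).trans (by simp)
    rw [card_suppSet] at hle
    by_cases hs3 : 3 ≤ s
    · have := three_labels_bound hs3 hj hjs
      omega
    obtain rfl : s = 2 := by omega
    generalize hjdef : (Finset.univ.filter fun i => w₀ i ≠ 0).card = j at hle hj hjs
    interval_cases j
    norm_num at hle
    have hr11 : r = 11 := by split_ifs at hsmall <;> omega
    let o : Fin 3 → Fin r := fun i => ⟨8 + i.val, by omega⟩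
    have ho : ∀ i j, i ≠ j → o i ≠ o j := fun i j h e =>
      h (Fin.ext (by simpa [o] using congrArg Fin.val e))
    let T' := P.tri (o 0) (o 1) (o 2)
    have hT' : P.πP T' = cyc (o 0) (o 1) (o 2) :=
      P.πP_tri (ho 0 1 (by decide)) (ho 0 2 (by decide)) (ho 1 2 (by decide))
    have hoff : ∀ l x, P.πP T' (blk (l, x)) = blk (l, x) := fun l x => by
      have : ∀ i, blk (l, x) ≠ o i := fun i e => by
        have e' : 4 * l.val + x.val = 8 + i.val := congrArg Fin.val e
        have := x.2
        have := l.2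
        omega
      rw [hT']
      exact cyc_apply_of_ne (this _) (this _) (this _)
    have hcA : ∀ q : Fin 2 × Fin 3, Commute (A q) T' := fun q =>
      disjoint_comm _ _ q.1 (hAfix q.1 q.2) (hoff q.1)
    have hcT : ∀ l, Commute (T l) T' := fun l =>
      disjoint_comm _ _ l (fun y hy => (hfix l y hy).2) (hoff l)
    have hfull : ∀ w, w ∈ suppSet 2 3 2 → 1 ≤ finrank k ↥(E w) := fun w hw =>
      (Submodule.one_le_finrank_iff.2 hw₀).trans (trans w₀ w (hjdef.trans (Finset.mem_filter.1 hw).2.symm))
    have hsum := sum_finrank_jointEigen_le opA hc h2' hA ((suppSet 2 3 2).image χ)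
    rw [Finset.sum_image hχinj.injOn] at hsum
    have hc9 : (suppSet 2 3 2).card = 9 := by rw [card_suppSet]; rfl
    have hn9 : n = 9 := by split_ifs at hsmall <;> omega
    have hone : ∀ w ∈ suppSet 2 3 2, finrank k ↥(E w) = 1 := by
      intro w hw
      refine le_antisymm ?_ (hfull w hw)
      by_contra hgt
      have hlt : ∑ _w ∈ suppSet 2 3 2, 1 < ∑ w ∈ suppSet 2 3 2, finrank k ↥(E w) :=
        Finset.sum_lt_sum (fun x hx => hfull x hx) ⟨w, hw, not_le.1 hgt⟩
      rw [Finset.sum_const, hc9, smul_eq_mul] at hlt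
      change ∑ x ∈ suppSet 2 3 2, finrank k ↥(E x) ≤ _ at hsum
      omega
    have hw0mem : w₀ ∈ suppSet 2 3 2 := Finset.mem_filter.2 ⟨Finset.mem_univ _, hjdef⟩
    obtain ⟨⟨v, hv⟩, hv0, hgen⟩ := finrank_eq_one_iff'.1 (hone w₀ hw0mem)
    have hT'v : P.op T' v ∈ E w₀ := by
      rw [hmem] at hv ⊢
      intro i m
      rw [← Module.End.mul_apply, ← map_mul, (hcA (i, m)).eq, map_mul, Module.End.mul_apply, hv i m, map_smul]
    obtain ⟨c, hc'⟩ := hgen ⟨_, hT'v⟩
    have hcv : c • v = P.op T' v := congrArg Subtype.val hc'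
    let K := (P.op T').eigenspace c
    have hK0 : E w₀ ≤ K := fun u hu => by
      obtain ⟨e, he⟩ := hgen ⟨u, hu⟩
      have he' : e • v = u := congrArg Subtype.val he
      rw [End.mem_eigenspace_iff, ← he', map_smul, ← hcv, smul_comm]
    have hKrot : ∀ l w, w ∈ suppSet 2 3 2 → E w ≤ K →
        Function.update w l (rotLabel (w l)) ∈ suppSet 2 3 2 ∧ E (Function.update w l (rotLabel (w l))) ≤ K := by
      intro l w hw hwK
      have hmem' : Function.update w l (rotLabel (w l)) ∈ suppSet 2 3 2 := update_rot_mem l w hw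
      refine ⟨hmem', ?_⟩
      have hmap : (E w).map (P.op (T l)) = E (Function.update w l (rotLabel (w l))) := by
        refine Submodule.eq_of_le_of_finrank_le ?_ ?_
        · rintro _ ⟨u, hu, rfl⟩; exact hrot l w u hu
        · rw [← LinearEquiv.finrank_eq (Submodule.equivMapOfInjective _ (P.op_apply_injective (T l)) (E w)),
            hone w hw, hone _ hmem']
      rw [← hmap]
      rintro _ ⟨u, hu, rfl⟩
      have := End.mem_eigenspace_iff.1 (hwK hu)
      rw [End.mem_eigenspace_iff, ← Module.End.mul_apply, ← map_mul, ← (hcT l).eq, map_mul,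
        Module.End.mul_apply, this, map_smul]
    have hall : ∀ w ∈ suppSet 2 3 2, E w ≤ K := by
      intro w hw
      have hstep : ∀ (l : Fin 2) (i : ℕ) u, u ∈ suppSet 2 3 2 → E u ≤ K →
          Function.update u l (rotLabel^[i] (u l)) ∈ suppSet 2 3 2 ∧
          E (Function.update u l (rotLabel^[i] (u l))) ≤ K := by
        intro l i
        induction i with
        | zero => intro u h1 h2; simpa using ⟨h1, h2⟩
        | succ i ih =>
          intro u h1 h2
          obtain ⟨h3, h4⟩ := ih u h1 h2
          have := hKrot l _ h3 h4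
          rwa [Function.update_idem, Function.update_self, ← Function.iterate_succ_apply' rotLabel i (u l)] at this
      have hdec : ∀ u w : Fin 2 → Fin 4, u ∈ suppSet 2 3 2 → w ∈ suppSet 2 3 2 → ∀ i, (u i = 0 ↔ w i = 0) := by
        decide +kernel
      obtain ⟨i, hi⟩ := exists_rot (w₀ 0) (w 0) (hdec w₀ w hw0mem hw 0)
      obtain ⟨j, hj'⟩ := exists_rot (w₀ 1) (w 1) (hdec w₀ w hw0mem hw 1)
      obtain ⟨h1, h2⟩ := hstep 0 i.val w₀ hw0mem hK0
      obtain ⟨-, h4⟩ := hstep 1 j.val _ h1 h2
      have e : Function.update (Function.update w₀ 0 (rotLabel^[i.val] (w₀ 0))) 1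
          (rotLabel^[j.val] (Function.update w₀ 0 (rotLabel^[i.val] (w₀ 0)) 1)) = w := by
        funext l
        fin_cases l
        · simp [hi]
        · simp [hj']
      rwa [e] at h4
    refine P.ne_scalar (g := T') ?_ c ?_
    · rw [hT']
      intro e
      have := cyc_apply_fst (ho 0 1 (by decide)) (ho 0 2 (by decide))
      rw [e] at this
      exact ho 0 1 (by decide) this
    · have hKtop : K = ⊤ := by
        refine Submodule.eq_top_of_finrank_eq ?_
        refine le_antisymm (Submodule.finrank_le _) ?_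
        have hle' : (suppSet 2 3 2).sup E ≤ K := Finset.sup_le hall
        have := Submodule.finrank_mono hle'
        rw [iSupIndep_finrank_sup E ((iSupIndep_jointEigen opA hc h2' hA).comp hχinj),
          Finset.sum_congr rfl hone, Finset.sum_const, hc9, smul_eq_mul] at this
        omega
      refine LinearMap.ext fun u => ?_
      have : u ∈ K := hKtop ▸ Submodule.mem_top
      rw [End.mem_eigenspace_iff.1 this]; rfl
  -- only weights of support at most one
  push Not at hbig
  let i0 : Fin s := ⟨0, by omega⟩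
  let single : Fin s → Fin 4 → (Fin s → Fin 4) := fun i x => Function.update 0 i x
  have hsupp : ∀ i x, x ≠ 0 → (Finset.univ.filter fun l => single i x l ≠ 0).card = 1 := by
    intro i x hx
    rw [Finset.card_eq_one]
    refine ⟨i, Finset.ext fun l => ?_⟩
    by_cases hl : l = i
    · subst hl; simp [single, hx]
    · simp [single, hl]
  set d := finrank k ↥(E (single i0 1)) with hd
  have hsd : ∀ i x, x ≠ 0 → finrank k ↥(E (single i x)) = d := fun i x hx =>
    le_antisymm (trans _ _ (by rw [hsupp i x hx, hsupp i0 1 (by decide)]))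
      (trans _ _ (by rw [hsupp i x hx, hsupp i0 1 (by decide)]))
  have hcases : ∀ w, E w ≠ ⊥ → w = 0 ∨ ∃ i x, x ≠ 0 ∧ w = single i x := by
    intro w hw
    have h := hbig w hw
    rcases Nat.eq_zero_or_pos (Finset.univ.filter fun i => w i ≠ 0).card with h0 | h1
    · left
      funext i
      by_contra hi
      exact Finset.notMem_empty i (Finset.card_eq_zero.1 h0 ▸ Finset.mem_filter.2 ⟨Finset.mem_univ _, hi⟩)
    · right
      obtain ⟨i, hi⟩ := Finset.card_eq_one.1 (by omega : (Finset.univ.filter fun i => w i ≠ 0).card = 1)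
      have hwi := (Finset.mem_filter.1 (hi ▸ Finset.mem_singleton_self i : i ∈ Finset.univ.filter fun i => w i ≠ 0)).2
      refine ⟨i, w i, hwi, funext fun l => ?_⟩
      by_cases hl : l = i
      · subst hl; simp [single]
      · have : w l = 0 := by
          by_contra hwl
          exact hl (Finset.mem_singleton.1 (hi ▸ Finset.mem_filter.2 ⟨Finset.mem_univ _, hwl⟩))
        simp [single, hl, this]
  have heig := finrank_eigenspace_eq_sum opA hc h2' hA S hchar (i0, 0) (-1 : k)
  have h11 : (1 : k) ≠ -1 := fun e => h2 (by linear_combination e)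
  have hminus : finrank k ↥((opA (i0, 0)).eigenspace (-1 : k)) = 2 * d := by
    rw [heig]
    have hpair : χ (single i0 2) ≠ χ (single i0 3) := fun h => by
      have := congrFun (hχinj h) i0
      simp [single] at this
    rw [← Finset.sum_subset (s₁ := ({χ (single i0 2), χ (single i0 3)} : Finset _).filter (fun c => c ∈ S))
      (fun c hc' => ?_) (fun c hc' hc'' => ?_),
      Finset.sum_filter_of_ne (fun c _ hc0 => hchar c fun h => hc0 (by rw [h, finrank_bot])),
      Finset.sum_pair hpair]
    · show finrank k ↥(E (single i0 2)) + finrank k ↥(E (single i0 3)) = 2 * d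
      rw [hsd i0 2 (by decide), hsd i0 3 (by decide)]; ring
    · obtain ⟨hc1, hc2⟩ := Finset.mem_filter.1 hc'
      refine Finset.mem_filter.2 ⟨hc2, ?_⟩
      rcases Finset.mem_insert.1 hc1 with rfl | h
      · simp [χ, single, labelTriv]
      · rw [Finset.mem_singleton.1 h]; simp [χ, single, labelTriv]
    · rw [Submodule.finrank_eq_zero]
      by_contra h0
      obtain ⟨hcS, hc1⟩ := Finset.mem_filter.1 hc'
      obtain ⟨w, rfl⟩ := hS c hcS
      rcases hcases w h0 with rfl | ⟨i, x, hx, rfl⟩
      · simp [χ, labelTriv, h11] at hc1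
      · by_cases hi : i = i0
        · subst hi
          have : ∀ x : Fin 4, x ≠ 0 → x = 1 ∨ x = 2 ∨ x = 3 := by decide
          rcases this x hx with rfl | rfl | rfl
          · simp [χ, single, labelTriv, h11] at hc1
          · exact hc'' (Finset.mem_filter.2 ⟨by simp, hcS⟩)
          · exact hc'' (Finset.mem_filter.2 ⟨by simp, hcS⟩)
        · simp [χ, single, labelTriv, Ne.symm hi, h11] at hc1
  have hd1 : 1 ≤ d := by
    by_contra hlt
    refine P.ne_scalar (g := A (i0, 0)) ?_ 1 ?_
    · rw [hA0, hπB]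
      intro e
      have := dswap_fst (hne i0 0 1 (by decide)) (hne i0 0 3 (by decide))
        (b := blk (i0, 2)) (d := blk (i0, 3))
      rw [e] at this
      exact hne i0 0 2 (by decide) this
    · rw [one_smul]
      refine LinearMap.ext fun y => ?_
      have h := congrArg (fun g => P.op g y) (hA2 (i0, 0))
      simp only [map_mul, Module.End.mul_apply, map_one, Module.End.one_apply] at h
      have hm : P.op (A (i0, 0)) y - y ∈ (opA (i0, 0)).eigenspace (-1 : k) := by
        rw [End.mem_eigenspace_iff]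
        show P.op (A (i0, 0)) (P.op (A (i0, 0)) y - y) = _
        rw [map_sub, h, neg_one_smul, neg_sub]
      rw [Submodule.finrank_eq_zero.1 (by omega : finrank k ↥((opA (i0, 0)).eigenspace (-1 : k)) = 0),
        Submodule.mem_bot, sub_eq_zero] at hm
      exact hm
  let W1 : Finset (Fin s × Fin 4) := Finset.univ ×ˢ Finset.univ.erase 0
  have hW1 : W1.card = 3 * s := by
    simp only [W1, Finset.card_product, Finset.card_univ, Fintype.card_fin,
      Finset.card_erase_of_mem (Finset.mem_univ _)]
    omega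
  have hinj1 : Set.InjOn (fun p : Fin s × Fin 4 => χ (single p.1 p.2)) (W1 : Set (Fin s × Fin 4)) := by
    rintro ⟨i, x⟩ hp ⟨j, y⟩ _ h
    have hx : x ≠ 0 := Finset.ne_of_mem_erase (Finset.mem_product.1 hp).2
    have h' := hχinj h
    have hij : i = j := by
      by_contra hne'
      have := congrFun h' i
      simp [single, hne'] at this
      exact hx this
    subst hij
    have := congrFun h' i
    simp [single] at this
    rw [this]
  have h3sd : 3 * s * d ≤ n := by
    refine le_trans ?_ (sum_finrank_jointEigen_le opA hc h2' hA (W1.image fun p => χ (single p.1 p.2)))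
    rw [Finset.sum_image hinj1, Finset.sum_congr rfl
      (fun p hp => hsd p.1 p.2 (Finset.ne_of_mem_erase (Finset.mem_product.1 hp).2)), Finset.sum_const, hW1,
      smul_eq_mul]
  have hd' : d = 1 := by
    by_contra hne''
    have : 3 * s * 2 ≤ 3 * s * d := Nat.mul_le_mul_left _ (by omega)
    split_ifs at hsmall <;> omega
  refine ⟨fun a b c d' hab hac had hbc hbd hcd => ?_, by
    have := Nat.le_of_eq (congrArg (3 * s * ·) hd'.symm); omega⟩
  obtain ⟨γ, hγ⟩ := exists_even_map (α := Fin r) (m := 4) (by simp; omega)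
    ![blk (i0, 0), blk (i0, 2), blk (i0, 1), blk (i0, 3)] ![a, b, c, d']
    (by
      have hp : Function.Injective (![(i0, 0), (i0, 2), (i0, 1), (i0, 3)] : Fin 4 → Fin s × Fin 4) := by
        intro i j
        fin_cases i <;> fin_cases j <;> simp
      have := blk.injective.comp hp
      intro i j h
      apply this
      fin_cases i <;> fin_cases j <;> exact h)
    (by intro i j; fin_cases i <;> fin_cases j <;> simp <;> grind)
  obtain ⟨g, hg⟩ := P.exists_lift (Perm.mem_alternatingGroup.1 γ.2)
  refine ⟨g * A (i0, 0) * g⁻¹, ?_, ?_, ?_⟩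
  · rw [map_mul, map_mul, map_inv, hA0, hπB, hg, conj_dswap, show γ.1 (blk (i0, 0)) = a from hγ 0,
      show γ.1 (blk (i0, 2)) = b from hγ 1, show γ.1 (blk (i0, 1)) = c from hγ 2,
      show γ.1 (blk (i0, 3)) = d' from hγ 3]
  · rw [show g * A (i0, 0) * g⁻¹ * (g * A (i0, 0) * g⁻¹) = g * (A (i0, 0) * A (i0, 0)) * g⁻¹ by group, hA2,
      mul_one, mul_inv_cancel]
  · have e : (P.op (g * A (i0, 0) * g⁻¹)).eigenspace (-1 : k) =
        ((opA (i0, 0)).eigenspace (-1 : k)).map (P.op g) := by
      ext v
      rw [End.mem_eigenspace_iff, Submodule.mem_map]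
      constructor
      · intro h
        refine ⟨P.op g⁻¹ v, End.mem_eigenspace_iff.2 ?_, P.op_apply_inv g v⟩
        apply P.op_apply_injective g
        rw [map_smul, P.op_apply_inv]
        simpa [opA] using h
      · rintro ⟨u, hu, rfl⟩
        rw [End.mem_eigenspace_iff] at hu
        rw [map_mul, map_mul, Module.End.mul_apply, Module.End.mul_apply, P.op_inv_apply,
          show P.op (A (i0, 0)) u = _ from hu, map_smul]
    rw [e, ← LinearEquiv.finrank_eq (Submodule.equivMapOfInjective _ (P.op_apply_injective g) _), hminus, hd']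

end AltProj

end Cfsg.Agent.H63.AltSec
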