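import Cfsg.Agent.H63.AltSec.CharTwoLines
import Cfsg.Agent.H63.AltSec.OddLines

/-!
# Reduction of alternating sections of linear groups to projective representations
-/

set_option linter.unusedSectionVars false
set_option maxHeartbeats 1000000

namespace Cfsg.Agent.H63.AltSec

open Module Equiv

section Weights

variable {k M : Type*} [Field k] [AddCommGroup M] [Module k M] {ι : Type*} (A : ι → End k M)
  (hc : ∀ i j, Commute (A i) (A j))

include hc in
theorem iSupIndep_jointEigen_comm : iSupIndep (jointEigen A) := by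
  refine iSupIndep.mono (End.independent_iInf_maxGenEigenspace_of_forall_mapsTo A
    fun i j φ => End.mapsTo_maxGenEigenspace_of_comm (hc j i) φ) fun χ => ?_
  exact iInf_mono fun i => End.eigenspace_le_maxGenEigenspace

include hc in
theorem exists_common_eigenvector [IsAlgClosed k] [FiniteDimensional k M] [Nontrivial M] [Finite ι] :
    ∃ χ : ι → k, jointEigen A χ ≠ ⊥ := by
  classical
  haveI := Fintype.ofFinite ι
  have h : ∀ S : Finset ι, ∃ (χ : ι → k) (W : Submodule k M), W ≠ ⊥ ∧
      (∀ i ∈ S, ∀ v ∈ W, A i v = χ i • v) ∧ ∀ j, ∀ v ∈ W, A j v ∈ W := by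
    intro S
    induction S using Finset.induction with
    | empty => exact ⟨0, ⊤, top_ne_bot, fun i hi => absurd hi (Finset.notMem_empty i), fun j v _ => trivial⟩
    | insert a S ha ih =>
      obtain ⟨χ, W, hW, hS, hinv⟩ := ih
      haveI : Nontrivial ↥W := Submodule.nontrivial_iff_ne_bot.2 hW
      obtain ⟨μ, hμ⟩ := End.exists_eigenvalue ((A a).restrict (hinv a))
      obtain ⟨w, hw⟩ := hμ.exists_hasEigenvector
      refine ⟨Function.update χ a μ, W ⊓ (A a).eigenspace μ, ?_, fun i hi v hv => ?_, fun j v hv => ?_⟩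
      · intro hbot
        apply hw.2
        have h1 : (A a) (w : M) = μ • (w : M) := congrArg Subtype.val hw.apply_eq_smul
        exact Subtype.ext ((Submodule.eq_bot_iff _).1 hbot _ ⟨w.2, End.mem_eigenspace_iff.2 h1⟩)
      · by_cases hia : i = a
        · subst hia; rw [Function.update_self]; exact End.mem_eigenspace_iff.1 hv.2
        · rw [Function.update_of_ne hia]
          exact hS i ((Finset.mem_insert.1 hi).resolve_left hia) v hv.1
      · refine ⟨hinv j v hv.1, End.mem_eigenspace_iff.2 ?_⟩
        rw [← Module.End.mul_apply, (hc a j).eq, Module.End.mul_apply, End.mem_eigenspace_iff.1 hv.2, map_smul]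
  obtain ⟨χ, W, hW, hS, -⟩ := h Finset.univ
  exact ⟨χ, fun hbot => hW (eq_bot_iff.2 (hbot ▸ fun v hv =>
    mem_jointEigen.2 fun i => hS i (Finset.mem_univ i) v hv))⟩

end Weights

section Basics

variable {r : ℕ} (hr : 9 ≤ r)

include hr in
theorem isSimpleGroup_alt : IsSimpleGroup (alternatingGroup (Fin r)) :=
  alternatingGroup.isSimpleGroup (by simp; omega)

include hr in
theorem center_alt : Subgroup.center (alternatingGroup (Fin r)) = ⊥ :=
  alternatingGroup.center_eq_bot (by simp; omega)

include hr in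
theorem commutator_alt : commutator (alternatingGroup (Fin r)) = ⊤ :=
  _root_.commutator_alternatingGroup_eq_top (by simp; omega)

include hr in
theorem nontrivial_alt : Nontrivial (alternatingGroup (Fin r)) :=
  @IsSimpleGroup.toNontrivial _ _ (isSimpleGroup_alt hr)

include hr in
theorem alt_not_comm : ¬ ∀ a b : alternatingGroup (Fin r), Commute a b := by
  intro h
  haveI := nontrivial_alt hr
  have htop : Subgroup.center (alternatingGroup (Fin r)) = ⊤ :=
    (Subgroup.eq_top_iff' _).2 fun a => Subgroup.mem_center_iff.2 fun b => (h b a).eq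
  rw [center_alt hr] at htop
  exact bot_ne_top htop

variable {H : Type*} [Group H] (π : H →* alternatingGroup (Fin r)) (hπ : Function.Surjective π)
  (hmin : ∀ K : Subgroup H, K.map π = ⊤ → K = ⊤)

include hr hπ hmin in
/-- Normal subgroups of a minimal cover are small or everything. -/
theorem normal_dichotomy (N : Subgroup H) [N.Normal] : N ≤ π.ker ∨ N = ⊤ := by
  haveI := isSimpleGroup_alt hr
  rcases (Subgroup.Normal.map (inferInstance : N.Normal) π hπ).eq_bot_or_eq_top with h | h
  · exact Or.inl ((Subgroup.map_eq_bot_iff N).1 h)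
  · exact Or.inr (hmin N h)

include hr hπ hmin in
theorem commutator_eq_top_of_min : commutator H = ⊤ := by
  apply hmin
  rw [map_commutator_eq, π.range_eq_top.2 hπ, ← commutator_def, commutator_alt hr]

include hr hπ hmin in
theorem hom_trivial_of_comm {A : Type*} [CommGroup A] (f : H →* A) (x : H) : f x = 1 := by
  have h : commutator H ≤ f.ker := Abelianization.commutator_subset_ker f
  rw [commutator_eq_top_of_min hr π hπ hmin] at h
  exact h (Subgroup.mem_top x)

include hπ in
theorem card_alt_le_index {C : Subgroup H} [Finite H] (h : C ≤ π.ker) :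
    Nat.card (alternatingGroup (Fin r)) ≤ C.index := by
  have h1 : π.ker.index = Nat.card (alternatingGroup (Fin r)) := by
    rw [Subgroup.index_ker, π.range_eq_top.2 hπ, Subgroup.card_top]
  rw [← h1]
  exact Nat.le_of_dvd (Nat.pos_of_ne_zero Subgroup.index_ne_zero_of_finite) (Subgroup.index_dvd_of_le h)

end Basics

section Linearise

variable {q : ℕ} [Fact q.Prime] {M : Type*} [AddCommGroup M] [Module (ZMod q) M] [Module.Finite (ZMod q) M]

/-- Extension of scalars of an endomorphism of a `ZMod q`-module, in coordinates. -/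
noncomputable def extendScalars (k : Type*) [Field k] [Algebra (ZMod q) k] :
    End (ZMod q) M →* End k (Fin (finrank (ZMod q) M) → k) :=
  ((Matrix.toLinAlgEquiv' : Matrix _ _ k ≃ₐ[k] _).toRingEquiv.toRingHom.comp
    ((algebraMap (ZMod q) k).mapMatrix.comp
      (LinearMap.toMatrixAlgEquiv (Module.finBasis (ZMod q) M)).toRingEquiv.toRingHom)).toMonoidHom

theorem extendScalars_injective (k : Type*) [Field k] [Algebra (ZMod q) k] :
    Function.Injective (extendScalars (q := q) (M := M) k) :=
  ((Matrix.toLinAlgEquiv' : Matrix _ _ k ≃ₐ[k] _).injective).comp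
    ((Matrix.map_injective (algebraMap (ZMod q) k).injective).comp (LinearMap.toMatrixAlgEquiv _).injective)

theorem exists_linearisation_of_module (q : ℕ) [Fact q.Prime] (D : Type) [CommGroup D] [Finite D]
    [Module (ZMod q) (Additive D)] :
    ∃ a : ℕ, Nat.card D = q ^ a ∧
      ∃ f : MulAut D →* Module.End (AlgebraicClosure (ZMod q)) (Fin a → AlgebraicClosure (ZMod q)),
        Function.Injective f ∧ Nat.card (MulAut D) ≤ q ^ (a * a) := by
  haveI : Finite (Additive D) := Finite.of_equiv D Additive.ofMul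
  haveI : Module.Finite (ZMod q) (Additive D) := Module.Finite.of_finite
  let lin : MulAut D →* Module.End (ZMod q) (Additive D) :=
    { toFun := fun f => (MonoidHom.toAdditive f.toMonoidHom).toZModLinearMap q
      map_one' := LinearMap.ext fun x => rfl
      map_mul' := fun f g => LinearMap.ext fun x => rfl }
  have hlin : Function.Injective lin := fun f g h =>
    MulEquiv.ext fun x => congrArg Additive.toMul (LinearMap.congr_fun h (Additive.ofMul x))
  refine ⟨finrank (ZMod q) (Additive D), ?_, (extendScalars (q := q) (M := Additive D) _).comp lin,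
    (extendScalars_injective (q := q) (M := Additive D) _).comp hlin, ?_⟩
  · rw [Nat.card_congr (Additive.ofMul : D ≃ Additive D), Module.natCard_eq_pow_finrank (K := ZMod q),
      Nat.card_zmod]
  · haveI : Finite (Module.End (ZMod q) (Additive D)) := Module.finite_of_finite (ZMod q)
    refine (Nat.card_le_card_of_injective lin hlin).trans (le_of_eq ?_)
    rw [Module.natCard_eq_pow_finrank (K := ZMod q), Nat.card_zmod, Module.finrank_linearMap]

theorem exists_linearisation (q : ℕ) [Fact q.Prime] (D : Type) [CommGroup D] [Finite D]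
    (hq : ∀ x : D, x ^ q = 1) :
    ∃ a : ℕ, Nat.card D = q ^ a ∧
      ∃ f : MulAut D →* Module.End (AlgebraicClosure (ZMod q)) (Fin a → AlgebraicClosure (ZMod q)),
        Function.Injective f ∧ Nat.card (MulAut D) ≤ q ^ (a * a) :=
  @exists_linearisation_of_module q _ D _ _ (AddCommGroup.zmodModule fun x =>
    Additive.toMul.injective (by rw [toMul_nsmul]; exact hq _))

end Linearise

/-- The statement proved by induction on the dimension. -/
def SecBound (n : ℕ) : Prop :=
  ∀ (p : ℕ) [Fact p.Prime] (k : Type) [Field k] [IsAlgClosed k] [CharP k p] (V : Type) [AddCommGroup V]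
    [Module k V] [FiniteDimensional k V], finrank k V = n → ∀ (r : ℕ), 9 ≤ r → ∀ (H : Type) [Group H] [Finite H]
    (π : H →* alternatingGroup (Fin r)), Function.Surjective π → ∀ ρ : H →* (Module.End k V)ˣ,
    ρ.ker ≤ π.ker → r - 1 - (if p ∣ r then 1 else 0) ≤ n

section Irreducible

variable {k : Type} [Field k] [IsAlgClosed k] {V : Type} [AddCommGroup V] [Module k V] [FiniteDimensional k V]
  {r : ℕ} (hr : 9 ≤ r) {H : Type} [Group H] [Finite H] (π : H →* alternatingGroup (Fin r))
  (hπ : Function.Surjective π) (hmin : ∀ K : Subgroup H, K.map π = ⊤ → K = ⊤)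
  (ρ : H →* (Module.End k V)ˣ) (hρ : Function.Injective ρ)
  (hirr : ∀ W : Submodule k V, (∀ h : H, ∀ v ∈ W, (ρ h : Module.End k V) v ∈ W) → W = ⊥ ∨ W = ⊤)

/-- The elements acting as scalars. -/
def scalarPart : Subgroup H := ((scalarUnit k V).range).comap ρ

include hρ in
theorem scalarPart_le_center : scalarPart ρ ≤ Subgroup.center H := by
  rintro h ⟨c, hc⟩
  refine Subgroup.mem_center_iff.2 fun g => hρ ?_
  rw [map_mul, map_mul, ← hc]
  refine Units.ext ?_
  exact ((Algebra.commutes (c : k) (ρ g : Module.End k V))).symm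

include hr hπ hρ in
theorem scalarPart_le_ker : scalarPart ρ ≤ π.ker := by
  intro h hh
  have hc := Subgroup.mem_center_iff.1 (scalarPart_le_center ρ hρ hh)
  rw [MonoidHom.mem_ker, ← Subgroup.mem_bot, ← center_alt hr, Subgroup.mem_center_iff]
  intro a
  obtain ⟨g, rfl⟩ := hπ a
  rw [← map_mul, ← map_mul, hc g]

include hρ in
theorem scalarPart_normal : (scalarPart ρ).Normal :=
  ⟨fun a ha g => by
    rw [Subgroup.mem_center_iff.1 (scalarPart_le_center ρ hρ ha) g, mul_inv_cancel_right]; exact ha⟩

include hr hπ hmin hρ hirr in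
/-- Abelian normal subgroups in the kernel are scalar. -/
theorem abelian_normal_scalar (hn : finrank k V + 1 < r) (hV : Nontrivial V) (N : Subgroup H) [N.Normal]
    (hN : N ≤ π.ker) (hab : ∀ x ∈ N, ∀ y ∈ N, Commute x y) : N ≤ scalarPart ρ := by
  classical
  let A : ↥N → End k V := fun x => (ρ x.1 : Module.End k V)
  have hc : ∀ i j, Commute (A i) (A j) := fun i j => by
    show (ρ i.1 : Module.End k V) * ρ j.1 = ρ j.1 * ρ i.1
    rw [← Units.val_mul, ← map_mul, (hab i.1 i.2 j.1 j.2).eq, map_mul, Units.val_mul]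
  have hind := iSupIndep_jointEigen_comm A hc
  obtain ⟨χ₀, hχ₀⟩ := exists_common_eigenvector A hc
  let Ω := {χ : ↥N → k // jointEigen A χ ≠ ⊥}
  letI : Fintype Ω := hind.fintypeNeBotOfFiniteDimensional
  have hcard : Fintype.card Ω ≤ finrank k V := hind.subtype_ne_bot_le_finrank
  let act : H → (↥N → k) → (↥N → k) := fun g χ x =>
    χ ⟨g⁻¹ * x.1 * g, by simpa using Subgroup.Normal.conj_mem (inferInstance : N.Normal) x.1 x.2 g⁻¹⟩
  have hmap : ∀ g χ, ∀ v ∈ jointEigen A χ, (ρ g : Module.End k V) v ∈ jointEigen A (act g χ) := by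
    intro g χ v hv
    refine mem_jointEigen.2 fun x => ?_
    have h := mem_jointEigen.1 hv ⟨g⁻¹ * x.1 * g, by
      simpa using Subgroup.Normal.conj_mem (inferInstance : N.Normal) x.1 x.2 g⁻¹⟩
    show (ρ x.1 : Module.End k V) ((ρ g : Module.End k V) v) = _
    rw [← Module.End.mul_apply, ← Units.val_mul, ← map_mul, show x.1 * g = g * (g⁻¹ * x.1 * g) by group,
      map_mul, Units.val_mul, Module.End.mul_apply]
    rw [show (ρ (g⁻¹ * x.1 * g) : Module.End k V) v = _ from h, map_smul]
  have hne : ∀ g χ, jointEigen A χ ≠ ⊥ → jointEigen A (act g χ) ≠ ⊥ := by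
    intro g χ h hbot
    obtain ⟨v, hv, hv0⟩ := Submodule.exists_mem_ne_zero_of_ne_bot h
    apply hv0
    have h1 := (Submodule.eq_bot_iff _).1 hbot _ (hmap g χ v hv)
    calc v = ((ρ g)⁻¹ * ρ g : (Module.End k V)ˣ).val v := by rw [inv_mul_cancel]; rfl
      _ = _ := by rw [Units.val_mul, Module.End.mul_apply, h1, map_zero]
  have act_one : ∀ χ, act 1 χ = χ := fun χ => funext fun x => congrArg χ (Subtype.ext (by simp))
  have act_mul : ∀ g h χ, act (g * h) χ = act g (act h χ) := fun g h χ =>
    funext fun x => congrArg χ (Subtype.ext (by simp only; group))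
  let φ : H →* Equiv.Perm Ω :=
    MonoidHom.mk' (fun g =>
      { toFun := fun χ => ⟨act g χ.1, hne g χ.1 χ.2⟩
        invFun := fun χ => ⟨act g⁻¹ χ.1, hne g⁻¹ χ.1 χ.2⟩
        left_inv := fun χ => Subtype.ext (by simp only; rw [← act_mul, inv_mul_cancel, act_one])
        right_inv := fun χ => Subtype.ext (by simp only; rw [← act_mul, mul_inv_cancel, act_one]) })
      fun g h => Equiv.ext fun χ => Subtype.ext (act_mul g h χ.1)
  rcases normal_dichotomy hr π hπ hmin φ.ker with hker | hker
  · exfalso
    haveI := Fin.nontrivial_iff_two_le.2 (show 2 ≤ r by omega)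
    have h1 := card_alt_le_index π hπ hker
    have h2 : φ.ker.index ≤ Nat.factorial (finrank k V) := by
      rw [Subgroup.index_ker]
      refine le_trans (Nat.card_le_card_of_injective φ.range.subtype Subtype.val_injective) ?_
      rw [Nat.card_perm, Nat.card_eq_fintype_card]
      exact Nat.factorial_le hcard
    have h3 := two_mul_nat_card_alternatingGroup (α := Fin r)
    rw [Nat.card_perm, Nat.card_fin] at h3
    have h4 : Nat.factorial (finrank k V) ≤ Nat.factorial (r - 2) := Nat.factorial_le (by omega)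
    have h5 : Nat.factorial r = r * ((r - 1) * Nat.factorial (r - 2)) := by
      obtain ⟨m, rfl⟩ := Nat.exists_eq_add_of_le (show 2 ≤ r by omega)
      rw [show 2 + m - 2 = m by omega, show 2 + m - 1 = m + 1 by omega, show 2 + m = m + 2 by omega,
        Nat.factorial_succ, Nat.factorial_succ]
    have h7 : 9 * (8 * Nat.factorial (r - 2)) ≤ Nat.factorial r := by
      rw [h5]; exact Nat.mul_le_mul hr (Nat.mul_le_mul_right _ (by omega))
    have := Nat.factorial_pos (r - 2)
    omega
  · have hall : ∀ g, act g χ₀ = χ₀ := fun g => by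
      have hg : φ g = 1 := MonoidHom.mem_ker.1 (hker ▸ Subgroup.mem_top g)
      exact congrArg Subtype.val (Equiv.congr_fun hg ⟨χ₀, hχ₀⟩)
    have htop : jointEigen A χ₀ = ⊤ :=
      (hirr _ fun g v hv => (hall g) ▸ hmap g χ₀ v hv).resolve_left hχ₀
    intro x hx
    have h : ∀ v, (ρ x : Module.End k V) v = χ₀ ⟨x, hx⟩ • v := fun v =>
      mem_jointEigen.1 (htop.symm ▸ Submodule.mem_top : v ∈ jointEigen A χ₀) ⟨x, hx⟩
    have h0 : χ₀ ⟨x, hx⟩ ≠ 0 := fun h0 => by
      obtain ⟨v, hv⟩ := exists_ne (0 : V)
      apply hv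
      calc v = ((ρ x)⁻¹ * ρ x : (Module.End k V)ˣ).val v := by rw [inv_mul_cancel]; rfl
        _ = _ := by rw [Units.val_mul, Module.End.mul_apply, h, h0, zero_smul, map_zero]
    exact ⟨Units.mk0 _ h0, Units.ext (LinearMap.ext fun v => by rw [h]; rfl)⟩

include hr hπ hmin hρ hirr in
/-- If the kernel is not scalar there is an extraspecial-type section forcing a large degree. -/
theorem bound_nonscalar (p : ℕ) (hn : finrank k V + 1 < r) (hV : Nontrivial V)
    (hrec : ∀ a < finrank k V, SecBound a) (hK : ¬ π.ker ≤ scalarPart ρ) : False := by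
  classical
  set n := finrank k V with hnd
  haveI := scalarPart_normal ρ hρ
  -- a Sylow subgroup of the kernel outside the scalars
  obtain ⟨q, hq, Q, hQn, hQp, hQK, hQS⟩ : ∃ (q : ℕ) (_ : Fact q.Prime) (Q : Subgroup H), Q.Normal ∧
      IsPGroup q ↥Q ∧ Q ≤ π.ker ∧ ¬ Q ≤ scalarPart ρ := by
    by_contra hcon
    apply hK
    have hidx : ∀ q, q.Prime → ¬ q ∣ ((scalarPart ρ).subgroupOf π.ker).index := by
      intro q hq
      haveI := Fact.mk hq
      let P : Sylow q ↥π.ker := default
      have hPS : (P : Subgroup ↥π.ker) ≤ (scalarPart ρ).subgroupOf π.ker := by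
        by_contra hPS
        apply hcon
        have hnorm : Subgroup.normalizer ((P : Subgroup ↥π.ker).map π.ker.subtype : Set H) = ⊤ := by
          apply hmin
          have h := congrArg (Subgroup.map π) (P.normalizer_sup_eq_top)
          rwa [Subgroup.map_sup, (Subgroup.map_eq_bot_iff π.ker).2 le_rfl, sup_bot_eq,
            ← MonoidHom.range_eq_map, π.range_eq_top.2 hπ] at h
        refine ⟨q, ⟨hq⟩, (P : Subgroup ↥π.ker).map π.ker.subtype, Subgroup.normalizer_eq_top_iff.1 hnorm,
          P.2.map _, Subgroup.map_subtype_le _, fun hle => hPS fun x hx => ?_⟩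
        exact hle (Subgroup.mem_map_of_mem _ hx)
      intro hdvd
      exact P.not_dvd_index (dvd_trans hdvd (Subgroup.index_dvd_of_le hPS))
    have h1 : ((scalarPart ρ).subgroupOf π.ker).index = 1 := by
      by_contra h
      obtain ⟨q, hq, hdvd⟩ := Nat.exists_prime_and_dvd h
      exact hidx q hq hdvd
    rwa [Subgroup.index_eq_one, Subgroup.subgroupOf_eq_top] at h1
  -- the elementary abelian centre part modulo scalars
  let mk := QuotientGroup.mk' (scalarPart ρ)
  have hmk : ∀ x, mk x = 1 ↔ x ∈ scalarPart ρ := fun x => QuotientGroup.eq_one_iff x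
  have hmks : Function.Surjective mk := QuotientGroup.mk'_surjective _
  let Qb := Q.map mk
  haveI : Qb.Normal := hQn.map _ hmks
  have hQbp : IsPGroup q ↥Qb := hQp.map mk
  let D : Subgroup (H ⧸ scalarPart ρ) :=
    { carrier := {x | x ∈ Qb ∧ x ^ q = 1 ∧ ∀ y ∈ Qb, Commute x y}
      one_mem' := ⟨Qb.one_mem, one_pow q, fun y _ => Commute.one_left y⟩
      mul_mem' := fun {a b} ha hb => ⟨Qb.mul_mem ha.1 hb.1,
        by rw [Commute.mul_pow (ha.2.2 b hb.1), ha.2.1, hb.2.1, one_mul],
        fun y hy => (ha.2.2 y hy).mul_left (hb.2.2 y hy)⟩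
      inv_mem' := fun {a} ha => ⟨Qb.inv_mem ha.1, by rw [inv_pow, ha.2.1, inv_one],
        fun y hy => (ha.2.2 y hy).inv_left⟩ }
  haveI hDn : D.Normal := ⟨fun x hx g => ⟨Subgroup.Normal.conj_mem inferInstance x hx.1 g,
    by rw [conj_pow, hx.2.1, mul_one, mul_inv_cancel], fun y hy => by
      have h := hx.2.2 (g⁻¹ * y * g) (by simpa using Subgroup.Normal.conj_mem (inferInstance : Qb.Normal) y hy g⁻¹)
      show _ = _
      calc g * x * g⁻¹ * y = g * (x * (g⁻¹ * y * g)) * g⁻¹ := by group
        _ = y * (g * x * g⁻¹) := by rw [h.eq]; group⟩⟩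
  have hDne : D ≠ ⊥ := by
    haveI : Nontrivial ↥Qb := (Subgroup.nontrivial_iff_ne_bot _).2 fun h =>
      hQS fun x hx => (hmk x).1 ((Subgroup.eq_bot_iff_forall _).1 h _ (Subgroup.mem_map_of_mem _ hx))
    haveI := hQbp.center_nontrivial
    obtain ⟨z, hz⟩ := exists_prime_orderOf_dvd_card' (G := ↥(Subgroup.center ↥Qb)) q (by
      obtain ⟨m, hm⟩ := (IsPGroup.iff_card.1 (hQbp.to_subgroup (Subgroup.center ↥Qb)))
      rw [hm]
      refine dvd_pow_self q fun h0 => ?_
      rw [h0, pow_zero] at hm
      have := Finite.one_lt_card (α := ↥(Subgroup.center ↥Qb))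
      omega)
    intro h
    have hzq : z ^ q = 1 := hz ▸ pow_orderOf_eq_one z
    have h1 : z = 1 := Subtype.ext (Subtype.ext ((Subgroup.eq_bot_iff_forall _).1 h _
      ⟨z.1.2, congrArg (fun w : ↥(Subgroup.center ↥Qb) => ((w : ↥Qb) : H ⧸ scalarPart ρ)) hzq,
        fun y hy => congrArg Subtype.val ((Subgroup.mem_center_iff.1 z.2 ⟨y, hy⟩).symm)⟩))
    rw [h1, orderOf_one] at hz
    exact hq.out.one_lt.ne hz
  have hDcomm : ∀ x ∈ D, ∀ y ∈ D, Commute x y := fun x hx y hy => hx.2.2 y hy.1
  let D1 := D.comap mk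
  haveI : D1.Normal := hDn.comap mk
  have hD1K : D1 ≤ π.ker := fun x hx => by
    obtain ⟨y, hy, hxy⟩ := hx.1
    have h : x * y⁻¹ ∈ scalarPart ρ := (hmk _).1 (by rw [map_mul, map_inv, hxy, mul_inv_cancel])
    have := π.ker.mul_mem (scalarPart_le_ker hr π hπ ρ hρ h) (hQK hy)
    rwa [inv_mul_cancel_right] at this
  have hcen : ∀ x y, mk x = mk y → ∃ s ∈ scalarPart ρ, x = s * y := fun x y h =>
    ⟨x * y⁻¹, (hmk _).1 (by rw [map_mul, map_inv, h, mul_inv_cancel]), (inv_mul_cancel_right x y).symm⟩
  -- the radical is scalar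
  let R : Subgroup H := D1 ⊓ Subgroup.centralizer (D1 : Set H)
  haveI : (Subgroup.centralizer (D1 : Set H)).Normal :=
    ⟨fun x hx g => Subgroup.mem_centralizer_iff.2 fun y hy => by
      have h := Subgroup.mem_centralizer_iff.1 hx (g⁻¹ * y * g)
        (by simpa using Subgroup.Normal.conj_mem (inferInstance : D1.Normal) y hy g⁻¹)
      calc y * (g * x * g⁻¹) = g * (g⁻¹ * y * g * x) * g⁻¹ := by group
        _ = g * x * g⁻¹ * y := by rw [h]; group⟩
  have hR : R ≤ scalarPart ρ := abelian_normal_scalar hr π hπ hmin ρ hρ hirr hn hV R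
    (inf_le_left.trans hD1K) fun x hx y hy => (Subgroup.mem_centralizer_iff.1 hx.2 y hy.1).symm
  choose t ht using fun m : ↥D => hmks m.1
  have htD1 : ∀ m, t m ∈ D1 := fun m => by show mk (t m) ∈ D; rw [ht]; exact m.2
  have hcommS : ∀ x ∈ D1, ∀ y ∈ D1, ∃ s ∈ scalarPart ρ, x * y = s * (y * x) := fun x hx y hy =>
    hcen _ _ (by rw [map_mul, map_mul, (hDcomm _ hx _ hy).eq])
  -- independent operators
  have hsq : Nat.card ↥D ≤ n * n := by
    let L : ↥D1 → End k (Module.End k V) := fun y =>
      (LinearMap.mulLeft k (ρ y.1 : Module.End k V)).comp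
        (LinearMap.mulRight k (((ρ y.1)⁻¹ : (Module.End k V)ˣ) : Module.End k V))
    have hL : ∀ y X, L y X = (ρ y.1 : Module.End k V) * X * (((ρ y.1)⁻¹ : (Module.End k V)ˣ) : Module.End k V) :=
      fun y X => by simp [L, mul_assoc]
    have hLc : ∀ i j, Commute (L i) (L j) := by
      intro i j
      refine LinearMap.ext fun X => ?_
      obtain ⟨s, ⟨c, hc⟩, hs⟩ := hcommS i.1 i.2 j.1 j.2
      show L i (L j X) = L j (L i X)
      rw [hL, hL, hL, hL]
      have e1 : ρ i.1 * ρ j.1 = scalarUnit k V c * (ρ j.1 * ρ i.1) := by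
        rw [← map_mul, hs, map_mul, hc, map_mul]
      have hcX : ∀ Y : Module.End k V, (scalarUnit k V c : Module.End k V) * Y = Y * scalarUnit k V c :=
        fun Y => Algebra.commutes (c : k) Y
      calc _ = ((ρ i.1 * ρ j.1 : (Module.End k V)ˣ) : Module.End k V) * X *
            (((ρ i.1 * ρ j.1)⁻¹ : (Module.End k V)ˣ) : Module.End k V) := by
            rw [mul_inv_rev, Units.val_mul, Units.val_mul]; simp only [mul_assoc]
        _ = _ := by
            rw [e1]
            rw [show ∀ (z w : (Module.End k V)ˣ) (Y : Module.End k V),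
                ((z * w : (Module.End k V)ˣ) : Module.End k V) * Y * (((z * w)⁻¹ : (Module.End k V)ˣ) : Module.End k V) =
                (z : Module.End k V) * ((w : Module.End k V) * Y * ((w⁻¹ : (Module.End k V)ˣ) : Module.End k V)) *
                  ((z⁻¹ : (Module.End k V)ˣ) : Module.End k V) from fun z w Y => by simp [mul_assoc],
              hcX, mul_assoc _ (scalarUnit k V c : Module.End k V), Units.mul_inv, mul_one, mul_inv_rev,
              Units.val_mul, Units.val_mul]
            simp only [mul_assoc]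
    choose s hs hst using fun (m : ↥D) (y : ↥D1) => hcommS y.1 y.2 (t m) (htD1 m)
    choose c hc using hs
    let χ : ↥D → ↥D1 → k := fun m y => c m y
    have hmem : ∀ m, (ρ (t m) : Module.End k V) ∈ jointEigen L (χ m) := fun m => by
      refine mem_jointEigen.2 fun y => ?_
      have e : ρ y.1 * ρ (t m) * (ρ y.1)⁻¹ = scalarUnit k V (c m y) * ρ (t m) := by
        rw [← map_mul, ← map_inv, ← map_mul, hst m y, ← mul_assoc, mul_inv_cancel_right, map_mul, hc]
      rw [hL, ← Units.val_mul, ← Units.val_mul, e, Units.val_mul]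
      exact (Algebra.smul_def (c m y : k) (ρ (t m) : Module.End k V)).symm
    have hinj : Function.Injective χ := by
      intro m m' h
      have hce : ∀ y, c m y = c m' y := fun y => Units.ext (congrFun h y)
      have hRmem : t m * (t m')⁻¹ ∈ R := by
        refine ⟨D1.mul_mem (htD1 m) (D1.inv_mem (htD1 m')), Subgroup.mem_centralizer_iff.2 fun y hy => ?_⟩
        have e1 := hst m ⟨y, hy⟩
        have e2 := hst m' ⟨y, hy⟩
        have hse : s m ⟨y, hy⟩ = s m' ⟨y, hy⟩ := hρ (by rw [← hc, ← hc, hce])
        have hs2 := Subgroup.mem_center_iff.1 (scalarPart_le_center ρ hρ ⟨c m' ⟨y, hy⟩, hc m' ⟨y, hy⟩⟩)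
        simp only at e1 e2
        rw [hse] at e1
        have e3 : y * (t m')⁻¹ = (s m' ⟨y, hy⟩)⁻¹ * ((t m')⁻¹ * y) := by
          rw [eq_inv_mul_iff_mul_eq]
          calc s m' ⟨y, hy⟩ * (y * (t m')⁻¹)
              = (t m')⁻¹ * (t m' * s m' ⟨y, hy⟩) * y * (t m')⁻¹ := by group
            _ = (t m')⁻¹ * (s m' ⟨y, hy⟩ * (t m' * y)) * (t m')⁻¹ := by rw [hs2 (t m')]; group
            _ = (t m')⁻¹ * y := by rw [← e2]; group
        calc y * (t m * (t m')⁻¹) = (y * t m) * (t m')⁻¹ := by group
          _ = s m' ⟨y, hy⟩ * t m * (y * (t m')⁻¹) := by rw [e1]; group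
          _ = t m * (t m')⁻¹ * y := by rw [e3, ← hs2 (t m)]; group
      have h1 : mk (t m * (t m')⁻¹) = 1 := (hmk _).2 (hR hRmem)
      rw [map_mul, map_inv, ht, ht, mul_inv_eq_one] at h1
      exact Subtype.ext h1
    have hli : LinearIndependent k fun m => (ρ (t m) : Module.End k V) :=
      iSupIndep.linearIndependent _ ((iSupIndep_jointEigen_comm L hLc).comp hinj) hmem fun m =>
        (Units.ne_zero _)
    haveI := Fintype.ofFinite ↥D
    have := hli.fintype_card_le_finrank
    rwa [Module.finrank_linearMap, ← Nat.card_eq_fintype_card] at this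
  -- linearise the action on the section
  letI : CommGroup ↥D :=
    { (inferInstance : Group ↥D) with mul_comm := fun a b => Subtype.ext (hDcomm _ a.2 _ b.2) }
  obtain ⟨a, hcardD, f, hf, haut⟩ := exists_linearisation q ↥D fun x => Subtype.ext x.2.2.1
  let φ : H →* MulAut ↥D := MulAut.conjNormal.comp mk
  have hφ : ∀ g, φ g = 1 → ∀ x ∈ D1, ∃ s ∈ scalarPart ρ, g * x = s * (x * g) := by
    intro g hg x hx
    have h : ((φ g ⟨mk x, hx⟩ : ↥D) : H ⧸ scalarPart ρ) = mk x := by rw [hg]; rfl
    change mk g * mk x * (mk g)⁻¹ = mk x at h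
    refine hcen _ _ ?_
    rw [map_mul, map_mul]
    exact mul_inv_eq_iff_eq_mul.1 h
  rcases normal_dichotomy hr π hπ hmin φ.ker with hker | hker
  swap
  · -- everything centralises the section
    apply hDne
    have hD1c : ∀ x ∈ D1, ∀ g, Commute g x := by
      intro x hx
      choose s hs hgs using fun g => hφ g (MonoidHom.mem_ker.1 (hker ▸ Subgroup.mem_top g)) x hx
      have hsc : ∀ g h, s g * h = h * s g := fun g h =>
        (Subgroup.mem_center_iff.1 (scalarPart_le_center ρ hρ (hs g)) h).symm
      letI : CommGroup ↥(scalarPart ρ) :=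
        { (inferInstance : Group ↥(scalarPart ρ)) with
          mul_comm := fun a b => Subtype.ext
            ((Subgroup.mem_center_iff.1 (scalarPart_le_center ρ hρ a.2) b.1).symm) }
      have hmulS : ∀ g h, s (g * h) = s g * s h := by
        intro g h
        have e : g * h * x = s g * s h * (x * (g * h)) := by
          calc g * h * x = g * (h * x) := mul_assoc _ _ _
            _ = g * s h * (x * h) := by rw [hgs h, mul_assoc g]
            _ = s h * (g * x) * h := by rw [← hsc h g]; group
            _ = s h * s g * (x * (g * h)) := by rw [hgs g]; group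
            _ = _ := by rw [hsc h (s g)]
        exact mul_right_cancel ((hgs (g * h)).symm.trans e)
      let f : H →* ↥(scalarPart ρ) := MonoidHom.mk' (fun g => ⟨s g, hs g⟩) fun g h => Subtype.ext (hmulS g h)
      intro g
      have h1 : s g = 1 := congrArg Subtype.val (hom_trivial_of_comm hr π hπ hmin f g)
      have h2 := hgs g
      rw [h1, one_mul] at h2
      exact h2
    rw [Subgroup.eq_bot_iff_forall]
    intro m hm
    obtain ⟨x, rfl⟩ := hmks m
    refine (hmk x).2 (hR ⟨hm, Subgroup.mem_centralizer_iff.2 fun y hy => ?_⟩)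
    exact hD1c x hm y
  have h2a : 2 ^ a ≤ n * n := le_trans (Nat.pow_le_pow_left hq.out.two_le a) (hcardD ▸ hsq)
  by_cases hn4 : n ≤ 4
  · have h1 := card_alt_le_index π hπ hker
    have h2 : φ.ker.index ≤ q ^ (a * a) := by
      rw [Subgroup.index_ker]
      exact (Nat.card_le_card_of_injective φ.range.subtype Subtype.val_injective).trans haut
    have h16 : q ^ a ≤ 16 := (hcardD ▸ hsq).trans (Nat.mul_le_mul hn4 hn4)
    have ha4 : a ≤ 4 := by
      by_contra hlt
      have : 2 ^ 5 ≤ 2 ^ a := Nat.pow_le_pow_right (by norm_num) (by omega)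
      have := le_trans (Nat.pow_le_pow_left hq.out.two_le a) h16
      omega
    have h3 : q ^ (a * a) ≤ 65536 := by
      rw [pow_mul]
      calc (q ^ a) ^ a ≤ 16 ^ a := Nat.pow_le_pow_left h16 a
        _ ≤ 16 ^ 4 := Nat.pow_le_pow_right (by norm_num) ha4
        _ = 65536 := by norm_num
    haveI := Fin.nontrivial_iff_two_le.2 (show 2 ≤ r by omega)
    have h4 := two_mul_nat_card_alternatingGroup (α := Fin r)
    rw [Nat.card_perm, Nat.card_fin] at h4
    have h5 : Nat.factorial 9 ≤ Nat.factorial r := Nat.factorial_le hr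
    rw [show Nat.factorial 9 = 362880 by decide] at h5
    omega
  · have han : a < n := by
      by_contra hlt
      have key : ∀ m, 5 ≤ m → m * m < 2 ^ m := by
        intro m hm
        induction m, hm using Nat.le_induction with
        | base => norm_num
        | succ m hm ih => rw [pow_succ]; nlinarith
      have := key n (by omega)
      have : 2 ^ n ≤ 2 ^ a := Nat.pow_le_pow_right (by norm_num) (by omega)
      omega
    let kq := AlgebraicClosure (ZMod q)
    haveI : CharP kq q := charP_of_injective_algebraMap (algebraMap (ZMod q) kq).injective q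
    let ρ' : H →* (Module.End kq (Fin a → kq))ˣ := (f.comp φ).toHomUnits
    have hb := hrec a han q kq (Fin a → kq) (by simp) r hr H π hπ ρ' (fun g hg => hker (by
      rw [MonoidHom.mem_ker] at hg ⊢
      exact hf ((congrArg Units.val hg).trans (map_one f).symm)))
    have hra : r - 2 ≤ a := by split_ifs at hb <;> omega
    have key : ∀ m, 7 ≤ m → (m + 1) * (m + 1) ≤ 2 ^ m := by
      intro m hm
      induction m, hm using Nat.le_induction with
      | base => norm_num
      | succ m hm ih => rw [pow_succ]; nlinarith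
    have h1 := key (r - 2) (by omega)
    have h2 : 2 ^ (r - 2) ≤ 2 ^ a := Nat.pow_le_pow_right (by norm_num) hra
    have h3 : n * n < (r - 2 + 1) * (r - 2 + 1) := Nat.mul_lt_mul'' (by omega) (by omega)
    omega

include hr hπ hρ hirr in
/-- A scalar kernel gives a projective representation. -/
theorem bound_scalar (p : ℕ) [Fact p.Prime] [CharP k p] (hK : π.ker ≤ scalarPart ρ) :
    r - 1 - (if p ∣ r then 1 else 0) ≤ finrank k V := by
  let Φ : H × kˣ →* (Module.End k V)ˣ :=
    MonoidHom.noncommCoprod ρ (scalarUnit k V) fun h c =>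
      Units.ext ((Algebra.commutes (c : k) (ρ h : Module.End k V)).symm)
  have hΦ : ∀ h c, Φ (h, c) = ρ h * scalarUnit k V c := fun h c => rfl
  have hker : Φ.rangeRestrict.ker ≤ (π.comp (MonoidHom.fst H kˣ)).ker := by
    rintro ⟨h, c⟩ hh
    rw [MonoidHom.ker_rangeRestrict, MonoidHom.mem_ker, hΦ, mul_eq_one_iff_eq_inv, ← map_inv] at hh
    exact scalarPart_le_ker hr π hπ ρ hρ ⟨c⁻¹, hh.symm⟩
  let π' : ↥Φ.range →* alternatingGroup (Fin r) :=
    Φ.rangeRestrict.liftOfSurjective Φ.rangeRestrict_surjective ⟨π.comp (MonoidHom.fst H kˣ), hker⟩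
  have hπ' : ∀ h c, π' (Φ.rangeRestrict (h, c)) = π h := fun h c =>
    MonoidHom.liftOfRightInverse_comp_apply _ _ _ _ (h, c)
  let P : AltProj k V r :=
    { G := Φ.range
      π := π'
      surj := fun a => by
        obtain ⟨h, rfl⟩ := hπ a
        exact ⟨_, hπ' h 1⟩
      scalar_mem := fun c => ⟨(1, c), by rw [hΦ, map_one, one_mul]⟩
      ker_iff := by
        intro g
        obtain ⟨⟨h, c⟩, rfl⟩ := Φ.rangeRestrict_surjective g
        rw [hπ']
        show π h = 1 ↔ ∃ d, Φ (h, c) = scalarUnit k V d
        rw [hΦ]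
        constructor
        · intro hh
          obtain ⟨d, hd⟩ := hK (MonoidHom.mem_ker.2 hh)
          exact ⟨d * c, by rw [map_mul, hd]⟩
        · rintro ⟨d, hd⟩
          exact scalarPart_le_ker hr π hπ ρ hρ ⟨d * c⁻¹, by rw [map_mul, map_inv, ← hd, mul_inv_cancel_right]⟩
      irred := fun W hW => hirr W fun h v hv => by
        have := hW ⟨Φ (h, 1), ⟨(h, 1), rfl⟩⟩ v hv
        simpa [hΦ] using this
      nine_le := hr }
  rcases Nat.eq_zero_or_pos (p - 2) with h | h
  · obtain rfl : p = 2 := le_antisymm (by omega) (Fact.out : p.Prime).two_le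
    exact P.bound_charTwo
  · refine P.bound_odd ?_ p
    have h2 : ((2 : ℕ) : k) ≠ 0 := by
      rw [Ne, CharP.cast_eq_zero_iff k p]
      exact fun hd => by have := Nat.le_of_dvd (by norm_num) hd; omega
    exact_mod_cast h2

end Irreducible

theorem secBound_aux (n : ℕ) (hrec : ∀ m < n, SecBound m) (p : ℕ) [Fact p.Prime] (k : Type) [Field k]
    [IsAlgClosed k] [CharP k p] (V : Type) [AddCommGroup V] [Module k V] [FiniteDimensional k V]
    (hn : finrank k V = n) (r : ℕ) (hr : 9 ≤ r) : ∀ (N : ℕ) (H : Type) [Group H] [Finite H], Nat.card H = N →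
    ∀ (π : H →* alternatingGroup (Fin r)), Function.Surjective π → ∀ ρ : H →* (Module.End k V)ˣ,
    ρ.ker ≤ π.ker → r - 1 - (if p ∣ r then 1 else 0) ≤ n := by
  intro N
  induction N using Nat.strong_induction_on with
  | _ N ihN =>
  intro H _ _ hN π hπ ρ hker
  subst hn
  by_contra hlt
  -- reduce to a faithful representation
  have hρ : Function.Injective ρ := by
    rw [← MonoidHom.ker_eq_bot_iff]
    by_contra hbot
    have hlt' : Nat.card ↥ρ.range < N := by
      rw [← hN, ← Subgroup.index_ker, ← Subgroup.card_mul_index ρ.ker]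
      have h1 : 1 < Nat.card ↥ρ.ker := (Subgroup.one_lt_card_iff_ne_bot _).2 hbot
      have h2 : 0 < ρ.ker.index := Nat.pos_of_ne_zero Subgroup.index_ne_zero_of_finite
      nlinarith
    haveI : Finite ↥ρ.range := Finite.of_surjective _ ρ.rangeRestrict_surjective
    let π₁ : ↥ρ.range →* alternatingGroup (Fin r) :=
      ρ.rangeRestrict.liftOfSurjective ρ.rangeRestrict_surjective ⟨π, by rwa [MonoidHom.ker_rangeRestrict]⟩
    have hπ₁ : ∀ h, π₁ (ρ.rangeRestrict h) = π h := fun h =>
      MonoidHom.liftOfRightInverse_comp_apply _ _ _ _ h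
    exact hlt (ihN _ hlt' ↥ρ.range rfl π₁ (fun a => by
      obtain ⟨h, rfl⟩ := hπ a; exact ⟨_, hπ₁ h⟩) ρ.range.subtype
      (by rw [Subgroup.ker_subtype]; exact bot_le))
  -- minimality
  have hmin : ∀ K : Subgroup H, K.map π = ⊤ → K = ⊤ := by
    intro K hK
    by_contra hne
    have hlt' : Nat.card ↥K < N := hN ▸ lt_of_le_of_ne (Subgroup.card_le_card_group K)
      (fun e => hne (Subgroup.eq_top_of_card_eq K e))
    refine hlt (ihN _ hlt' ↥K rfl (π.comp K.subtype) ?_ (ρ.comp K.subtype) ?_)
    · intro a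
      obtain ⟨x, hx, rfl⟩ := (hK ▸ Subgroup.mem_top a : a ∈ K.map π)
      exact ⟨⟨x, hx⟩, rfl⟩
    · intro x hx
      exact hker (MonoidHom.mem_ker.2 (MonoidHom.mem_ker.1 hx))
  have hV : Nontrivial V := by
    by_contra hV
    rw [not_nontrivial_iff_subsingleton] at hV
    haveI : Subsingleton (Module.End k V) := ⟨fun f g => LinearMap.ext fun v => Subsingleton.elim _ _⟩
    haveI := nontrivial_alt hr
    obtain ⟨a, ha⟩ := exists_ne (1 : alternatingGroup (Fin r))
    obtain ⟨h, rfl⟩ := hπ a
    exact ha (by rw [hρ (Units.ext (Subsingleton.elim _ _) : ρ h = ρ 1), map_one])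
  -- irreducibility
  have hirr : ∀ W : Submodule k V, (∀ h : H, ∀ v ∈ W, (ρ h : Module.End k V) v ∈ W) → W = ⊥ ∨ W = ⊤ := by
    intro W hW
    by_contra hcon
    push Not at hcon
    let σ : H →* Module.End k ↥W :=
      { toFun := fun h => (ρ h : Module.End k V).restrict (hW h)
        map_one' := LinearMap.ext fun v => Subtype.ext (by simp)
        map_mul' := fun g h => LinearMap.ext fun v => Subtype.ext (by simp) }
    let τ : H →* Module.End k (V ⧸ W) :=
      { toFun := fun h => W.mapQ W (ρ h : Module.End k V) (fun v hv => hW h v hv)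
        map_one' := Submodule.linearMap_qext _ (LinearMap.ext fun v => by simp)
        map_mul' := fun g h => Submodule.linearMap_qext _ (LinearMap.ext fun v => by simp) }
    have hWlt : finrank k ↥W < finrank k V := Submodule.finrank_lt hcon.2
    have hQlt : finrank k (V ⧸ W) < finrank k V := by
      have := Submodule.finrank_quotient_add_finrank W
      have := Submodule.one_le_finrank_iff.2 hcon.1
      omega
    have hσ : σ.toHomUnits.ker = ⊤ := by
      rcases normal_dichotomy hr π hπ hmin σ.toHomUnits.ker with h | h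
      · exfalso
        have := hrec _ hWlt p k ↥W rfl r hr H π hπ _ h
        omega
      · exact h
    have hτ : τ.toHomUnits.ker = ⊤ := by
      rcases normal_dichotomy hr π hπ hmin τ.toHomUnits.ker with h | h
      · exfalso
        have := hrec _ hQlt p k (V ⧸ W) rfl r hr H π hπ _ h
        omega
      · exact h
    have hu : ∀ g v, v ∈ W → (ρ g : Module.End k V) v = v := by
      intro g v hv
      have h := congrArg Units.val (MonoidHom.mem_ker.1 (hσ ▸ Subgroup.mem_top g : g ∈ σ.toHomUnits.ker))
      have h' := congrArg Subtype.val (LinearMap.congr_fun h ⟨v, hv⟩)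
      simpa [σ] using h'
    have hd : ∀ g v, (ρ g : Module.End k V) v - v ∈ W := by
      intro g v
      have h := congrArg Units.val (MonoidHom.mem_ker.1 (hτ ▸ Subgroup.mem_top g : g ∈ τ.toHomUnits.ker))
      have h' := LinearMap.congr_fun h (Submodule.Quotient.mk v)
      exact (Submodule.Quotient.eq W).1 h'
    refine alt_not_comm hr fun a b => ?_
    obtain ⟨g, rfl⟩ := hπ a
    obtain ⟨h, rfl⟩ := hπ b
    have hcomm : g * h = h * g := by
      refine hρ (Units.ext (LinearMap.ext fun v => ?_))
      have e : ∀ g h : H, (ρ (g * h) : Module.End k V) v =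
          ((ρ g : Module.End k V) v - v) + ((ρ h : Module.End k V) v - v) + v := by
        intro g h
        rw [map_mul, Units.val_mul, Module.End.mul_apply]
        nth_rewrite 1 [← sub_add_cancel ((ρ h : Module.End k V) v) v]
        rw [map_add, hu g _ (hd h v)]
        abel
      rw [e, e]
      abel
    exact (show Commute g h from hcomm).map π
  have hsmall : finrank k V + 1 < r := by omega
  by_cases hK : π.ker ≤ scalarPart ρ
  · exact hlt (bound_scalar hr π hπ ρ hρ hirr p hK)
  · exact bound_nonscalar hr π hπ hmin ρ hρ hirr p hsmall hV hrec hK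

/-- The minimal degree of an alternating section. -/
theorem secBound (n : ℕ) : SecBound n := by
  induction n using Nat.strong_induction_on with
  | _ n ih =>
    intro p _ k _ _ _ V _ _ _ hn r hr H _ _ π hπ ρ hker
    exact secBound_aux n ih p k V hn r hr _ H rfl π hπ ρ hker

end Cfsg.Agent.H63.AltSec
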